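import Mathlib
import Cfsg.Agent.Loc.FpfTower
import Cfsg.Agent.GT.CoprimeGen

/-!
Ward's theorem: an elementary abelian group of order `p ^ 2` acting fixed-point-freely.
-/

set_option autoImplicit false

namespace Cfsg.Agent.Loc.H78

open Cfsg Module Cfsg.Agent.FT Cfsg.Agent.GT
open scoped commutatorElement

universe u

section Aux

variable {Γ : Type*} [Group Γ] [Finite Γ]

theorem comm_eq_bot_of_fpf {q t : ℕ} [Fact q.Prime] [Fact t.Prime] {Q P : Subgroup Γ}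
    (hQ : IsPGroup q Q) (hP : IsPGroup t P) (hqt : q ≠ t) (hPQ : P ≤ 𝐍(Q)) {b : Γ}
    (hbQ : b ∈ 𝐍(Q)) (hbP : b ∈ 𝐍(P)) {p : ℕ} (hp : p.Prime) (hb : b ^ p = 1)
    (h : (P ⊔ Q) ⊓ 𝐂[b] = ⊥) : ⁅Q, P⁆ = ⊥ := by
  have := CopAct.isSolvable_of_isPGroup hQ
  have := CopAct.isSolvable_of_isPGroup hP
  have := GT.Frob.isNilpotent_of_inf_centralizer_eq_bot_of_isSolvable
    (isSolvable_sup_of_le_normalizer hPQ) (CopAct.le_normalizer_sup (Subgroup.zpowers_le.2 hbP)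
      (Subgroup.zpowers_le.2 hbQ) (Subgroup.mem_zpowers b)) hp hb h
  exact CopAct.commutator_eq_bot_iff.2 (le_centralizer_of_coprime_of_isNilpotent (H := P ⊔ Q)
    le_sup_left le_sup_right (coprime_of_isPGroup_ne hqt.symm hP hQ))

theorem card_eq_of_card_sq {p : ℕ} (hp : p.Prime) {A B : Subgroup Γ} (hA : Nat.card A = p ^ 2)
    (hB : B ≤ A) (h0 : B ≠ ⊥) (h1 : B ≠ A) : Nat.card B = p := by
  obtain ⟨i, hi, e⟩ := (Nat.dvd_prime_pow hp).1 (hA ▸ Subgroup.card_dvd_of_le hB)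
  interval_cases i
  · exact (h0 (Subgroup.card_eq_one.1 (by simpa using e))).elim
  · simpa using e
  · exact (h1 (Subgroup.eq_of_le_of_card_ge hB (by rw [hA, e]))).elim

theorem eq_of_card_prime {p : ℕ} (hp : p.Prime) {B B' : Subgroup Γ} (hB : Nat.card B = p)
    (h : B' ≤ B) (h0 : B' ≠ ⊥) : B' = B := by
  rcases (Nat.dvd_prime hp).1 (hB ▸ Subgroup.card_dvd_of_le h) with e | e
  · exact (h0 (Subgroup.card_eq_one.1 e)).elim
  · exact Subgroup.eq_of_le_of_card_ge h (by rw [hB, e])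

theorem sup_eq_of_card_sq {p : ℕ} (hp : p.Prime) {A B X : Subgroup Γ} (hA : Nat.card A = p ^ 2)
    (hB : B ≤ A) (hX : X ≤ A) (hXp : Nat.card X = p) (h : ¬ B ≤ X) : B ⊔ X = A := by
  by_contra h1
  have h0 : X ≠ ⊥ := by
    rintro rfl
    exact hp.one_lt.ne (by simpa using hXp)
  have h2 := card_eq_of_card_sq hp hA (sup_le hB hX) (fun e => h0 (eq_bot_iff.2 (e ▸ le_sup_right))) h1
  exact h ((eq_of_card_prime hp h2 le_sup_right h0) ▸ le_sup_left)

omit [Finite Γ] in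
theorem inf_cent_eq_bot_of_sup {A B X H : Subgroup Γ} (h : B ⊔ X = A) (hH : H ≤ 𝐂(X))
    (hfix : H ⊓ 𝐂(A) = ⊥) : H ⊓ 𝐂(B) = ⊥ := by
  rw [eq_bot_iff, ← hfix]
  refine le_inf inf_le_left (Subgroup.le_centralizer_iff.1 (h ▸ sup_le ?_ ?_))
  · exact Subgroup.le_centralizer_iff.1 inf_le_right
  · exact Subgroup.le_centralizer_iff.1 (inf_le_left.trans hH)

theorem comm_eq_of_inf_cent_eq_bot {H R : Subgroup Γ} (hR : R ≤ 𝐍(H))
    (hcop : (Nat.card R).Coprime (Nat.card H)) (hsol : Group.IsSolvable H) (h : H ⊓ 𝐂(R) = ⊥) :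
    ⁅H, R⁆ = H := by
  have := CopAct.commutator_sup_centralizer hR hcop (Or.inr hsol)
  rwa [h, sup_bot_eq] at this

theorem ward_arith {p q e u N : ℕ} (hp : p.Prime) (hq : q.Prime) (he : e ≠ 0)
    (h1 : N ^ 2 = (q ^ e) ^ p) (h2 : (q ^ e) ^ p = u ^ 2 * q ^ e) (hu : u + 1 = p) : False := by
  have h3 : (q ^ e) ^ u = u ^ 2 := by
    rw [← hu, pow_succ] at h2
    exact Nat.eq_of_mul_eq_mul_right (pow_pos hq.pos e) h2
  rw [← pow_mul] at h1
  obtain ⟨m, rfl⟩ := eq_pow_of_sq_eq hq h1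
  rw [← pow_mul] at h1
  have h4 := Nat.pow_right_injective hq.two_le h1
  rcases hp.eq_two_or_odd' with rfl | hodd
  · obtain rfl : u = 1 := by omega
    have := Nat.one_lt_pow he hq.one_lt
    rw [pow_one, one_pow] at h3
    omega
  · have h5 : 2 ≤ e := by
      have : Even (e * p) := h4 ▸ even_iff_two_dvd.2 (dvd_mul_left 2 m)
      obtain ⟨k, hk⟩ := (Nat.even_mul.1 this).resolve_right (Nat.not_even_iff_odd.2 hodd)
      omega
    have h6 : 2 ^ 2 ≤ q ^ e := (Nat.pow_le_pow_left hq.two_le 2).trans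
      (Nat.pow_le_pow_right hq.pos h5)
    have h7 := Nat.pow_le_pow_left h6 u
    rw [h3, ← pow_mul, mul_comm, pow_mul] at h7
    have h8 := (Nat.pow_le_pow_iff_left two_ne_zero).1 h7
    exact (Nat.lt_two_pow_self (n := u)).not_ge h8

end Aux

section Core

variable {Γ : Type*} [Group Γ] [Finite Γ] {r : ℕ} [hr : Fact r.Prime] {V : Type*}
  [AddCommGroup V] [Module (ZMod r) V] [Finite V]

theorem ward_core (π : Representation (ZMod r) Γ V) {p q t : ℕ} [hp : Fact p.Prime]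
    [hq : Fact q.Prime] [ht : Fact t.Prime] (hpq : p ≠ q) (hpt : p ≠ t) (hqt : q ≠ t)
    {Q₀ P₀ A : Subgroup Γ} (hQ₀ : IsPGroup q Q₀) (hP₀ : IsPGroup t P₀)
    (hA : IsElementaryAbelian p A) (hcard : Nat.card A ∣ p ^ 2) (hAQ₀ : A ≤ 𝐍(Q₀))
    (hAP₀ : A ≤ 𝐍(P₀)) (hPQ₀ : P₀ ≤ 𝐍(Q₀)) (hrq : r ≠ q) (hrA : ¬ r ∣ Nat.card A)
    (hfaith : Q₀ ⊓ π.ker = ⊥) (hfix : (P₀ ⊔ Q₀) ⊓ 𝐂(A) = ⊥)
    (hV : pfix (π : Γ → Module.End (ZMod r) V) A = ⊥) : ⁅Q₀, P₀⁆ = ⊥ := by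
  by_contra hne
  have hAp := CopAct.isPGroup_of_isElementaryAbelian hA
  have hnc : ¬ IsCyclic A := by
    intro hc
    obtain ⟨b, hb⟩ := isCyclic_iff_exists_zpowers_eq_top.1 hc
    have e : Subgroup.zpowers (b : Γ) = A := by
      have := congrArg (Subgroup.map A.subtype) hb
      rwa [MonoidHom.map_zpowers, ← MonoidHom.range_eq_map, Subgroup.range_subtype] at this
    refine hne (comm_eq_bot_of_fpf hQ₀ hP₀ hqt hPQ₀ (hAQ₀ b.2) (hAP₀ b.2) hp.out (hA.2 b b.2) ?_)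
    rwa [← GT.centralizer_zpowers, e]
  have hA2 : Nat.card A = p ^ 2 := by
    obtain ⟨i, hi, e⟩ := (Nat.dvd_prime_pow hp.out).1 hcard
    by_contra h1
    have : i ≤ 1 := by
      by_contra h2
      exact h1 (by rw [e]; congr 1; omega)
    exact hnc (isCyclic_of_card_dvd_prime (p := p) (e ▸ (pow_dvd_pow p this).trans (pow_one p).dvd))
  obtain ⟨a, haA, ha1, haP⟩ : ∃ a ∈ A, a ≠ 1 ∧ ¬ P₀ ⊓ 𝐂[a] ≤ 𝐂(Q₀) := by
    by_contra h1
    push Not at h1
    exact hne (CopAct.commutator_eq_bot_iff.2 (CopAct.le_of_centralizer_elt_le hA.1 hnc hAP₀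
      (coprime_of_isPGroup_ne hpt hAp hP₀) h1))
  rw [← GT.centralizer_zpowers] at haP
  set X := Subgroup.zpowers a
  have hXA : X ≤ A := Subgroup.zpowers_le.2 haA
  have hXp : Nat.card X = p := by
    rw [Nat.card_zpowers]; exact orderOf_eq_prime (hA.2 a haA) ha1
  set P := P₀ ⊓ 𝐂(X)
  have hP : IsPGroup t P := hP₀.to_le inf_le_left
  have hAP : A ≤ 𝐍(P) := CopAct.le_normalizer_inf_centralizer_of_isMulCommutative hA.1 hXA hAP₀
  obtain ⟨Q, hQ0, hAQ, hPQ, hnt, hmin⟩ := CopAct.exists_minimal_not_centralized hAQ₀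
    (inf_le_left.trans hPQ₀ : P ≤ _) fun e => haP (CopAct.commutator_eq_bot_iff.1 e)
  have hQ : IsPGroup q Q := hQ₀.to_le hQ0
  have hcop : (Nat.card A).Coprime (Nat.card Q) := coprime_of_isPGroup_ne hpq hAp hQ
  have hcopP : (Nat.card P).Coprime (Nat.card Q) := coprime_of_isPGroup_ne hqt.symm hP hQ
  have hcopAP : (Nat.card A).Coprime (Nat.card P) := coprime_of_isPGroup_ne hpt hAp hP
  have hsQ := CopAct.isSolvable_of_isPGroup hQ
  have hsP := CopAct.isSolvable_of_isPGroup hP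
  obtain ⟨s1, s2, -, s4, s5, -⟩ := CopAct.minimal_action_structure hQ hAQ hPQ hAP
    (((Nat.Prime.coprime_iff_not_dvd hq.out).2 (isPGroup_not_dvd hq.out hqt hP)).symm) hnt hmin
  have hfPQ : (P ⊔ Q) ⊓ 𝐂(A) = ⊥ :=
    eq_bot_iff.2 (hfix ▸ inf_le_inf_right _ (sup_le_sup inf_le_left hQ0))
  have hfP : P ⊓ 𝐂(A) = ⊥ := eq_bot_iff.2 (hfPQ ▸ inf_le_inf_right _ le_sup_left)
  have hfQ : Q ⊓ 𝐂(A) = ⊥ := eq_bot_iff.2 (hfPQ ▸ inf_le_inf_right _ le_sup_right)
  obtain ⟨b, hbA, hbX⟩ : ∃ b ∈ A, b ∉ X := by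
    by_contra h1
    push Not at h1
    have := Subgroup.card_le_of_le (show A ≤ X from h1)
    rw [hA2, hXp] at this
    nlinarith [hp.out.two_le]
  have hsup : ∀ B ≤ A, ¬ B ≤ X → B ⊔ X = A := fun B h1 h2 =>
    sup_eq_of_card_sq hp.out hA2 h1 hXA hXp h2
  have hbs := hsup _ (Subgroup.zpowers_le.2 hbA) fun h => hbX (h (Subgroup.mem_zpowers b))
  have hQX : Q ⊓ 𝐂(X) ≤ ⁅Q, Q⁆ := by
    have h1 : Q ⊓ 𝐂(X) < Q := lt_of_le_of_ne inf_le_left fun e => hnt
      (comm_eq_bot_of_fpf hQ hP hqt hPQ (hAQ hbA) (hAP hbA) hp.out (hA.2 b hbA) (by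
        rw [← GT.centralizer_zpowers]
        exact inf_cent_eq_bot_of_sup hbs (sup_le inf_le_right (e ▸ inf_le_right)) hfPQ))
    have h2 := hmin _ h1 (CopAct.le_normalizer_inf_centralizer_of_isMulCommutative hA.1 hXA hAQ)
      (CopAct.le_normalizer_inf hPQ (CopAct.le_normalizer_centralizer
        (CopAct.le_normalizer_of_le_centralizer inf_le_right)))
    exact s2 ▸ le_inf inf_le_left
      (Subgroup.le_centralizer_iff.1 (CopAct.commutator_eq_bot_iff.1 h2))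
  have hPB : ∀ B ≤ A, ¬ B ≤ X → ⁅P, B⁆ = P := fun B h1 h2 =>
    comm_eq_of_inf_cent_eq_bot (h1.trans hAP) (CopAct.coprime_mono hcopAP h1 le_rfl) hsP
      (inf_cent_eq_bot_of_sup (hsup B h1 h2) inf_le_right hfP)
  have hrQ := isPGroup_not_dvd hr.out hrq hQ
  have hZ0 : Q ⊓ 𝐂(Q) ≠ ⊥ := by
    intro e
    have h1 : ⁅Q, Q⁆ = ⊥ := s5.elim id fun h => h ▸ e
    rw [inf_eq_left.2 (CopAct.commutator_eq_bot_iff.1 h1)] at e
    exact hnt (by rw [e, Subgroup.commutator_bot_left])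
  have hQM : Q ≤ Q ⊔ A ⊔ P := le_sup_left.trans le_sup_left
  obtain ⟨U, π', hM, h0, ⟨K, hK⟩, hcfg⟩ := exists_cfg π hQM (le_sup_right.trans le_sup_left)
    (sup_le (CopAct.sup_le_normalizer hAQ) hPQ) hcop.symm hrQ
    (eq_bot_iff.2 (hfaith ▸ inf_le_inf_right _ hQ0)) hV s4 hZ0
  have hrM := not_dvd_card_sup hr.out hAQ hcop.symm hrQ hrA
  set Z := Q ⊓ 𝐂(Q)
  have hfZ : Z ⊓ 𝐂(A) = ⊥ := eq_bot_iff.2 (hfQ ▸ inf_le_inf_right _ inf_le_left)
  have hBp : ∀ K, MaxFix π' Z K → Nat.card ↥(A ⊓ cent2 Z K) = p := fun K hK =>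
    card_eq_of_card_sq hp.out hA2 inf_le_left ((hcfg K hK).stab_ne_bot hrM) fun e => hK.not_le h0 (by
      have := comm_le_of_le_cent2 (e.ge.trans inf_le_right)
      rwa [comm_eq_of_inf_cent_eq_bot (hcfg K hK).hAZ (CopAct.coprime_mono hcop le_rfl inf_le_left)
        (CopAct.isSolvable_of_le inf_le_left hsQ) hfZ] at this)
  have h := hcfg K hK
  have hZK := hK.not_le h0
  set B := A ⊓ cent2 Z K
  have hB := hBp K hK
  have hB0 := h.stab_ne_bot hrM
  rcases s5 with s5 | s5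
  · have e : Z = Q := inf_eq_left.2 (CopAct.commutator_eq_bot_iff.1 s5)
    have hQX' : ⁅Q, X⁆ = Q := comm_eq_of_inf_cent_eq_bot (hXA.trans hAQ)
      (CopAct.coprime_mono hcop hXA le_rfl) hsQ (eq_bot_iff.2 (s5 ▸ hQX))
    have hX1 : ∀ K, MaxFix π' Z K → X ⊓ cent2 Z K = ⊥ := fun K hK => by
      by_contra h1
      have h2 := eq_of_card_prime hp.out hXp inf_le_left h1
      have h3 := comm_le_of_le_cent2 (h2.ge.trans inf_le_right)
      rw [e, hQX'] at h3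
      exact hK.not_le h0 (e ▸ h3)
    have hBX : ∀ K, MaxFix π' Z K → ¬ A ⊓ cent2 Z K ≤ X := fun K hK h1 =>
      (hcfg K hK).stab_ne_bot hrM (eq_bot_iff.2 (hX1 K hK ▸ le_inf h1 inf_le_right))
    have hPZ : P ≤ 𝐍(Z) := e ▸ hPQ
    have h1 : B ≤ cent2 Z (acore P K) := by
      intro c hc
      refine ⟨hc.2.1, fun y hy => mem_acore.2 fun x hx => ?_⟩
      have hK' := hK.conj hM (inf_le_left.trans hQM) (Subgroup.mem_sup_right hx) (hPZ hx)
      set K' := K.comap (MulAut.conj x).toMonoidHom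
      suffices h2 : c ∈ cent2 Z K' from h2.2 y hy
      have h3 : x⁻¹ * c * x ∈ cent2 Z K' := by
        refine ⟨mul_mem (mul_mem (inv_mem (hPZ hx)) hc.2.1) (hPZ hx), fun z hz => ?_⟩
        have := hc.2.2 _ (CopAct.conj_mem hPZ hx hz)
        change x * _ * x⁻¹ ∈ K
        rwa [conjugate_commutatorElement, show x * (x⁻¹ * c * x) * x⁻¹ = c by group]
      obtain ⟨c', hc', a', ha', rfl⟩ := (CopAct.mem_sup_iff_of_le_normalizer
        (CopAct.le_normalizer_of_isMulCommutative hA.1 hXA inf_le_left)).1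
        ((hsup _ inf_le_left (hBX K' hK')).ge hc.1)
      have h4 : Commute a' x := hx.2 a' ha'
      have h5 : c'⁻¹ * x⁻¹ * c' * x ∈ P := mul_mem (CopAct.conj_mem' hAP hc'.1 (inv_mem hx)) hx
      have h6 : (c'⁻¹ * x⁻¹ * c' * x) * a' ∈ cent2 Z K' := by
        have := mul_mem ((cent2 Z K').inv_mem hc'.2) h3
        rwa [show c'⁻¹ * (x⁻¹ * (c' * a') * x) = c'⁻¹ * x⁻¹ * c' * (a' * x) by group, h4.eq,
          ← mul_assoc] at this
      have h7 := pow_mem h6 (Nat.card P)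
      have h8 : (c'⁻¹ * x⁻¹ * c' * x) ^ Nat.card P = 1 :=
        congrArg Subtype.val (pow_card_eq_one' (G := P) (x := ⟨_, h5⟩))
      rw [(show Commute _ a' from (h5.2 a' ha').symm).mul_pow, h8, one_mul] at h7
      have h9 : a' ^ Nat.card P = 1 := by
        have : a' ^ Nat.card P ∈ X ⊓ cent2 Z K' := ⟨pow_mem ha' _, h7⟩
        rwa [hX1 K' hK', Subgroup.mem_bot] at this
      have h10 : (⟨a', hXA ha'⟩ : A) = 1 :=
        CopAct.eq_one_of_pow_eq_one_of_coprime hcopAP.symm (Subtype.ext h9)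
      rw [show a' = 1 from congrArg Subtype.val h10, mul_one]
      exact hc'.2
    have h2 := le_of_comm_eq (le_norm_cent2 hPZ (le_norm_acore P K)) h1
      (hPB B inf_le_left (hBX K hK))
    have h3 := comm_le_of_le_cent2 h2
    rw [e, s1] at h3
    exact hZK (e ▸ h3.trans (acore_le P K))
  have hCP : Q ⊓ 𝐂(P) = Z := s2.trans s5.symm
  have hPK : P ≤ 𝐍(K) := CopAct.le_normalizer_of_le_centralizer
    (Subgroup.le_centralizer_iff.1 (hK.le.trans (hCP.ge.trans inf_le_right)))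
  set Y := Q ⊓ cent2 Q K
  have hPY : P ≤ 𝐍(Y) := CopAct.le_normalizer_inf hPQ (le_norm_cent2 hPQ hPK)
  have hR : ∀ B' ≤ B, B' ≠ ⊥ → B ≤ B' := fun B' h1 h2 => (eq_of_card_prime hp.out hB h1 h2).ge
  have hYQ : ¬ Q ≤ Y := fun e => hZK (s5.le.trans (comm_le_of_le_rad e))
  have hW : ∀ R ≤ A, ¬ R ≤ X → Nat.card R = p → ∀ D ≤ Q, Z ≤ D → P ≤ 𝐍(D) → R ≤ 𝐍(D) →
      D.relIndex Q = D.relIndex (Q ⊓ 𝐂(R)) ^ p := by
    intro R h1 h2 h3 D h4 h5 h6 h7
    have hc := CopAct.coprime_mono hcopAP h1 le_rfl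
    rw [← h3]
    refine relIndex_eq_pow_of_frob h4 hPQ (h1.trans hAQ) h6 h7
      ⟨⟨rfl, CopAct.inf_eq_bot_of_coprime hc.symm, h1.trans hAP⟩, fun e => hnt (by simp [e]),
        fun e => h2 (e ▸ bot_le), fun x hx hx1 => ?_⟩ ?_ hsQ (hCP ▸ h5)
    · rw [← GT.centralizer_zpowers, eq_of_card_prime hp.out h3 (Subgroup.zpowers_le.2 hx)
        (by rwa [Ne, Subgroup.zpowers_eq_bot])]
      exact inf_cent_eq_bot_of_sup (hsup R h1 h2) inf_le_right hfP
    · rw [CopAct.card_sup_of_coprime (h1.trans hAP) hc]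
      exact Nat.Coprime.mul_right hcopP.symm (CopAct.coprime_mono hcop h1 le_rfl).symm
  by_cases hBX : B ≤ X
  · have e : B = X := eq_of_card_prime hp.out hXp hBX hB0
    have hCB : Q ⊓ 𝐂(B) ≤ Z := by rw [e]; exact hQX.trans s5.ge
    obtain ⟨u, hu, hu'⟩ := h.count_comm hrM (h.rad_decomp h.hBY
      (CopAct.coprime_mono hcop inf_le_left le_rfl) hsQ hCB fun y hy c hc =>
        h.comm_fixes hrM (fun B' h1 h2 => hR B' h1 h2 hc) hy) hA.1 hR
    rw [Subgroup.relIndex_eq_one.2 (hCB.trans h.hZY), mul_one] at hu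
    have hu1 : u ≠ 1 := by
      rintro rfl
      exact hYQ (Subgroup.relIndex_eq_one.1 (hu.trans (one_pow 2)))
    obtain ⟨hu3, -⟩ := hu'.resolve_left fun h1 => hu1 h1.1
    have hD := h.relIndex_acore_le hfZ
    have hDQ : acore A Y ≤ Q := (acore_le A Y).trans inf_le_left
    have hZD : Z ≤ acore A Y := le_acore h.hZY h.hAZ
    have hbp : Nat.card (Subgroup.zpowers b) = p := by
      rw [Nat.card_zpowers]
      exact orderOf_eq_prime (hA.2 b hbA) fun e => hbX (e ▸ X.one_mem)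
    have h1 := hW _ (Subgroup.zpowers_le.2 hbA) (fun h => hbX (h (Subgroup.mem_zpowers b))) hbp _
      hDQ hZD (le_norm_acore_of hAP hPY) ((Subgroup.zpowers_le.2 hbA).trans (le_norm_acore A Y))
    have hdvd := card_dvd_relIndex_sub_one (A := X) (Q := Q ⊓ 𝐂(Subgroup.zpowers b))
      (D := acore A Y) (hXA.trans (CopAct.le_normalizer_inf_centralizer_of_isMulCommutative hA.1
        (Subgroup.zpowers_le.2 hbA) hAQ)) (hXA.trans (le_norm_acore A Y))
      (inf_le_left.trans (le_norm_acore_of hAQ h.hQY)) fun c hc hc1 x hx hxc => by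
        have e1 := eq_of_card_prime hp.out hXp (Subgroup.zpowers_le.2 hc)
          (by rwa [Ne, Subgroup.zpowers_eq_bot])
        exact mem_of_comm_mem (hXA.trans (le_norm_acore A Y)) (CopAct.coprime_mono hcop hXA hDQ)
          (Or.inr (CopAct.isSolvable_of_le hDQ hsQ)) hDQ ((hQX.trans s5.ge).trans hZD) hx.1
          fun c' hc' => comm_mem_of_mem_zpowers (le_norm_acore A Y (hXA hc)) hxc (e1.ge hc')
    obtain ⟨d, hd⟩ := exists_relIndex_eq_pow
      (hQ.to_le (inf_le_left : Q ⊓ 𝐂(Subgroup.zpowers b) ≤ Q)) (acore A Y)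
    obtain ⟨e', he⟩ := exists_relIndex_eq_pow hQ Y
    obtain ⟨m, rfl⟩ := eq_pow_of_sq_eq hq.out (hu.symm.trans he)
    have hm : m ≠ 0 := by rintro rfl; simp at hu1
    have hd0 : d ≠ 0 := by
      rintro rfl
      rw [hd, pow_zero, one_pow] at h1
      exact hYQ ((Subgroup.relIndex_eq_one.1 h1).trans (acore_le A Y))
    have hi : B.relIndex A = p := by
      have := GT.card_mul_relIndex (inf_le_left : B ≤ A)
      rw [hB, hA2, sq] at this
      exact Nat.eq_of_mul_eq_mul_left hp.out.pos this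
    rw [hXp, hd, ← hB, ← hu3] at hdvd
    have h2 := Nat.le_of_dvd (Nat.pos_of_ne_zero hd0)
      (two_mul_dvd_of_pow_add_one_dvd hq.out.two_le hm hdvd)
    rw [h1, hd, hu, hi, ← pow_mul, ← pow_mul, ← pow_mul] at hD
    have h3 := (Nat.pow_le_pow_iff_right hq.out.one_lt).1 hD
    obtain ⟨s, hs⟩ : ∃ s, p = s + 1 := ⟨_, (Nat.succ_pred_eq_of_pos hp.out.pos).symm⟩
    rw [hs, Nat.add_sub_cancel] at h3
    nlinarith [Nat.pos_of_ne_zero hm]
  · have hY := h.rad_decomp_of_comm hrM hM hQM le_sup_right hPQ hPK hR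
      (hPB B inf_le_left hBX).ge le_rfl hcopP hsQ hCP.le
    obtain ⟨u, hu, hu'⟩ := h.count_comm hrM hY hA.1 hR
    obtain ⟨N, hN⟩ := (h.count hrM hY inf_le_left le_rfl
      fun x hx hxY => exists_comm_notMem hx hxY).1
    have hN2 := relIndex_eq_of_mul_card inf_le_left hN
    have h1 := hW B inf_le_left hBX hB Y inf_le_left h.hZY hPY h.hBY
    obtain ⟨e, he⟩ := exists_relIndex_eq_pow (hQ.to_le (inf_le_left : Q ⊓ 𝐂(B) ≤ Q)) Y
    have he0 : e ≠ 0 := by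
      rintro rfl
      rw [he, pow_zero, one_pow] at h1
      exact hYQ (Subgroup.relIndex_eq_one.1 h1)
    rw [he] at hu h1
    rcases hu' with ⟨rfl, -⟩ | ⟨hu3, -⟩
    · rw [h1, one_pow, one_mul, ← pow_mul] at hu
      have := Nat.pow_right_injective hq.out.two_le hu
      nlinarith [hp.out.two_le, Nat.pos_of_ne_zero he0]
    · exact ward_arith hp.out hq.out he0 (hN2.symm.trans h1) (h1.symm.trans hu) (hu3.trans hB)

end Core

theorem isNilpotent_nilRes_of_ward {Γ : Type u} [Group Γ] [Finite Γ] {G A : Subgroup Γ} [G.Normal]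
    (hsol : Group.IsSolvable G) {p : ℕ} [hp : Fact p.Prime] (hA : IsElementaryAbelian p A)
    (hcard : Nat.card A ∣ p ^ 2) (hcop : ¬ p ∣ Nat.card G) (hfix : G ⊓ 𝐂(A) = ⊥) :
    Group.IsNilpotent (FG.H93.nilRes G) := by
  by_contra hT
  have hco := CopAct.coprime_of_isPGroup_left (CopAct.isPGroup_of_isElementaryAbelian hA) hcop
  have hTG := FG.H93.nilRes_le G
  obtain ⟨Δ, _, _, f, r, hr, V, _, _, _, π, h1, h2, h3, h4, h5, h6, h7⟩ :=
    exists_faithful_quot Γ G _ A hTG hsol hT hco hfix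
  have := Subgroup.Normal.map ‹G.Normal› f h1
  rw [FG.H93.map_nilRes] at h4 h5 h6
  have hco' : (Nat.card (A.map f)).Coprime (Nat.card (G.map f)) :=
    (hco.coprime_dvd_left (Subgroup.card_map_dvd _ _)).coprime_dvd_right (Subgroup.card_map_dvd _ _)
  obtain ⟨q, hq, hqd, t, ht, htq, htd, P, hP, hne⟩ := exists_tower h4 (FG.H93.nilRes_le _)
    (nilRes_le_comm _) hco' (Or.inr (isSolvable_map G f))
  have := Fact.mk hq
  have hle := (pCoreOf_le (p := q) _).trans (FG.H93.nilRes_le (G.map f))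
  refine hne (le_sup_of_le_left (CopAct.commutator_eq_bot_iff.1 (ward_core π (p := p)
    (A := A.map f) ?_ ?_ htq.symm (isPGroup_pCoreOf q _) (P.isPGroup'.map _)
    ⟨isMulCommutative_map f hA.1, ?_⟩ ((Subgroup.card_map_dvd _ _).trans hcard)
    Subgroup.le_normalizer_of_normal hP Subgroup.le_normalizer_of_normal ?_ ?_
    (eq_bot_iff.2 (h3 ▸ inf_le_inf_right _ hle)) ?_ h7)))
  · rintro rfl
    exact hcop (hqd.trans ((Subgroup.card_dvd_of_le (FG.H93.nilRes_le _)).trans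
      (Subgroup.card_map_dvd _ _)))
  · rintro rfl
    exact hcop (htd.trans (Subgroup.card_map_dvd _ _))
  · rintro _ ⟨a, ha, rfl⟩
    rw [← map_pow, hA.2 a ha, map_one]
  · rintro rfl
    exact h6 hqd
  · intro h
    exact hr.out.one_lt.ne' (Nat.eq_one_of_dvd_coprimes hco (h.trans (Subgroup.card_map_dvd _ _)) h2)
  · rw [eq_bot_iff, ← Subgroup.map_bot f, ← hfix,
      CopAct.map_inf_centralizer' f Subgroup.le_normalizer_of_normal hco (Or.inr hsol)]
    exact inf_le_inf_right _ (sup_le (Subgroup.map_subtype_le _) hle)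

end Cfsg.Agent.Loc.H78
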