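import Mathlib
import Cfsg.Agent.GT.PConstrained
import Cfsg.Agent.GT.PGroupElemAb
import Cfsg.Agent.Loc.CFKseq
import Cfsg.Agent.Loc.CFStrong

/-!
# Factorizations `G = C(Z S) N(W S)`
-/

set_option autoImplicit false

namespace Cfsg.Agent.Loc.CF

open Subgroup Cfsg.Agent.GT.Tr

universe u

/-- `Ω₁ Z` as a functor. -/
def ozF (p : ℕ) (Q : Type u) [Group Q] : Subgroup Q := omegaOne p (center Q)

theorem map_center_equiv {G G' : Type*} [Group G] [Group G'] (e : G ≃* G') :
    (center G).map e.toMonoidHom = center G' := by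
  rw [← GT.centralizer_top, ← GT.centralizer_top, ← map_top_of_surjective (e : G →* G') e.surjective]
  exact map_centralizer_equiv e ⊤

theorem isCharPFunctor_ozF {p : ℕ} [Fact p.Prime] : IsCharPFunctor.{u} p (ozF p) :=
  ⟨fun _ _ _ hQ _ => GT.PG.omegaOne_ne_bot (hQ.to_subgroup _)
      ((nontrivial_iff_ne_bot _).1 hQ.center_nontrivial),
    fun _ _ _ _ _ _ e => by
      rw [ozF, ozF, GT.PG.map_omegaOne_of_injective e.injective, map_center_equiv]⟩

theorem isCharPFunctor_center {p : ℕ} [Fact p.Prime] :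
    IsCharPFunctor.{u} p (fun Q _ => center Q) :=
  ⟨fun _ _ _ hQ _ => (nontrivial_iff_ne_bot _).1 hQ.center_nontrivial,
    fun _ _ _ _ _ _ e => map_center_equiv e⟩

variable {G : Type u} [Group G] {p : ℕ}

theorem induced_ozF (T : Subgroup G) : inducedFunctor (ozF p) T = omegaOne p (zc T) := by
  rw [inducedFunctor, ozF, GT.PG.map_omegaOne_of_injective T.subtype_injective,
    GT.map_center_subtype]

theorem induced_center (T : Subgroup G) : inducedFunctor (fun Q _ => center Q) T = zc T :=
  GT.map_center_subtype T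

variable {Z W : ∀ (Q : Type u) [Group Q], Subgroup Q}

/-- `x ∈ C(Z S) N(W S)`. -/
def FacAt (Z W : ∀ (Q : Type u) [Group Q], Subgroup Q) (S : Subgroup G) (x : G) : Prop :=
  ∃ a ∈ centralizer (inducedFunctor Z S : Set G), ∃ b ∈ normalizer (inducedFunctor W S : Set G),
    x = a * b

theorem FacAt.mul_left {S : Subgroup G} {x c : G} (h : FacAt Z W S x)
    (hc : c ∈ centralizer (inducedFunctor Z S : Set G)) : FacAt Z W S (c * x) :=
  let ⟨a, ha, b, hb, h1⟩ := h
  ⟨c * a, mul_mem hc ha, b, hb, by rw [h1, mul_assoc]⟩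

variable [Finite G]

theorem FacAt.map (hZ : IsCharPFunctor p Z) (hW : IsCharPFunctor p W) {S : Subgroup G}
    (hS : IsPGroup p S) {x : G} (h : FacAt Z W S x) {G' : Type u} [Group G'] {f : G →* G'}
    (hf : Function.Injective f) : FacAt Z W (S.map f) (f x) := by
  obtain ⟨a, ha, b, hb, rfl⟩ := h
  refine ⟨f a, ?_, f b, ?_, map_mul f a b⟩
  · rw [← map_induced_of_injective hZ hS hf]
    exact map_centralizer_le' _ _ ⟨a, ha, rfl⟩
  · rw [← map_induced_of_injective hW hS hf]
    exact le_normalizer_map _ ⟨b, hb, rfl⟩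

theorem forall_facAt_of_equiv [Fact p.Prime] (hZ : IsCharPFunctor p Z) (hW : IsCharPFunctor p W)
    {G' : Type u} [Group G'] [Finite G'] (e : G ≃* G')
    (h : ∀ (T : Sylow p G) (x : G), FacAt Z W (T : Subgroup G) x) (T : Sylow p G') (x : G') :
    FacAt Z W (T : Subgroup G') x := by
  obtain ⟨S, hS⟩ := exists_sylow_map_eq (f := (e : G →* G')) e.surjective T
  obtain ⟨x, rfl⟩ := e.surjective x
  exact hS ▸ (h S x).map hZ hW S.2 (f := (e : G →* G')) e.injective

variable [Fact p.Prime]

theorem FacAt.lift (hZ : IsCharPFunctor p Z) (hW : IsCharPFunctor p W) {S : Subgroup G}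
    (hS : IsPGroup p S) {G' : Type u} [Group G'] {f : G →* G'} (hf : Function.Surjective f)
    (hk : (Nat.card f.ker).Coprime p) (hc : f.ker ≤ centralizer (inducedFunctor Z S : Set G))
    {x : G} (h : FacAt Z W (S.map f) (f x)) : FacAt Z W S x := by
  have h1 : S ⊓ f.ker = ⊥ :=
    GT.CopAct.inf_eq_bot_of_coprime (GT.CopAct.coprime_of_isPGroup_right hk hS).symm
  obtain ⟨a, ha, b, hb, h2⟩ := h
  rw [← map_induced hZ hS f h1,
    ← GT.map_centralizer_of_coprime_ker hf hk (hS.to_le (induced_le Z S))] at ha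
  rw [← map_induced hW hS f h1,
    ← GT.map_normalizer_of_coprime_ker hf hk (hS.to_le (induced_le W S))] at hb
  obtain ⟨a, ha, rfl⟩ := ha
  obtain ⟨b, hb, rfl⟩ := hb
  have h3 : x * (a * b)⁻¹ ∈ f.ker := by
    rw [MonoidHom.mem_ker, map_mul, map_inv, map_mul, h2, mul_inv_cancel]
  simpa only [inv_mul_cancel_right] using FacAt.mul_left ⟨a, ha, b, hb, rfl⟩ (hc h3)

omit [Finite G] in
/-- The factorization passes from constrained sections to sections with `Z S ≤ O_p`. -/
theorem facAt_of_le_pCore (hZ : IsCharPFunctor p Z) (hW : IsCharPFunctor p W)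
    (hfac : ∀ (H : Type u) [Group H] [Finite H], Involves H G → Con p H →
      ∀ (T : Sylow p H) (x : H), FacAt Z W (T : Subgroup H) x)
    (H : Type u) [Group H] [Finite H] (hH : Involves H G) (S : Sylow p H)
    (hS : inducedFunctor Z (S : Subgroup H) ≤ pCore p H) (x : H) :
    FacAt Z W (S : Subgroup H) x := by
  refine section_induction (G := G) (P := fun H _ _ => ∀ S : Sylow p H,
    inducedFunctor Z (S : Subgroup H) ≤ pCore p H → ∀ x : H, FacAt Z W (S : Subgroup H) x)
    (fun L _ _ hL ih S hS x => ?_) H hH S hS x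
  by_cases hO : pPrimeCore p L = ⊥
  swap
  · have hf := QuotientGroup.mk'_surjective (pPrimeCore p L)
    refine FacAt.lift hZ hW S.2 hf (by rw [QuotientGroup.ker_mk']; exact GT.coprime_card_pPrimeCore p)
      (by rw [QuotientGroup.ker_mk']
          exact GT.pPrimeCore_le_centralizer_pCore.trans (centralizer_le hS))
      (ih _ (involves_quotient _) (GT.card_quotient_lt hO) (S.mapSurjective hf) ?_ _)
    change inducedFunctor Z ((S : Subgroup L).map _) ≤ _
    rw [← map_induced hZ S.2 _ (inf_ker_mk'_pPrimeCore S.2)]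
    exact (map_mono hS).trans (GT.map_pCore_le hf)
  by_cases hc : (S : Subgroup L) ⊓ centralizer (pCore p L : Set L) ≤ pCore p L
  · have h1 := centralizer_le_sup_pPrimeCore S hc
    rw [hO, sup_bot_eq] at h1
    exact hfac L hL h1 S x
  obtain ⟨c, hc1, k, hk, rfl⟩ := frattini_sylowIn S.2.to_inf_left inf_le_right
    (not_dvd_relIndex_sylow_inf_normal S (centralizer (pCore p L : Set L)))
    (le_normalizer_of_normal (mem_top x))
  set N := normalizer (((S : Subgroup L) ⊓ centralizer (pCore p L : Set L) : Subgroup L) : Set L)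
  have h1 : (S : Subgroup L) ≤ N := GT.CopAct.le_normalizer_inf le_normalizer le_normalizer_of_normal
  have h2 : ((S : Subgroup L).subgroupOf N).map N.subtype = S := by
    rw [subgroupOf_map_subtype, inf_of_le_left h1]
  refine FacAt.mul_left ?_ (centralizer_le hS hc1)
  rw [← h2]
  refine (ih N (involves_subgroup N) (GT.card_lt_of_ne_top
    (normalizer_ne_top_of_not_le S.2.to_inf_left hc)) (S.subtype h1) ?_ ⟨k, hk⟩).map hZ hW
    S.2.comap_subtype N.subtype_injective
  refine le_trans ?_ (GT.le_pCore (N := (pCore p L).subgroupOf N)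
    (GT.isPGroup_pCore p).comap_subtype)
  rw [subgroupOf, ← map_le_iff_le_comap, map_induced_of_injective hZ (S.subtype h1).2
    N.subtype_injective, Sylow.coe_subtype, h2]
  exact hS

/-- The factorization holds in the normalizer of any `p`-subgroup containing `Z S`. -/
theorem facAt_of_mem_normalizer (hZ : IsCharPFunctor p Z) (hW : IsCharPFunctor p W)
    (hfac : ∀ (H : Type u) [Group H] [Finite H], Involves H G → Con p H →
      ∀ (T : Sylow p H) (x : H), FacAt Z W (T : Subgroup H) x) (S : Sylow p G) {Q : Subgroup G}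
    (hQ : IsPGroup p Q) (h1 : (S : Subgroup G) ≤ normalizer (Q : Set G))
    (h2 : inducedFunctor Z (S : Subgroup G) ≤ Q) {x : G} (hx : x ∈ normalizer (Q : Set G)) :
    FacAt Z W (S : Subgroup G) x := by
  set N := normalizer (Q : Set G)
  have h3 : ((S : Subgroup G).subgroupOf N).map N.subtype = S := by
    rw [subgroupOf_map_subtype, inf_of_le_left h1]
  rw [← h3]
  refine (facAt_of_le_pCore hZ hW hfac N (involves_subgroup N) (S.subtype h1) ?_ ⟨x, hx⟩).map hZ hW
    S.2.comap_subtype N.subtype_injective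
  refine le_trans ?_ (GT.le_pCore (N := Q.subgroupOf N) hQ.comap_subtype)
  rw [subgroupOf, ← map_le_iff_le_comap, map_induced_of_injective hZ (S.subtype h1).2
    N.subtype_injective, Sylow.coe_subtype, h3]
  exact h2

end Cfsg.Agent.Loc.CF
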