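import Mathlib
import Cfsg.Agent.Loc.FpfTower
import Cfsg.Agent.Loc.FpfInv

/-!
Gross's theorem: for a cyclic `2`-group `A` acting fixed-point-freely on a soluble group `G`, with
involution `τ`, the group `[G, τ]` has Fitting height at most two.
-/

set_option autoImplicit false

namespace Cfsg.Agent.Loc.H78

open Cfsg Module Cfsg.Agent.FT Cfsg.Agent.GT
open scoped commutatorElement

universe u

section Core

variable {Γ : Type*} [Group Γ] [Finite Γ] {r : ℕ} [hr : Fact r.Prime] {V : Type*}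
  [AddCommGroup V] [Module (ZMod r) V] [Finite V]

theorem relIndex_cent_eq_of_comm {Q Y R B : Subgroup Γ} (hYQ : Y ≤ Q) (hQY : Q ≤ 𝐍(Y))
    (hBY : B ≤ 𝐍(Y)) (hRB : R ≤ B) (hcop : (Nat.card B).Coprime (Nat.card Y))
    (hsol : Group.IsSolvable Y) (h : ∀ x ∈ Q ⊓ 𝐂(R), ∀ b ∈ B, ⁅b, x⁆ ∈ Y) :
    Y.relIndex (Q ⊓ 𝐂(R)) = Y.relIndex (Q ⊓ 𝐂(B)) := by
  rw [← relIndex_sup_of_le_normalizer (inf_le_left.trans hQY : Q ⊓ 𝐂(R) ≤ _),
    ← relIndex_sup_of_le_normalizer (inf_le_left.trans hQY : Q ⊓ 𝐂(B) ≤ _)]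
  congr 1
  refine le_antisymm (sup_le (fun x hx => ?_) le_sup_right)
    (sup_le_sup_right (inf_le_inf_left _ (Subgroup.centralizer_le hRB)) _)
  obtain ⟨y, hy, c, hc, rfl⟩ := CopAct.exists_eq_mul_centralizer hBY hcop (Or.inr hsol)
    (k := x) fun b hb => comm_mem_symm (h x hx b hb)
  refine mul_mem (Subgroup.mem_sup_right hy) (Subgroup.mem_sup_left ⟨?_, hc⟩)
  simpa using mul_mem (inv_mem (hYQ hy)) hx.1

theorem gross_core (π : Representation (ZMod r) Γ V) {q t : ℕ} [hq : Fact q.Prime]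
    [ht : Fact t.Prime] (hq2 : q ≠ 2) (ht2 : t ≠ 2) (hqt : q ≠ t) {Q₀ P₀ A : Subgroup Γ}
    (hQ₀ : IsPGroup q Q₀) (hP₀ : IsPGroup t P₀) (hA : IsPGroup 2 A) (hAc : IsMulCommutative A)
    (hAQ₀ : A ≤ 𝐍(Q₀)) (hAP₀ : A ≤ 𝐍(P₀)) (hPQ₀ : P₀ ≤ 𝐍(Q₀)) (hrq : r ≠ q)
    (hrA : ¬ r ∣ Nat.card A) (hfaith : Q₀ ⊓ π.ker = ⊥)
    (hV : pfix (π : Γ → Module.End (ZMod r) V) A = ⊥) {τ : Γ} (hτA : τ ∈ A) (hτ : τ ^ 2 = 1)
    (hc : ∀ B ≤ A, B ≠ ⊥ → τ ∈ B) : ⁅Q₀, ⁅P₀, Subgroup.zpowers τ⁆⁆ = ⊥ := by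
  by_contra hne
  have := Fact.mk Nat.prime_two
  set R := Subgroup.zpowers τ
  have hRA : R ≤ A := Subgroup.zpowers_le.2 hτA
  set P := ⁅P₀, R⁆
  have hPP : P ≤ P₀ := CopAct.commutator_le_of_le_normalizer (hRA.trans hAP₀)
  have hP : IsPGroup t P := hP₀.to_le hPP
  have hAP : A ≤ 𝐍(P) := CopAct.le_normalizer_commutator hAP₀
    (CopAct.le_normalizer_of_isMulCommutative hAc le_rfl hRA)
  have hPR : ⁅P, R⁆ = P := CopAct.commutator_commutator_eq (hRA.trans hAP₀)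
    (coprime_of_isPGroup_ne ht2.symm (hA.to_le hRA) hP₀)
  obtain ⟨Q, hQ0, hAQ, hPQ, hnt, hmin⟩ := CopAct.exists_minimal_not_centralized hAQ₀
    (hPP.trans hPQ₀) hne
  have hQ : IsPGroup q Q := hQ₀.to_le hQ0
  have hcop : (Nat.card A).Coprime (Nat.card Q) := coprime_of_isPGroup_ne hq2.symm hA hQ
  have hcopP : (Nat.card P).Coprime (Nat.card Q) := coprime_of_isPGroup_ne hqt.symm hP hQ
  have hcopAP : (Nat.card A).Coprime (Nat.card P) := coprime_of_isPGroup_ne ht2.symm hA hP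
  have hsQ := CopAct.isSolvable_of_isPGroup hQ
  obtain ⟨s1, s2, -, s4, s5, s6⟩ := CopAct.minimal_action_structure hQ hAQ hPQ hAP
    (((Nat.Prime.coprime_iff_not_dvd hq.out).2 (isPGroup_not_dvd hq.out hqt hP)).symm) hnt hmin
  have hrQ := isPGroup_not_dvd hr.out hrq hQ
  have hZ0 : Q ⊓ 𝐂(Q) ≠ ⊥ := by
    intro e
    have h1 : ⁅Q, Q⁆ = ⊥ := s5.elim id fun h => h ▸ e
    rw [inf_eq_left.2 (CopAct.commutator_eq_bot_iff.1 h1)] at e
    exact hnt (by rw [e, Subgroup.commutator_bot_left])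
  have hQM : Q ≤ Q ⊔ A ⊔ P := le_sup_left.trans le_sup_left
  obtain ⟨U, π', hM, h0, ⟨K, hK⟩, hcfg⟩ := exists_cfg π hQM (le_sup_right.trans le_sup_left)
    (sup_le (CopAct.sup_le_normalizer hAQ) hPQ) hcop.symm hrQ
    (eq_bot_iff.2 (hfaith ▸ inf_le_inf_right _ hQ0)) hV s4 hZ0
  have hrM := not_dvd_card_sup hr.out hAQ hcop.symm hrQ hrA
  set Z := Q ⊓ 𝐂(Q)
  have h := hcfg K hK
  have hZK := hK.not_le h0
  set B := A ⊓ cent2 Z K
  have hB0 := h.stab_ne_bot hrM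
  have hτB : τ ∈ B := hc _ inf_le_left hB0
  rcases s5 with s5 | s5
  · have e : Z = Q := inf_eq_left.2 (CopAct.commutator_eq_bot_iff.1 s5)
    have hPZ : P ≤ 𝐍(Z) := e ▸ hPQ
    have h1 : R ≤ cent2 Z (acore P K) := by
      refine Subgroup.zpowers_le.2 ⟨hτB.2.1, fun y hy => mem_acore.2 fun x hx => ?_⟩
      have hK' := hK.conj hM (inf_le_left.trans hQM) (Subgroup.mem_sup_right hx) (hPZ hx)
      exact (hc _ inf_le_left ((hcfg _ hK').stab_ne_bot hrM)).2.2 y hy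
    have h3 := comm_le_of_le_cent2 (le_of_comm_eq (le_norm_cent2 hPZ (le_norm_acore P K)) h1 hPR)
    rw [e, s1] at h3
    exact hZK (e ▸ h3.trans (acore_le P K))
  have hCP : Q ⊓ 𝐂(P) = Z := s2.trans s5.symm
  have hPK : P ≤ 𝐍(K) := CopAct.le_normalizer_of_le_centralizer
    (Subgroup.le_centralizer_iff.1 (hK.le.trans (hCP.ge.trans inf_le_right)))
  set Y := Q ⊓ cent2 Q K
  have hPY : P ≤ 𝐍(Y) := CopAct.le_normalizer_inf hPQ (le_norm_cent2 hPQ hPK)
  have hR : ∀ B' ≤ B, B' ≠ ⊥ → R ≤ B' := fun B' h1 h2 =>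
    Subgroup.zpowers_le.2 (hc B' (h1.trans inf_le_left) h2)
  have hRB : R ≤ B := hR B le_rfl hB0
  have hYQ : ¬ Q ≤ Y := fun e => hZK (s5.le.trans (comm_le_of_le_rad e))
  have hY := h.rad_decomp_of_comm hrM hM hQM le_sup_right hPQ hPK hR hPR.ge le_rfl hcopP hsQ hCP.le
  obtain ⟨u, hu, ⟨-, hu'⟩ | ⟨hu1, hu2⟩⟩ := h.count_comm hrM hY hAc hR
  · have h1 : R ≤ cent2 Q Y := fun a ha => ⟨hAQ (hRA ha), fun y hy =>
      comm_mem_symm (hu' (Subgroup.commutator_mem_commutator hy ha))⟩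
    have h3 := comm_le_of_le_cent2 (le_of_comm_eq (le_norm_cent2 hPQ hPY) h1 hPR)
    exact hYQ (s1.ge.trans h3)
  have hBP : B ≤ 𝐍(P) := inf_le_left.trans hAP
  have hcBP := CopAct.coprime_mono hcopAP (inf_le_left : B ≤ A) le_rfl
  obtain ⟨n, ρ, hρ, hf⟩ := exists_lift_section (M := P ⊔ B) hQ h.hQY (s5.ge.trans h.hZY) (s6 hq2)
    (sup_le hPQ (inf_le_left.trans hAQ)) (sup_le hPY h.hBY) (by
      rw [CopAct.card_sup_of_coprime hBP hcBP, hq.out.dvd_mul, not_or]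
      exact ⟨isPGroup_not_dvd hq.out hqt hP,
        isPGroup_not_dvd hq.out hq2 (hA.to_le inf_le_left)⟩)
  have f0 := hf ⊥ bot_le
  rw [hρ.pfix_bot, finrank_top, inf_eq_left.2 (Subgroup.le_centralizer_iff.1 bot_le)] at f0
  have fR := hf R (hRB.trans le_sup_right)
  have fB := hf B le_sup_right
  have e1 := relIndex_cent_eq_of_comm inf_le_left h.hQY h.hBY hRB
    (CopAct.coprime_mono hcop inf_le_left inf_le_left) (CopAct.isSolvable_of_le inf_le_left hsQ) hu2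
  rw [fR, fB] at e1
  have e2 := Nat.pow_right_injective hq.out.two_le e1
  have e3 : pfix ρ B = pfix ρ R := Submodule.eq_of_le_of_finrank_eq (pfix_anti hRB) e2.symm
  rw [f0, fR] at hu
  obtain ⟨s, -, rfl⟩ := (Nat.dvd_prime_pow hq.out).1
    ((dvd_pow_self u two_ne_zero).trans (Dvd.intro _ hu.symm))
  rw [← pow_mul, ← pow_add] at hu
  have e4 := Nat.pow_right_injective hq.out.two_le hu
  have e5 := hρ.comm_le_pker_of_inv hq.out hq2 hqt hP le_sup_left le_sup_right hBP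
    (.of_setLike_mul_comm fun a ha b hb => setLike_mul_comm ha.1 hb.1)
    (isPGroup_not_dvd ht.out ht2 (hA.to_le inf_le_left)) hu1 hτB hτ
    (fun B' h1 h2 => hc B' (h1.trans inf_le_left) h2) e3.ge (by rw [e4, e3]; omega)
  have fP := hf P le_sup_left
  rw [hPR] at e5
  rw [e5, finrank_top, ← f0, hCP, Subgroup.relIndex_eq_one.2 h.hZY] at fP
  exact hYQ (Subgroup.relIndex_eq_one.1 fP.symm)

end Core

theorem isNilpotent_nilRes_comm_of_gross {Γ : Type u} [Group Γ] [Finite Γ] {G A : Subgroup Γ}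
    [G.Normal] (hsup : G ⊔ A = ⊤) (hsol : Group.IsSolvable G) (hA : IsPGroup 2 A)
    (hAc : IsMulCommutative A) (hcop : ¬ 2 ∣ Nat.card G) (hfix : G ⊓ 𝐂(A) = ⊥) {τ : Γ}
    (hτA : τ ∈ A) (hτ : τ ^ 2 = 1) (hc : ∀ B ≤ A, B ≠ ⊥ → τ ∈ B) :
    Group.IsNilpotent (FG.H93.nilRes ⁅G, Subgroup.zpowers τ⁆) := by
  by_contra hT
  have := Fact.mk Nat.prime_two
  have hRA : Subgroup.zpowers τ ≤ A := Subgroup.zpowers_le.2 hτA
  have hSn := normal_commutator_of_sup hsup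
    (CopAct.le_normalizer_of_isMulCommutative hAc le_rfl hRA)
  have hco := CopAct.coprime_of_isPGroup_left hA hcop
  have hSG : ⁅G, Subgroup.zpowers τ⁆ ≤ G := Subgroup.commutator_le_left _ _
  have e := CopAct.commutator_commutator_eq
    (Subgroup.le_normalizer_of_normal (H := G)) (CopAct.coprime_mono hco hRA le_rfl)
  set S := ⁅G, Subgroup.zpowers τ⁆
  obtain ⟨Δ, _, _, f, r, hr, V, _, _, _, π, h1, h2, h3, h4, h5, h6, h7⟩ :=
    exists_faithful_quot Γ G _ A ((FG.H93.nilRes_le S).trans hSG) hsol hT hco hfix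
  have := Subgroup.Normal.map hSn f h1
  rw [FG.H93.map_nilRes] at h4 h5 h6
  have hco' : (Nat.card (A.map f)).Coprime (Nat.card (S.map f)) :=
    (hco.coprime_dvd_left (Subgroup.card_map_dvd _ _)).coprime_dvd_right
      ((Subgroup.card_map_dvd _ _).trans (Subgroup.card_dvd_of_le hSG))
  have hsS : Group.IsSolvable S := CopAct.isSolvable_of_le hSG hsol
  obtain ⟨q, hq, hqd, t, ht, htq, htd, P, hP, hne⟩ := exists_tower h4 (FG.H93.nilRes_le _)
    (nilRes_le_comm _) hco' (Or.inr (isSolvable_map S f))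
  have := Fact.mk hq
  set T := FG.H93.nilRes (S.map f)
  have hle := ((pCoreOf_le (p := q) T).trans (FG.H93.nilRes_le _)).trans (Subgroup.map_mono hSG)
  have hQn : (pCoreOf q T).Normal := inferInstance
  have hDn : (𝐂(pCoreOf q T) ⊔ pCoreOf q T).Normal := inferInstance
  have hTD : T ≤ 𝐂(pCoreOf q T) ⊔ pCoreOf q T := by
    conv_lhs => rw [← pCoreOf_sup_pPrimeCoreOf q T]
    refine sup_le le_sup_right (le_sup_of_le_left (le_centralizer_of_coprime_of_isNilpotent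
      (pPrimeCoreOf_le T) (pCoreOf_le T) ?_))
    exact CopAct.coprime_of_isPGroup_right (coprime_card_pPrimeCoreOf q _) (isPGroup_pCoreOf q T)
  have e' := congrArg (Subgroup.map f) e
  rw [Subgroup.map_commutator, MonoidHom.map_zpowers] at e'
  refine hne (sylow_le_of_comm_le (R := Subgroup.zpowers (f τ)) ?_ e'.ge P (le_sup_of_le_left
    (CopAct.commutator_eq_bot_iff.1 (gross_core π (A := A.map f) ?_ ?_ htq.symm
      (isPGroup_pCoreOf q _) (P.isPGroup'.map _) (hA.map f) (isMulCommutative_map f hAc)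
      Subgroup.le_normalizer_of_normal hP Subgroup.le_normalizer_of_normal ?_ ?_
      (eq_bot_iff.2 (h3 ▸ inf_le_inf_right _ hle)) h7 (Subgroup.mem_map_of_mem f hτA) ?_
      (mem_map_of_forall_ne_bot f hc)))))
  · rw [← FG.H93.nilRes_eq_bot_iff, ← FG.H93.map_nilRes, Subgroup.map_eq_bot_iff,
      QuotientGroup.ker_mk']
    exact hTD
  · rintro rfl
    exact hcop (hqd.trans ((Subgroup.card_dvd_of_le ((FG.H93.nilRes_le _).trans
      (Subgroup.map_mono hSG))).trans (Subgroup.card_map_dvd _ _)))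
  · rintro rfl
    exact hcop (htd.trans ((Subgroup.card_map_dvd _ _).trans (Subgroup.card_dvd_of_le hSG)))
  · rintro rfl
    exact h6 hqd
  · intro h
    exact hr.out.one_lt.ne' (Nat.eq_one_of_dvd_coprimes hco (h.trans (Subgroup.card_map_dvd _ _)) h2)
  · rw [← map_pow, hτ, map_one]

open scoped CopAct in
/-- For `σ` fixed-point-free of order dividing `2 ^ (n + 1)`: an invariant normal subgroup of
Fitting height two modulo which `σ ^ 2 ^ n` is trivial. -/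
theorem exists_quot_fpf_two {G : Type u} [Group G] [Finite G] (hG : Group.IsSolvable G) {n : ℕ}
    {σ : MulAut G} (hσ : σ ^ 2 ^ (n + 1) = 1) (hfpf : ∀ g : G, σ g = g → g = 1) :
    ∃ (N : Subgroup G) (_ : N.Normal), FG.H93.nilRes (FG.H93.nilRes N) = ⊥ ∧
      ∃ τ : MulAut (G ⧸ N), τ ^ 2 ^ n = 1 ∧ ∀ g, τ g = g → g = 1 := by
  have := Fact.mk Nat.prime_two
  obtain ⟨d1, d2, d3, d4, d5⟩ := sd_cyc_data hσ hfpf
  have := CopAct.sdL_top_normal (Subgroup.zpowers σ).subtype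
  have hcA := (CopAct.inr_mem_sdR (Subgroup.zpowers σ).subtype (B := ⊤)
    (a := ⟨σ ^ 2 ^ n, pow_mem (Subgroup.mem_zpowers σ) _⟩)).2 trivial
  have h1 := isNilpotent_nilRes_comm_of_gross (CopAct.sdL_top_sup_sdR_top _)
    ((CopAct.isSolvable_sdL_iff _ _).2 inferInstance) d1 d2 d3 d4 hcA (by
      rw [← map_pow, show (⟨σ ^ 2 ^ n, pow_mem (Subgroup.mem_zpowers σ) _⟩ :
        Subgroup.zpowers σ) ^ 2 = 1 from Subtype.ext (by
          rw [pow_succ, pow_mul] at hσ; exact hσ), map_one]) d5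
  have h2 := normal_commutator_of_sup (CopAct.sdL_top_sup_sdR_top (Subgroup.zpowers σ).subtype)
    (CopAct.le_normalizer_of_isMulCommutative d2 le_rfl (Subgroup.zpowers_le.2 hcA))
  obtain ⟨N, hN⟩ := CopAct.exists_eq_sdL _ (Subgroup.commutator_le_left
    (CopAct.sdL (Subgroup.zpowers σ).subtype ⊤) (Subgroup.zpowers (SemidirectProduct.inr
      ⟨σ ^ 2 ^ n, pow_mem (Subgroup.mem_zpowers σ) _⟩)))
  rw [hN] at h1 h2
  have hNn := normal_of_sdL_normal _ h2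
  have hinv : ∀ x ∈ N, σ x ∈ N := fun x hx => by
    have := h2.conj_mem _ ((CopAct.inl_mem_sdL _).2 hx)
      (SemidirectProduct.inr ⟨σ, Subgroup.mem_zpowers σ⟩)
    rw [CopAct.inr_conj_inl] at this
    exact (CopAct.inl_mem_sdL _).1 this
  refine ⟨N, hNn, ?_, GT.Frob.quotientAut σ N hinv, ?_, GT.Frob.quotientAut_fpf hfpf N hinv⟩
  · rw [FG.H93.nilRes_eq_bot_iff, ← CopAct.isNilpotent_sdL_iff (Subgroup.zpowers σ).subtype]
    unfold CopAct.sdL at h1 ⊢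
    rwa [FG.H93.map_nilRes]
  · ext x
    induction x using QuotientGroup.induction_on with | H x => ?_
    rw [GT.Frob.quotientAut_pow_mk, eq_comm]
    exact QuotientGroup.eq.2 (inv_mul_mem_of_sd_comm _ hN.le x)

end Cfsg.Agent.Loc.H78
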