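import Mathlib
import Cfsg.Agent.S3993
import Cfsg.Agent.Ch.FrobeniusCount
import Cfsg.Agent.Inv.NseTools2

/-!
Numerical facts about the numbers of elements of given order.
-/

set_option autoImplicit false

namespace Cfsg.Agent.Loc.NseA

open Subgroup

variable {G : Type*} [Group G] [Finite G]

/-- The number of elements of order `n`. -/
noncomputable def mo (G : Type*) [Group G] (n : ℕ) : ℕ := Nat.card {g : G // orderOf g = n}

omit [Finite G] in
theorem mo_one : mo G 1 = 1 := by simp [mo]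

theorem mo_ne_zero {n : ℕ} : mo G n ≠ 0 ↔ ∃ g : G, orderOf g = n := by
  rw [mo, Nat.card_ne_zero, nonempty_subtype]
  exact and_iff_left inferInstance

theorem mo_zero_of_dvd {d n : ℕ} (h : d ∣ n) (h0 : mo G d = 0) : mo G n = 0 := by
  by_contra hn
  obtain ⟨g, rfl⟩ := mo_ne_zero.1 hn
  exact mo_ne_zero.2 ⟨_, orderOf_pow_orderOf_div (orderOf_pos g).ne' h⟩ h0

theorem mo_zero_of_not_dvd {n : ℕ} (h : ¬ n ∣ Nat.card G) : mo G n = 0 := by
  by_contra hn
  obtain ⟨g, rfl⟩ := mo_ne_zero.1 hn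
  exact h (orderOf_dvd_natCard g)

theorem sum_mo {n : ℕ} (hn : n ≠ 0) : ∑ d ∈ n.divisors, mo G d = Nat.card {g : G // g ^ n = 1} := by
  classical
  have := Fintype.ofFinite G
  rw [Nat.card_eq_fintype_card, Fintype.card_subtype]
  refine Eq.trans ?_ (sum_card_orderOf_eq_card_pow_eq_one hn)
  refine Finset.sum_congr rfl fun d _ => ?_
  rw [mo, Nat.card_eq_fintype_card, Fintype.card_subtype]

theorem frob {n : ℕ} (h : n ∣ Nat.card G) : n ∣ ∑ d ∈ n.divisors, mo G d := by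
  rw [sum_mo (ne_zero_of_dvd_ne_zero Nat.card_pos.ne' h)]
  exact S3993.result n h

theorem total {n : ℕ} (hn : n ≠ 0) (h : ∀ g : G, g ^ n = 1) : Nat.card G = ∑ d ∈ n.divisors, mo G d := by
  rw [sum_mo hn]
  exact (Nat.card_congr (Equiv.subtypeUnivEquiv h)).symm

theorem sum_le (s : Finset ℕ) : ∑ d ∈ s, mo G d ≤ Nat.card G := by
  rw [total Nat.card_pos.ne' fun _ => pow_card_eq_one']
  refine Finset.sum_le_sum_of_ne_zero fun d _ hd => ?_
  by_contra hn
  exact hd (mo_zero_of_not_dvd fun h => hn (Nat.mem_divisors.2 ⟨h, Nat.card_pos.ne'⟩))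

theorem totient_dvd (n : ℕ) : n.totient ∣ mo G n := by
  classical
  refine Ch.dvd_card_of_classes (Setoid.ker fun g : G => zpowers g) _ _ fun b hb => ?_
  have := Fintype.ofFinite (zpowers b)
  rw [← IsCyclic.card_orderOf_eq_totient (α := zpowers b) (d := n)
    (by rw [← Nat.card_eq_fintype_card, Nat.card_zpowers, hb]), ← Fintype.card_subtype, ← Nat.card_eq_fintype_card]
  refine dvd_of_eq (Nat.card_congr ⟨fun g => ⟨g.1.1, (orderOf_coe _).trans g.2, ?_⟩,
    fun g => ⟨⟨g.1, ?_⟩, (orderOf_mk _ _).trans g.2.1⟩, fun _ => rfl, fun _ => rfl⟩)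
  · exact (eq_of_le_of_card_ge (zpowers_le.2 g.1.2)
      (by rw [Nat.card_zpowers, Nat.card_zpowers, orderOf_coe, g.2, hb])).symm
  · exact (show zpowers b = zpowers g.1 from g.2.2) ▸ mem_zpowers _

theorem dvd_of_index {d n : ℕ} (h : ∀ g : G, orderOf g = n → d ∣ (centralizer ({g} : Set G)).index) : d ∣ mo G n := by
  refine Ch.dvd_card_of_classes (IsConj.setoid G) _ _ fun b hb => ?_
  refine (h b hb).trans (dvd_of_eq ?_)
  rw [← Inv.card_class_eq_index]
  refine Nat.card_congr (Equiv.subtypeEquivRight fun y => ⟨fun e => ⟨?_, e⟩, fun e => e.2⟩)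
  obtain ⟨c, rfl⟩ := isConj_iff.1 e
  rw [← hb]
  exact orderOf_injective (MulAut.conj c).toMonoidHom (MulAut.conj c).injective b

variable {p : ℕ} [hp : Fact p.Prime]

theorem sylow_dvd (h2 : ¬ p ^ 2 ∣ Nat.card G) {n : ℕ} (h : p ∣ n) : Nat.card (Sylow p G) ∣ mo G n :=
  dvd_of_index fun g hg => by
    subst hg
    rw [Inv.PS.card_sylow_eq h2 (orderOf_pow_orderOf_div (orderOf_pos g).ne' h)]
    refine index_dvd_of_le (le_trans (fun c hc => ?_) (centralizer_le_normalizer _))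
    rw [Inv.PS.centralizer_zpowers, mem_centralizer_singleton_iff]
    exact ((show Commute c g from mem_centralizer_singleton_iff.1 hc).pow_right _).eq

theorem card_dvd (h2 : ¬ p ^ 2 ∣ Nat.card G) (h1 : p ∣ Nat.card G) (h : ∀ q, q.Prime → q ≠ p → mo G (p * q) = 0) :
    Nat.card G ∣ p * mo G p := by
  obtain ⟨k, hk⟩ := h1
  rw [hk]
  refine Nat.mul_dvd_mul_left p (dvd_of_index fun x hx => dvd_of_eq ?_)
  have hC : IsPGroup p (centralizer ({x} : Set G)) := by
    rw [IsPGroup.iff_card]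
    by_contra hn
    obtain ⟨q, hq, hqd, hne⟩ : ∃ q, q.Prime ∧ q ∣ Nat.card (centralizer ({x} : Set G)) ∧ q ≠ p := by
      by_contra hm
      push Not at hm
      exact hn ⟨_, Nat.eq_prime_pow_of_unique_prime_dvd Nat.card_pos.ne' fun hq hd => hm _ hq hd⟩
    have := Fact.mk hq
    obtain ⟨y, hy⟩ := exists_prime_orderOf_dvd_card' q hqd
    have c : Commute x (y : G) := (mem_centralizer_singleton_iff.1 y.2).symm
    refine mo_ne_zero.2 ⟨x * y, ?_⟩ (h q hq hne)
    rw [c.orderOf_mul_eq_mul_orderOf_of_coprime, hx, orderOf_coe, hy]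
    rw [hx, orderOf_coe, hy]
    exact (Nat.coprime_primes hp.out hq).2 hne.symm
  obtain ⟨n, hn⟩ := hC.exists_card_eq
  have d1 : p ∣ p ^ n := by
    rw [← hn, ← hx]
    exact Subgroup.orderOf_dvd_natCard _ (mem_centralizer_singleton_iff.2 rfl)
  have d2 : n < 2 := by
    by_contra hl
    exact h2 ((pow_dvd_pow p (not_lt.1 hl)).trans (hn ▸ card_subgroup_dvd_card _))
  have e := (centralizer ({x} : Set G)).card_mul_index
  interval_cases n
  · exact absurd (Nat.dvd_one.1 d1) hp.out.one_lt.ne'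
  · rw [hn, hk, pow_one] at e
    exact (Nat.eq_of_mul_eq_mul_left hp.out.pos e).symm

theorem cyc_le (h3 : ¬ p ^ 3 ∣ Nat.card G) (h : mo G (p ^ 2) ≠ 0) : mo G p * p ≤ mo G (p ^ 2) := by
  obtain ⟨x, hx⟩ := mo_ne_zero.1 h
  have root : ∀ y : {g : G // orderOf g = p}, ∃ r : G, r ^ p = y := by
    rintro ⟨y, hy⟩
    have c1 : Nat.card (zpowers x) = p ^ 2 := by rw [Nat.card_zpowers, hx]
    obtain ⟨P, hP⟩ := (IsPGroup.of_card c1).exists_le_sylow
    obtain ⟨Q, hQ⟩ := (IsPGroup.of_card (n := 1) (by rw [Nat.card_zpowers, hy, pow_one]) :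
      IsPGroup p (zpowers y)).exists_le_sylow
    obtain ⟨n, hn⟩ := P.isPGroup'.exists_card_eq
    have e : zpowers x = P := eq_of_le_of_card_ge hP (by
      rw [hn, c1]
      refine Nat.pow_le_pow_right hp.out.pos (not_lt.1 fun hl => h3 ?_)
      exact (pow_dvd_pow p hl).trans (hn ▸ card_subgroup_dvd_card _))
    obtain ⟨g, rfl⟩ := MulAction.exists_smul_eq G P Q
    have hy' : g⁻¹ * y * g ∈ zpowers x := by
      have := hQ (mem_zpowers y)
      rw [e]
      simpa [Sylow.coe_subgroup_smul, mem_pointwise_smul_iff_inv_smul_mem] using this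
    obtain ⟨i, hi⟩ := (mem_powers_iff_mem_zpowers).2 hy'
    simp only at hi
    have h1 : x ^ (i * p) = 1 := by
      rw [pow_mul, hi, show g⁻¹ * y * g = g⁻¹ * y * g⁻¹⁻¹ by rw [inv_inv], conj_pow, ← hy, pow_orderOf_eq_one]; simp
    obtain ⟨j, rfl⟩ : p ∣ i := by
      have := orderOf_dvd_of_pow_eq_one h1
      rw [hx, pow_two] at this
      exact Nat.dvd_of_mul_dvd_mul_right hp.out.pos this
    exact ⟨g * x ^ j * g⁻¹, by rw [conj_pow, ← pow_mul, mul_comm j, hi]; group⟩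
  choose r hr using root
  have pw : ∀ (y : {g : G // orderOf g = p}) (i : ℕ), (r y * y.1 ^ i) ^ p = y := fun y i => by
    have c : Commute (r y) (y.1 ^ i) := by rw [← hr y]; exact ((Commute.refl _).pow_right _).pow_right _
    have : y.1 ^ p = 1 := by simpa only [y.2] using pow_orderOf_eq_one y.1
    rw [c.mul_pow, hr, ← pow_mul, mul_comm i, pow_mul, this, one_pow, mul_one]
  rw [mo, mo]
  conv_lhs => rw [← Nat.card_fin p]
  simp only [Nat.card_fin]
  rw [← Nat.card_fin p, ← Nat.card_prod]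
  simp only [Nat.card_fin]
  refine Nat.card_le_card_of_injective (fun a => ⟨r a.1 * a.1.1 ^ a.2.1, ?_⟩) ?_
  · refine orderOf_eq_prime_pow (n := 1) ?_ ?_
    · rw [pow_one, pw]
      intro e
      have := a.1.2
      rw [e, orderOf_one] at this
      exact hp.out.one_lt.ne this
    · rw [pow_succ, pow_one, pow_mul, pw]
      simpa only [a.1.2] using pow_orderOf_eq_one a.1.1
  · rintro ⟨y, i⟩ ⟨y', i'⟩ e
    have e1 : r y * y.1 ^ i.1 = r y' * y'.1 ^ i'.1 := congrArg Subtype.val e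
    obtain rfl : y = y' := Subtype.ext (by rw [← pw y i, e1, pw])
    have e2 := pow_injOn_Iio_orderOf (x := y.1) (by rw [y.2]; exact i.2) (by rw [y.2]; exact i'.2) (mul_left_cancel e1)
    rw [Fin.ext e2]

omit hp in
theorem dvd_of_primes {n a b c : ℕ} (hn : ∀ q, q.Prime → q ∣ n → q = 2 ∨ q = 3 ∨ q = 5) (h2 : ¬ 2 ^ (a + 1) ∣ n)
    (h3 : ¬ 3 ^ (b + 1) ∣ n) (h5 : ¬ 5 ^ (c + 1) ∣ n) : n ∣ 2 ^ a * 3 ^ b * 5 ^ c := by
  refine (Nat.dvd_iff_prime_pow_dvd_dvd _ _).2 fun q k hq hk => ?_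
  rcases k with _ | k
  · simp
  have l : ∀ e, ¬ q ^ (e + 1) ∣ n → q ^ (k + 1) ∣ q ^ e := fun e he =>
    pow_dvd_pow q (not_lt.1 fun hl => he ((pow_dvd_pow q hl).trans hk))
  rcases hn q hq ((dvd_pow_self q k.succ_ne_zero).trans hk) with rfl | rfl | rfl
  exacts [((l _ h2).mul_right _).mul_right _, ((l _ h3).mul_left _).mul_right _, (l _ h5).mul_left _]

end Cfsg.Agent.Loc.NseA
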