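import Mathlib

/-! Gauss sums of anisotropic quadratic maps between elementary abelian `2`-groups. -/

set_option autoImplicit false

namespace Cfsg.Agent.Loc.H78.OneCl

theorem gauss_sq {A : Type*} [Group A] [Fintype A] (χ : A → ℤ) (h1 : χ 1 = 1)
    (h2 : ∀ a, χ a * χ a = 1)
    (hb : ∀ c, ∃ β : A →* ℤ, ∀ a, χ (a * c) = χ a * χ c * β a) :
    (∑ a, χ a) = 0 ∨ ∃ k : ℕ, k ∣ Fintype.card A ∧ (∑ a, χ a) ^ 2 = Fintype.card A * k := by
  classical
  let R : Subgroup A :=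
    { carrier := {c | ∀ a, χ (a * c) = χ a * χ c}
      one_mem' := fun a => by rw [mul_one, h1, mul_one]
      mul_mem' := fun {c d} hc hd a => by
        rw [← mul_assoc, hd, hc, hd c, mul_assoc]
      inv_mem' := fun {c} hc a => by
        have e1 := hc (a * c⁻¹)
        have e2 := hc c⁻¹
        rw [inv_mul_cancel_right] at e1
        rw [inv_mul_cancel, h1] at e2
        have e3 : χ c⁻¹ = χ c := by
          calc χ c⁻¹ = χ c⁻¹ * (χ c * χ c) := by rw [h2, mul_one]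
            _ = χ c := by rw [← mul_assoc, ← e2, one_mul]
        rw [e1, e3, mul_assoc, h2, mul_one] }
  have hsq : (∑ a, χ a) ^ 2 = Fintype.card A * ∑ c : R, χ c := by
    rw [sq, Finset.sum_mul_sum]
    have e1 : ∀ a, ∑ d, χ a * χ d = ∑ c, χ a * χ (a * c) := fun a =>
      (Fintype.sum_bijective _ (Group.mulLeft_bijective a) _ _ fun _ => rfl).symm
    simp_rw [e1]
    rw [Finset.sum_comm, Finset.mul_sum, ← Finset.sum_subtype (Finset.univ.filter (· ∈ R))
      (by simp) (fun c => (Fintype.card A : ℤ) * χ c), Finset.sum_filter]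
    refine Finset.sum_congr rfl fun c _ => ?_
    obtain ⟨β, hβ⟩ := hb c
    have e2 : ∀ a, χ a * χ (a * c) = χ c * β a := fun a => by
      rw [hβ, ← mul_assoc, ← mul_assoc, h2, one_mul]
    simp_rw [e2]
    rw [← Finset.mul_sum]
    split_ifs with hc
    · have : ∀ a, β a = 1 := fun a => by
        have e3 := hβ a
        rw [hc a] at e3
        have e4 : χ a * χ c * (χ a * χ c) = 1 := by
          rw [mul_mul_mul_comm, h2, h2, one_mul]
        calc β a = χ a * χ c * (χ a * χ c * β a) := by rw [← mul_assoc, e4, one_mul]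
          _ = 1 := by rw [← e3, e4]
      simp [this, mul_comm]
    · rw [sum_hom_units_eq_zero β, mul_zero]
      rintro rfl
      exact hc fun a => by simpa using hβ a
  let φ : R →* ℤ :=
    { toFun := fun c => χ c
      map_one' := h1
      map_mul' := fun c d => d.2 c }
  by_cases hφ : φ = 1
  · right
    refine ⟨Nat.card R, ?_, ?_⟩
    · rw [← Nat.card_eq_fintype_card]; exact R.card_subgroup_dvd_card
    · rw [hsq]
      have : ∀ c : R, χ c = 1 := fun c => DFunLike.congr_fun hφ c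
      simp [this]
  · left
    have := sum_hom_units_eq_zero φ hφ
    have h3 : ∑ c : R, χ c = 0 := this
    rw [h3, mul_zero] at hsq
    exact pow_eq_zero_iff (by norm_num) |>.1 hsq

theorem arith {j m n : ℕ} (hn : 1 ≤ n)
    (h : 2 ^ m + 2 ^ j = 2 ^ (j + n) + 2 ^ n) : j = n ∧ m = 2 * n := by
  have key : j = n := by
    rcases lt_trichotomy j n with hlt | heq | hgt
    · exfalso
      have h1 : 2 ^ (j + 1) ≤ 2 ^ n := Nat.pow_le_pow_right (by norm_num) hlt
      have h2 : 2 ^ (j + 1) ≤ 2 ^ (j + n) := Nat.pow_le_pow_right (by norm_num) (by omega)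
      have h3 : j < m := by
        by_contra h4
        have : 2 ^ m ≤ 2 ^ j := Nat.pow_le_pow_right (by norm_num) (by omega)
        rw [pow_succ] at h1 h2
        have := Nat.two_pow_pos j
        omega
      have d1 : 2 ^ (j + 1) ∣ 2 ^ m := pow_dvd_pow 2 h3
      have d2 : 2 ^ (j + 1) ∣ 2 ^ (j + n) := pow_dvd_pow 2 (by omega)
      have d3 : 2 ^ (j + 1) ∣ 2 ^ n := pow_dvd_pow 2 hlt
      have d4 : 2 ^ (j + 1) ∣ 2 ^ j := (Nat.dvd_add_right d1).1 (h ▸ dvd_add d2 d3)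
      have := (Nat.pow_dvd_pow_iff_le_right (by norm_num)).1 d4
      omega
    · exact heq
    · exfalso
      have h2 : 2 ^ (j + 1) ≤ 2 ^ (j + n) := Nat.pow_le_pow_right (by norm_num) (by omega)
      have h3 : n < m := by
        by_contra h4
        have h5 : 2 ^ m ≤ 2 ^ n := Nat.pow_le_pow_right (by norm_num) (by omega)
        rw [pow_succ] at h2
        have := Nat.two_pow_pos j
        omega
      have d1 : 2 ^ (n + 1) ∣ 2 ^ m := pow_dvd_pow 2 h3
      have d2 : 2 ^ (n + 1) ∣ 2 ^ (j + n) := pow_dvd_pow 2 (by omega)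
      have d3 : 2 ^ (n + 1) ∣ 2 ^ j := pow_dvd_pow 2 hgt
      have d4 : 2 ^ (n + 1) ∣ 2 ^ n := (Nat.dvd_add_right d2).1 (h ▸ dvd_add d1 d3)
      have := (Nat.pow_dvd_pow_iff_le_right (by norm_num)).1 d4
      omega
  subst key
  refine ⟨rfl, ?_⟩
  have : 2 ^ m = 2 ^ (2 * j) := by rw [two_mul]; omega
  exact Nat.pow_right_injective le_rfl this

theorem hasEnough_two {V : Type*} [CommGroup V] [Finite V] (hV : ∀ z : V, z * z = 1) :
    HasEnoughRootsOfUnity ℤ (Monoid.exponent V) := by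
  have h2 : HasEnoughRootsOfUnity ℤ 2 :=
    ⟨⟨-1, IsPrimitiveRoot.neg_one 0 (by norm_num)⟩, inferInstance⟩
  have : NeZero 2 := ⟨by norm_num⟩
  exact HasEnoughRootsOfUnity.of_dvd ℤ
    (Monoid.exponent_dvd_of_forall_pow_eq_one fun z => by rw [sq, hV])

theorem sum_dual {V : Type*} [CommGroup V] [Finite V] (hV : ∀ z : V, z * z = 1)
    [Fintype (V →* ℤˣ)] [DecidableEq V] (z : V) :
    ∑ l : V →* ℤˣ, ((l z : ℤˣ) : ℤ) = if z = 1 then (Nat.card V : ℤ) else 0 := by
  have := hasEnough_two hV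
  split_ifs with hz
  · simp [hz, ← CommGroup.card_monoidHom_of_hasEnoughRootsOfUnity V ℤ]
  · obtain ⟨l, hl⟩ := CommGroup.exists_apply_ne_one_of_hasEnoughRootsOfUnity V ℤ hz
    let φ : (V →* ℤˣ) →* ℤ :=
      { toFun := fun l => ((l z : ℤˣ) : ℤ)
        map_one' := rfl
        map_mul' := fun a b => by simp }
    refine sum_hom_units_eq_zero φ fun h => hl ?_
    have : ((l z : ℤˣ) : ℤ) = 1 := DFunLike.congr_fun h l
    exact Units.ext this

theorem exists_card_eq_two_pow {W : Type*} [Group W] [Finite W] (hW : ∀ w : W, w * w = 1) :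
    ∃ m, Nat.card W = 2 ^ m := by
  have : Fact (Nat.Prime 2) := ⟨Nat.prime_two⟩
  exact IsPGroup.iff_card.1 fun w => ⟨1, by rw [pow_one, sq, hW]⟩

/-- An odd-order isometry of an anisotropic quadratic map with equal fibres is trivial or
fixed-point-free. -/
theorem fpf_of_quadratic {W V : Type*} [CommGroup W] [CommGroup V] [Finite W] [Finite V]
    (hW : ∀ w : W, w * w = 1) (hV : ∀ z : V, z * z = 1) (s : W → V) (hs1 : s 1 = 1)
    (hb : ∀ c, ∃ β : W →* V, ∀ a, s (a * c) = s a * s c * β a)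
    (han : ∀ w, s w = 1 → w = 1)
    (hfib : ∀ z z' : V, z ≠ 1 → z' ≠ 1 → Nat.card {w // s w = z} = Nat.card {w // s w = z'})
    (σ : MulAut W) (hσ : Odd (orderOf σ)) (hsσ : ∀ w, s (σ w) = s w) :
    σ = 1 ∨ ∀ w, σ w = w → w = 1 := by
  classical
  by_contra hcon
  push Not at hcon
  obtain ⟨hσ1, w0, hw0, hw01⟩ := hcon
  have := Fintype.ofFinite W
  have := Fintype.ofFinite V
  have := hasEnough_two hV
  have : Finite (V →* ℤˣ) := Nat.finite_of_card_ne_zero (by
    rw [CommGroup.card_monoidHom_of_hasEnoughRootsOfUnity V ℤ]; exact Nat.card_pos.ne')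
  have := Fintype.ofFinite (V →* ℤˣ)
  have hz0 : s w0 ≠ 1 := fun h => hw01 (han _ h)
  set f := Nat.card {w // s w = s w0} with hf
  have hfc : ∀ z, (Finset.univ.filter fun w => s w = z).card = if z = 1 then 1 else f := by
    intro z
    split_ifs with hz
    · rw [Finset.card_eq_one]
      refine ⟨1, ?_⟩
      ext w
      simp only [Finset.mem_filter, Finset.mem_univ, true_and, Finset.mem_singleton, hz]
      exact ⟨han w, fun h => h ▸ hs1⟩
    · rw [hf, hfib _ z hz0 hz, Nat.card_eq_fintype_card, Fintype.card_subtype]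
  -- the sum over `W`
  have hsum : ∀ F : V → ℤ, ∑ w, F (s w) = F 1 + f * (∑ z, F z - F 1) := by
    intro F
    rw [← Finset.sum_fiberwise Finset.univ s]
    have : ∀ z, ∑ w ∈ Finset.univ.filter (fun w => s w = z), F (s w) =
        f * F z + if z = 1 then (1 - f : ℤ) * F z else 0 := by
      intro z
      rw [Finset.sum_congr rfl (g := fun _ => F z) fun w hw => by
        rw [(Finset.mem_filter.1 hw).2], Finset.sum_const, hfc]
      split_ifs <;> simp; ring
    simp_rw [this]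
    rw [Finset.sum_add_distrib, ← Finset.mul_sum, Finset.sum_ite_eq']
    simp; ring
  have hcard : (Fintype.card W : ℤ) = 1 + f * (Fintype.card V - 1) := by
    simpa using hsum fun _ => 1
  have hg : ∀ l : V →* ℤˣ, l ≠ 1 → ∑ w, ((l (s w) : ℤˣ) : ℤ) = 1 - f := by
    intro l hl
    have h0 : ∑ z, ((l z : ℤˣ) : ℤ) = 0 :=
      sum_hom_units_eq_zero ((Units.coeHom ℤ).comp l) fun h => hl (MonoidHom.ext fun z =>
        Units.ext (DFunLike.congr_fun h z))
    rw [hsum fun z => ((l z : ℤˣ) : ℤ), h0]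
    simp; ring
  have hf2 : 2 ≤ f := by
    obtain ⟨w, hw⟩ : ∃ w, σ w ≠ w := by
      by_contra h
      push Not at h
      exact hσ1 (MulEquiv.ext h)
    have hw1 : s w ≠ 1 := fun h => hw (by rw [han w h, map_one])
    have := hfc (s w)
    rw [if_neg hw1] at this
    rw [← this]
    exact Finset.one_lt_card.2 ⟨σ w, by simp [hsσ], w, by simp, hw⟩
  -- Gauss sums on subgroups
  have hgs : ∀ (l : V →* ℤˣ) (A : Subgroup W) [Fintype A], (∑ a : A, ((l (s a) : ℤˣ) : ℤ)) = 0 ∨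
      ∃ k : ℕ, k ∣ Fintype.card A ∧ (∑ a : A, ((l (s a) : ℤˣ) : ℤ)) ^ 2 = Fintype.card A * k := by
    intro l A _
    refine gauss_sq _ (by simp [hs1]) (fun a => by
      rw [← Units.val_mul, ← map_mul, hV]; simp) fun c => ?_
    obtain ⟨β, hβ⟩ := hb c
    exact ⟨(Units.coeHom ℤ).comp (l.comp (β.comp A.subtype)), fun a => by simp [hβ]⟩
  obtain ⟨l0, hl0⟩ := CommGroup.exists_apply_ne_one_of_hasEnoughRootsOfUnity V ℤ hz0
  have hl0' : l0 ≠ 1 := fun h => hl0 (by simp [h])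
  obtain ⟨m, hm⟩ := exists_card_eq_two_pow hW
  obtain ⟨n, hn⟩ := exists_card_eq_two_pow hV
  rw [Nat.card_eq_fintype_card] at hm hn
  have hn1 : 1 ≤ n := by
    by_contra h
    have : n = 0 := by omega
    rw [this, pow_zero, Fintype.card_eq_one_iff] at hn
    obtain ⟨x, hx⟩ := hn
    exact hz0 ((hx _).trans (hx _).symm)
  have hm1 : 1 ≤ m := by
    by_contra h
    have : m = 0 := by omega
    rw [this, pow_zero, Fintype.card_eq_one_iff] at hm
    obtain ⟨x, hx⟩ := hm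
    exact hw01 ((hx _).trans (hx _).symm)
  obtain ⟨j, hj⟩ : ∃ j, f - 1 = 2 ^ j := by
    have h1 := gauss_sq (fun w => ((l0 (s w) : ℤˣ) : ℤ)) (by simp [hs1]) (fun a => by
      rw [← Units.val_mul, ← map_mul, hV]; simp) fun c => by
        obtain ⟨β, hβ⟩ := hb c
        exact ⟨(Units.coeHom ℤ).comp (l0.comp β), fun a => by simp [hβ]⟩
    rw [hg l0 hl0'] at h1
    rcases h1 with h1 | ⟨k, hk, h1⟩
    · omega
    · have h2 : (f - 1) ^ 2 = Fintype.card W * k := by
        zify [show 1 ≤ f by omega]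
        rw [← h1]; ring
      have h3 : f - 1 ∣ 2 ^ (m + m) := by
        rw [pow_add, ← hm]
        exact (dvd_pow_self _ two_ne_zero).trans (h2 ▸ mul_dvd_mul_left _ hk)
      obtain ⟨j, -, hj⟩ := (Nat.dvd_prime_pow Nat.prime_two).1 h3
      exact ⟨j, hj⟩
  have hfj : f = 2 ^ j + 1 := by omega
  have harith : 2 ^ m + 2 ^ j = 2 ^ (j + n) + 2 ^ n := by
    rw [hm, hn, hfj] at hcard
    push_cast at hcard
    zify
    rw [hcard]; ring
  have hj1 : 1 ≤ j := by
    by_contra h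
    have : j = 0 := by omega
    subst this
    have e1 : 2 ∣ 2 ^ m := dvd_pow_self 2 (by omega)
    have e2 : 2 ∣ 2 ^ n := dvd_pow_self 2 (by omega)
    simp at harith
    omega
  obtain ⟨rfl, rfl⟩ := arith hn1 harith
  -- the decomposition
  let δ : W →* W :=
    { toFun := fun w => w⁻¹ * σ w
      map_one' := by simp
      map_mul' := fun a b => by rw [map_mul, mul_inv, mul_mul_mul_comm] }
  have hker : ∀ w, w ∈ δ.ker ↔ σ w = w := fun w => by
    rw [MonoidHom.mem_ker]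
    change w⁻¹ * σ w = 1 ↔ _
    rw [inv_mul_eq_one, eq_comm]
  have hdisj : Disjoint δ.range δ.ker := by
    rw [Subgroup.disjoint_def]
    rintro _ ⟨w, rfl⟩ hu
    rw [hker] at hu
    have e : ∀ k : ℕ, (σ ^ k) w = w * δ w ^ k := by
      intro k
      induction k with
      | zero => simp
      | succ k ih =>
        rw [pow_succ', MulAut.mul_apply, ih, map_mul, map_pow, hu, pow_succ', ← mul_assoc]
        congr 1
        change _ = w * (w⁻¹ * σ w)
        group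
    have e2 := e (orderOf σ)
    obtain ⟨k, hk⟩ := hσ
    rw [pow_orderOf_eq_one, MulAut.one_apply, left_eq_mul, hk, pow_succ, pow_mul, sq, hW,
      one_pow, one_mul] at e2
    exact e2
  have hcm : Nat.card δ.range * Nat.card δ.ker = Nat.card W := by
    rw [← Subgroup.index_ker, Subgroup.index_mul_card]
  have hbij := (Subgroup.isComplement_iff_bijective _ _).1
    (Subgroup.isComplement'_def.1 (Subgroup.isComplement'_of_card_mul_and_disjoint hcm hdisj))
  have horth : ∀ a ∈ δ.range, ∀ c ∈ δ.ker, s (a * c) = s a * s c := by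
    rintro _ ⟨w, rfl⟩ c hc
    rw [hker] at hc
    obtain ⟨β, hβ⟩ := hb c
    have e : β (σ w) = β w := by
      have e1 := hβ (σ w)
      rw [← hc, ← map_mul, hsσ, hβ, hsσ, hsσ] at e1
      exact (mul_left_cancel e1).symm
    have : β (δ w) = 1 := by
      change β (w⁻¹ * σ w) = 1
      rw [map_mul, map_inv, e, inv_mul_cancel]
    rw [hβ, this, mul_one]
  have hprod : ∀ l : V →* ℤˣ, l ≠ 1 → (∑ a : δ.range, ((l (s a) : ℤˣ) : ℤ)) *
      (∑ c : δ.ker, ((l (s c) : ℤˣ) : ℤ)) = -2 ^ j := by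
    intro l hl
    rw [Finset.sum_mul_sum, ← Finset.sum_product', Finset.univ_product_univ]
    have e := Fintype.sum_bijective _ hbij
      (fun x : δ.range × δ.ker => ((l (s x.1) : ℤˣ) : ℤ) * ((l (s x.2) : ℤˣ) : ℤ))
      (fun w => ((l (s w) : ℤˣ) : ℤ)) fun x => by
        rw [← Units.val_mul, ← map_mul, ← horth _ x.1.2 _ x.2.2]
    refine e.trans ?_
    rw [hg l hl, hfj]; push_cast; ring
  have hcc : (Fintype.card δ.range : ℤ) * Fintype.card δ.ker = 2 ^ j * 2 ^ j := by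
    rw [Nat.card_eq_fintype_card, Nat.card_eq_fintype_card, Nat.card_eq_fintype_card, hm] at hcm
    rw [← pow_add, ← two_mul]; exact_mod_cast hcm
  have hsq : ∀ l : V →* ℤˣ, l ≠ 1 →
      (∑ a : δ.range, ((l (s a) : ℤˣ) : ℤ)) ^ 2 = Fintype.card δ.range ∧
      (∑ c : δ.ker, ((l (s c) : ℤˣ) : ℤ)) ^ 2 = Fintype.card δ.ker := by
    intro l hl
    have e := hprod l hl
    have hne : (-2 ^ j : ℤ) ≠ 0 := by simp
    rcases hgs l δ.range with h1 | ⟨k1, -, h1⟩
    · rw [h1, zero_mul] at e; exact absurd e.symm hne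
    rcases hgs l δ.ker with h2 | ⟨k2, -, h2⟩
    · rw [h2, mul_zero] at e; exact absurd e.symm hne
    have e2 : (2 ^ j * 2 ^ j : ℤ) * (k1 * k2) = 2 ^ j * 2 ^ j * 1 := by
      rw [← hcc, mul_mul_mul_comm, ← h1, ← h2, ← mul_pow, e, hcc]; ring
    have e3 : k1 * k2 = 1 := by exact_mod_cast mul_left_cancel₀ (by positivity) e2
    rw [h1, h2, Nat.eq_one_of_mul_eq_one_right e3, Nat.eq_one_of_mul_eq_one_left e3]
    simp
  have heven : ∀ (A : Subgroup W) [Fintype A], A ≠ ⊥ → ∀ x : ℤ, x ^ 2 = Fintype.card A → 2 ∣ x := by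
    intro A _ hA x hx
    obtain ⟨w, hw, hw1⟩ := (A.bot_or_exists_ne_one).resolve_left hA
    have h1 : orderOf w = 2 := orderOf_eq_prime (by rw [sq, hW]) hw1
    have h2 : 2 ∣ Fintype.card A := by
      rw [← Nat.card_eq_fintype_card, ← h1]; exact A.orderOf_dvd_natCard hw
    exact Int.prime_two.dvd_of_dvd_pow (hx ▸ Int.natCast_dvd_natCast.2 h2)
  have hA1 : δ.range ≠ ⊥ := fun h => hσ1 (MulEquiv.ext fun w => (hker w).1 (by
    rw [MonoidHom.mem_ker, ← Subgroup.mem_bot, ← h]; exact ⟨w, rfl⟩))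
  have hA0 : δ.ker ≠ ⊥ := fun h => hw01 (by rw [← Subgroup.mem_bot, ← h, hker]; exact hw0)
  set x := ∑ a : δ.range, ((l0 (s a) : ℤˣ) : ℤ) with hx
  set y := ∑ c : δ.ker, ((l0 (s c) : ℤˣ) : ℤ) with hy
  have hxy : x * y = -2 ^ j := hprod l0 hl0'
  have hx2 : x ^ 2 = Fintype.card δ.range := (hsq l0 hl0').1
  have hx0 : x ≠ 0 := fun h => by rw [h, zero_mul] at hxy; simp at hxy
  have ex := heven _ hA1 x hx2
  have ey := heven _ hA0 y (hsq l0 hl0').2
  have htot : ∑ l : V →* ℤˣ, ∑ a : δ.range, ((l (s a) : ℤˣ) : ℤ) = 2 ^ j := by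
    rw [Finset.sum_comm]
    simp_rw [sum_dual hV]
    rw [Finset.sum_eq_single 1]
    · simp [hs1, hn]
    · intro a _ ha
      rw [if_neg fun h => ha (Subtype.ext (han _ h))]
    · simp
  rw [← Finset.add_sum_erase _ _ (Finset.mem_univ 1)] at htot
  have hdvd : 2 * x ∣ ∑ l ∈ Finset.univ.erase (1 : V →* ℤˣ),
      (∑ a : δ.range, ((l (s a) : ℤˣ) : ℤ) - x) := by
    refine Finset.dvd_sum fun l hl => ?_
    have e := (hsq l (Finset.ne_of_mem_erase hl)).1
    rw [← hx2] at e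
    rcases sq_eq_sq_iff_eq_or_eq_neg.1 e with h | h
    · rw [h, sub_self]; exact dvd_zero _
    · rw [h]; exact ⟨-1, by ring⟩
  rw [Finset.sum_sub_distrib, Finset.sum_const, Finset.card_erase_of_mem (Finset.mem_univ _),
    Finset.card_univ, ← Nat.card_eq_fintype_card,
    CommGroup.card_monoidHom_of_hasEnoughRootsOfUnity V ℤ, Nat.card_eq_fintype_card, hn] at hdvd
  have e1 : ∑ a : δ.range, (((1 : V →* ℤˣ) (s a) : ℤˣ) : ℤ) = x ^ 2 := by rw [hx2]; simp
  rw [e1] at htot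
  have e2 : ∑ l ∈ Finset.univ.erase (1 : V →* ℤˣ), ∑ a : δ.range, ((l (s a) : ℤˣ) : ℤ) =
      -(x * y) - x ^ 2 := by rw [hxy, ← htot]; ring
  rw [e2, nsmul_eq_mul, Nat.cast_sub (Nat.one_le_two_pow)] at hdvd
  have e3 : -(x * y) - x ^ 2 - (((2 ^ j : ℕ) : ℤ) - ((1 : ℕ) : ℤ)) * x =
      (-y - x - 2 ^ j + 1) * x := by push_cast; ring
  rw [e3] at hdvd
  have e4 := (mul_dvd_mul_iff_right hx0).1 hdvd
  have e5 : (2 : ℤ) ∣ 2 ^ j := dvd_pow_self 2 (by omega)
  omega

theorem eq_one_of_commute {W V : Type*} [CommGroup W] [CommGroup V] [Finite W] [Finite V]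
    (hW : ∀ w : W, w * w = 1) (hV : ∀ z : V, z * z = 1) (s : W → V) (hs1 : s 1 = 1)
    (hb : ∀ c, ∃ β : W →* V, ∀ a, s (a * c) = s a * s c * β a)
    (han : ∀ w, s w = 1 → w = 1)
    (hfib : ∀ z z' : V, z ≠ 1 → z' ≠ 1 → Nat.card {w // s w = z} = Nat.card {w // s w = z'})
    (σ τ : MulAut W) (hσ : Odd (orderOf σ)) (hsσ : ∀ w, s (σ w) = s w)
    (hsτ : ∀ w, s (τ w) = s w) (hτ2 : τ * τ = 1) (hτ : τ ≠ 1) (hc : σ * τ = τ * σ) : σ = 1 := by
  refine (fpf_of_quadratic hW hV s hs1 hb han hfib σ hσ hsσ).resolve_right fun h => hτ ?_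
  refine MulEquiv.ext fun w => ?_
  have hinv : ∀ u : W, u⁻¹ = u := fun u => inv_eq_of_mul_eq_one_right (hW u)
  set u := w⁻¹ * τ w with hu
  have hτu : τ u = u := by
    rw [hu, map_mul, map_inv, ← MulAut.mul_apply, hτ2, MulAut.one_apply, hinv, hinv, mul_comm]
  obtain ⟨β, hβ⟩ := hb u
  have e : ∀ w, β (τ w) = β w := fun w => by
    have e1 := hβ (τ w)
    rw [← hτu, ← map_mul, hsτ, hβ, hsτ, hsτ] at e1
    exact (mul_left_cancel e1).symm
  have e2 : σ u = (σ w)⁻¹ * τ (σ w) := by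
    rw [hu, map_mul, map_inv, ← MulAut.mul_apply, hc, MulAut.mul_apply]
  have e3 : β (σ u) = 1 := by rw [e2, map_mul, map_inv, e, inv_mul_cancel]
  have e4 : σ u * u = 1 := han _ (by rw [hβ, e3, hsσ, hV, one_mul])
  have e5 := h u (by rw [eq_inv_of_mul_eq_one_left e4, hinv])
  rw [hu, inv_mul_eq_one] at e5
  exact e5.symm

/-- The action of `G` on `B / V`, where `V` is the set of all involutions together with `1`. -/
theorem exists_rep {G : Type*} [Group G] [Finite G] {V B : Subgroup G} [V.Normal] [B.Normal]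
    (hV : ∀ x, x ∈ V ↔ x * x = 1) (hconj : ∀ x ∈ V, ∀ y ∈ V, x ≠ 1 → y ≠ 1 → IsConj x y)
    (hVB : V ≤ B) (hBC : B ≤ Subgroup.centralizer (V : Set G)) (hsq : ∀ b ∈ B, b * b ∈ V) :
    ∃ ρ : G →* MulAut (B.map (QuotientGroup.mk' V)),
      (∀ g, ρ g = 1 ↔ ∀ b ∈ B, g * b * g⁻¹ * b⁻¹ ∈ V) ∧
      (∀ y ∈ Subgroup.centralizer (V : Set G), Odd (orderOf (ρ y)) →
        ρ y = 1 ∨ ∀ b ∈ B, y * b * y⁻¹ * b⁻¹ ∈ V → b ∈ V) ∧
      (∀ y ∈ Subgroup.centralizer (V : Set G), ∀ t ∈ Subgroup.centralizer (V : Set G),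
        Odd (orderOf (ρ y)) → ρ t * ρ t = 1 → ρ t ≠ 1 → ρ y * ρ t = ρ t * ρ y → ρ y = 1) := by
  set π := QuotientGroup.mk' V with hπ
  have hWn : (B.map π).Normal := Subgroup.Normal.map ‹_› _ (QuotientGroup.mk'_surjective V)
  have hπ1 : ∀ g, π g = 1 ↔ g ∈ V := fun g => QuotientGroup.eq_one_iff g
  let ρ : G →* MulAut (B.map π) := MulAut.conjNormal.comp π
  have hρ : ∀ g (w : B.map π), ((ρ g w : B.map π) : G ⧸ V) = π g * w * (π g)⁻¹ := fun g w => rfl
  have hW : ∀ w : B.map π, w * w = 1 := by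
    rintro ⟨_, b, hb, rfl⟩
    exact Subtype.ext (by change π b * π b = 1; rw [← map_mul, hπ1]; exact hsq b hb)
  have hcommW : ∀ a b : B.map π, a * b = b * a := fun a b => by
    have h1 : ∀ u : B.map π, u⁻¹ = u := fun u => inv_eq_of_mul_eq_one_right (hW u)
    rw [← h1 (a * b), mul_inv_rev, h1, h1]
  have hcV : ∀ b ∈ B, ∀ v ∈ V, v * b = b * v := fun b hb v hv =>
    Subgroup.mem_centralizer_iff.1 (hBC hb) v hv
  let _ : CommGroup (B.map π) := { (inferInstance : Group (B.map π)) with mul_comm := hcommW }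
  let _ : CommGroup V := { (inferInstance : Group V) with
    mul_comm := fun a b => Subtype.ext (hcV _ (hVB b.2) _ a.2) }
  have hV2 : ∀ z : V, z * z = 1 := fun z => Subtype.ext ((hV _).1 z.2)
  let r : B.map π → G := fun w => w.2.choose
  have hrB : ∀ w, r w ∈ B := fun w => w.2.choose_spec.1
  have hrπ : ∀ w, π (r w) = w := fun w => w.2.choose_spec.2
  let s : B.map π → V := fun w => ⟨r w * r w, hsq _ (hrB w)⟩
  have hs : ∀ b ∈ B, ∀ w : B.map π, π b = w → (s w : G) = b * b := by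
    intro b hb w hw
    have h1 : b⁻¹ * r w ∈ V := by rw [← hπ1, map_mul, map_inv, hw, hrπ, inv_mul_cancel]
    change r w * r w = b * b
    have h2 : r w = b * (b⁻¹ * r w) := by group
    rw [h2, mul_assoc, ← mul_assoc (b⁻¹ * r w), hcV b hb _ h1, mul_assoc, (hV _).1 h1, mul_one]
  have hs1 : s 1 = 1 := Subtype.ext (by rw [hs 1 (one_mem _) 1 (by simp)]; simp)
  have han : ∀ w, s w = 1 → w = 1 := fun w h => Subtype.ext (by
    rw [← hrπ]; exact (hπ1 _).2 ((hV _).2 (congrArg Subtype.val h)))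
  have hcomm : ∀ a ∈ B, ∀ c ∈ B, a⁻¹ * c * a * c⁻¹ ∈ V := fun a ha c hc => by
    rw [← hπ1]
    have := congrArg Subtype.val (hcommW ⟨π c, c, hc, rfl⟩ ⟨π a, a, ha, rfl⟩)
    simp only [Subgroup.coe_mul] at this
    rw [map_mul, map_mul, map_mul, map_inv, map_inv, mul_assoc (π a)⁻¹, this]; group
  have hb : ∀ c, ∃ β : B.map π →* V, ∀ a, s (a * c) = s a * s c * β a := by
    intro c
    have key : ∀ a ∈ B, ∀ w : B.map π, π a = w →
        (((s w)⁻¹ * (s c)⁻¹ * s (w * c) : V) : G) = a⁻¹ * r c * a * (r c)⁻¹ := by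
      intro a ha w hw
      simp only [Subgroup.coe_mul, Subgroup.coe_inv]
      rw [hs a ha w hw, hs _ (hrB c) c (hrπ c), hs (a * r c) (mul_mem ha (hrB c)) (w * c)
        (by rw [map_mul, hw, hrπ]; rfl)]
      have e1 : a * r c * (a * r c) = a * a * (a⁻¹ * r c * a * (r c)⁻¹ * (r c * r c)) := by group
      rw [e1, hcV _ (mul_mem (hrB c) (hrB c)) _ (hcomm a ha _ (hrB c)), mul_assoc,
        ← mul_assoc (r c * r c)⁻¹, ← hcV _ (inv_mem (mul_mem (hrB c) (hrB c))) _ (hsq a ha)]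
      group
    refine ⟨⟨⟨fun w => (s w)⁻¹ * (s c)⁻¹ * s (w * c), by simp [hs1]⟩, fun w w' => ?_⟩,
      fun a => ?_⟩
    · apply Subtype.ext
      change (((s (w * w'))⁻¹ * (s c)⁻¹ * s (w * w' * c) : V) : G) =
        (((s w)⁻¹ * (s c)⁻¹ * s (w * c) : V) : G) * (((s w')⁻¹ * (s c)⁻¹ * s (w' * c) : V) : G)
      rw [key _ (hrB w) w (hrπ w), key _ (hrB w') w' (hrπ w'),
        key _ (mul_mem (hrB w) (hrB w')) (w * w') (by rw [map_mul, hrπ, hrπ]; rfl)]
      have e1 : (r w * r w')⁻¹ * r c * (r w * r w') * (r c)⁻¹ =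
          (r w')⁻¹ * ((r w)⁻¹ * r c * r w * (r c)⁻¹) * (r c * r w' * (r c)⁻¹) := by group
      rw [e1, ← hcV _ (inv_mem (hrB w')) _ (hcomm _ (hrB w) _ (hrB c))]
      group
    · change _ = s a * s c * ((s a)⁻¹ * (s c)⁻¹ * s (a * c))
      rw [← mul_inv, mul_inv_cancel_left]
  have hsρ : ∀ g w, (s (ρ g w) : G) = g * s w * g⁻¹ := by
    intro g w
    rw [hs (g * r w * g⁻¹) (Subgroup.Normal.conj_mem ‹_› _ (hrB w) g) _
      (by rw [hρ, map_mul, map_mul, map_inv, hrπ])]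
    change _ = g * (r w * r w) * g⁻¹
    group
  have hsC : ∀ g ∈ Subgroup.centralizer (V : Set G), ∀ w, s (ρ g w) = s w := by
    intro g hg w
    apply Subtype.ext
    rw [hsρ, ← Subgroup.mem_centralizer_iff.1 hg _ (s w).2, mul_inv_cancel_right]
  have hfib : ∀ z z' : V, z ≠ 1 → z' ≠ 1 →
      Nat.card {w // s w = z} = Nat.card {w // s w = z'} := by
    intro z z' hz hz'
    obtain ⟨g, hg⟩ := isConj_iff.1 (hconj z z.2 z' z'.2 (fun h => hz (Subtype.ext h))
      (fun h => hz' (Subtype.ext h)))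
    refine Nat.card_congr (Equiv.subtypeEquiv (ρ g).toEquiv fun w => ?_)
    change _ ↔ s (ρ g w) = z'
    rw [Subtype.ext_iff, Subtype.ext_iff (a1 := s (ρ g w)), hsρ, ← hg]
    simp
  have hfix : ∀ g, ∀ b (hb : b ∈ B), ρ g ⟨π b, b, hb, rfl⟩ = ⟨π b, b, hb, rfl⟩ ↔
      g * b * g⁻¹ * b⁻¹ ∈ V := by
    intro g b hb
    rw [Subtype.ext_iff, hρ, ← hπ1, map_mul, map_mul, map_mul, map_inv, map_inv, mul_inv_eq_one]
  refine ⟨ρ, fun g => ⟨fun h b hb => (hfix g b hb).1 (by rw [h]; rfl), fun h => ?_⟩,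
    fun y hy ho => ?_, fun y hy t ht ho h2 h1 hc => ?_⟩
  · refine MulEquiv.ext ?_
    rintro ⟨_, b, hb, rfl⟩
    exact (hfix g b hb).2 (h b hb)
  · refine (fpf_of_quadratic hW hV2 s hs1 hb han hfib (ρ y) ho (hsC y hy)).imp_right
      fun h b hb h1 => ?_
    exact (hπ1 b).1 (congrArg Subtype.val (h _ ((hfix y b hb).2 h1)))
  · exact eq_one_of_commute hW hV2 s hs1 hb han hfib (ρ y) (ρ t) ho (hsC y hy) (hsC t ht) h2 h1 hc

end Cfsg.Agent.Loc.H78.OneCl
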