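import Cfsg.Agent.GT.PSolvable
import Cfsg.Agent.GT.PLength
import Cfsg.Agent.GT.MinNormal
import Cfsg.Agent.GT.CoprimeSylow

/-! Tools for Powell's theorem: the lower `p`-series and a two-generator lemma. -/

set_option autoImplicit false

namespace Cfsg.Agent.Loc.H78.Pow
open Cfsg Cfsg.Agent.GT

variable {G : Type*} [Group G] {G' : Type*} [Group G']

/-- The subgroup generated by the `τ`-elements of `H`. -/
def gen (τ : Set ℕ) (H : Subgroup G) : Subgroup G :=
  Subgroup.closure {g | g ∈ H ∧ IsPiNum τ (orderOf g)}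

variable {τ : Set ℕ} {H K : Subgroup G}

theorem gen_eq (τ : Set ℕ) (H : Subgroup G) : gen τ H = (piResidual τᶜ H).map H.subtype := by
  rw [map_piResidual_subtype, compl_compl]; rfl

theorem gen_le_iff : gen τ H ≤ K ↔ ∀ g ∈ H, IsPiNum τ (orderOf g) → g ∈ K := by
  rw [gen, Subgroup.closure_le]
  exact ⟨fun h g hg hτ => h ⟨hg, hτ⟩, fun h g hg => h g hg.1 hg.2⟩

theorem gen_le (τ : Set ℕ) (H : Subgroup G) : gen τ H ≤ H := gen_le_iff.2 fun _ hg _ => hg

theorem mem_gen {g : G} (hg : g ∈ H) (h : IsPiNum τ (orderOf g)) : g ∈ gen τ H :=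
  Subgroup.subset_closure ⟨hg, h⟩

theorem gen_mono (h : H ≤ K) : gen τ H ≤ gen τ K :=
  gen_le_iff.2 fun _ hg hτ => mem_gen (h hg) hτ

theorem gen_gen : gen τ (gen τ H) = gen τ H :=
  le_antisymm (gen_le _ _) (gen_le_iff.2 fun _ hg hτ => mem_gen (mem_gen hg hτ) hτ)

theorem map_gen [Finite G] (τ : Set ℕ) (H : Subgroup G) (f : G →* G') :
    (gen τ H).map f = gen τ (H.map f) := by
  rw [gen_eq, gen_eq, ← map_piResidual_of_surjective (f.subgroupMap_surjective H),
    Subgroup.map_map, Subgroup.map_map]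
  rfl

theorem normalizer_le_gen (τ : Set ℕ) (H : Subgroup G) :
    Subgroup.normalizer (H : Set G) ≤ Subgroup.normalizer (gen τ H : Set G) := by
  rw [gen_eq]; exact normalizer_le_normalizer_map_subtype H _

theorem gen_normal (τ : Set ℕ) (H : Subgroup G) [hH : H.Normal] : (gen τ H).Normal :=
  normal_of_top_le_normalizer
    ((Subgroup.normalizer_eq_top_iff.2 hH).ge.trans (normalizer_le_gen τ H))

theorem gen_eq_bot_iff [Finite G] : gen τ H = ⊥ ↔ IsPiNum τᶜ (Nat.card H) := by
  rw [gen_eq, Subgroup.map_eq_bot_iff_of_injective _ H.subtype_injective, piResidual_eq_bot_iff]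

theorem isPiNum_relIndex_gen [Finite G] (τ : Set ℕ) (H : Subgroup G) :
    IsPiNum τᶜ ((gen τ H).relIndex H) := by
  rw [gen_eq, Subgroup.relIndex, subgroupOf_map_subtype_self]
  exact isPiNum_index_piResidual _

/-- An element whose order is coprime to a relative index lies in the normal subgroup. -/
theorem mem_of_relIndex {N R : Subgroup G} [N.Normal] (h : IsPiNum τᶜ (N.relIndex R)) {g : G}
    (hg : g ∈ R) (hτ : IsPiNum τ (orderOf g)) : g ∈ N := by
  have : (⟨g, hg⟩ : R) ∈ N.subgroupOf R :=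
    mem_of_coprime_orderOf_index (by rw [← Subgroup.orderOf_coe]; exact hτ.coprime h)
  exact this

theorem mem_of_relIndex' {N R : Subgroup G} (hn : R ≤ Subgroup.normalizer (N : Set G))
    (h : IsPiNum τᶜ (N.relIndex R)) {g : G}
    (hg : g ∈ R) (hτ : IsPiNum τ (orderOf g)) : g ∈ N := by
  have : (N.subgroupOf R).Normal := Subgroup.normal_subgroupOf_of_le_normalizer hn
  have : (⟨g, hg⟩ : R) ∈ N.subgroupOf R :=
    mem_of_coprime_orderOf_index (by rw [← Subgroup.orderOf_coe]; exact hτ.coprime h)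
  exact this

/-- A central `τᶜ`-subgroup with `τ`-quotient: the `τ`-elements lie in `O_τ`. -/
theorem central_kill [Finite G] {Z J : Subgroup G} (hZJ : Z ≤ J)
    (hc : J ≤ Subgroup.centralizer (Z : Set G)) (hZ : IsPiNum τᶜ (Nat.card Z))
    (hi : IsPiNum τ (Z.relIndex J)) : gen τ J ≤ piCoreOf τ J := by
  have h := sup_piCoreOf_compl_eq_of_central (π := τᶜ) hZJ hc hZ (by rwa [compl_compl])
  rw [compl_compl] at h
  refine gen_le_iff.2 fun g hg hτ => mem_of_relIndex' (le_normalizer_piCoreOf J) ?_ hg hτ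
  have h2 : (piCoreOf τ J).relIndex J = (piCoreOf τ J).relIndex Z := by
    conv_lhs => rw [← h]
    rw [h]
    have := relIndex_sup_of_le_normalizer (H := Z) (N := piCoreOf τ J)
      (hZJ.trans (le_normalizer_piCoreOf J))
    rw [h] at this
    exact this
  rw [h2]
  exact hZ.of_dvd (Subgroup.relIndex_dvd_card _ _)

/-- `C_R(N) ≤ N` when `O_τ(G) = 1`, `N` is a `τᶜ`-group and `R/N` a `τ`-group. -/
theorem cent_le [Finite G] {N R : Subgroup G} [N.Normal] [R.Normal] (hO : piCore τ G = ⊥)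
    (hN : IsPiNum τᶜ (Nat.card N)) (hi : IsPiNum τ (N.relIndex R)) :
    R ⊓ Subgroup.centralizer (N : Set G) ≤ N := by
  set C := R ⊓ Subgroup.centralizer (N : Set G) with hC
  have h := sup_piCoreOf_compl_eq_of_central (π := τᶜ) (Z := N ⊓ C) (K := C) inf_le_right
    (inf_le_right.trans (Subgroup.centralizer_le inf_le_left)) (hN.card_of_le inf_le_left)
    (by
      rw [compl_compl, Subgroup.inf_relIndex_right]
      exact hi.of_dvd (relIndex_dvd_of_le_right inf_le_left))
  rw [compl_compl] at h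
  have h0 : piCoreOf τ C = ⊥ := le_bot_iff.1 (hO ▸ piCoreOf_le_piCore C)
  rw [h0, sup_bot_eq] at h
  rw [← h]; exact inf_le_left

/-- Two-generator lemma. -/
theorem two_gen [Finite G] {N R : Subgroup G} (hN : IsMinNormal N) [R.Normal]
    (hab : N ≤ Subgroup.centralizer (N : Set G)) (hNR : N < R)
    (hcop : (N.relIndex R).Coprime (Nat.card N))
    (hC : R ⊓ Subgroup.centralizer (N : Set G) ≤ N) {x y : G}
    (hxy : Subgroup.closure {x, y} ⊔ N = ⊤) (hx : x ∉ Subgroup.centralizer (N : Set G)) :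
    ∃ v ∈ N, Subgroup.closure {x, y * v} = ⊤ := by
  have := hN.normal
  by_contra hcon
  push Not at hcon
  have hcomm : ∀ a ∈ N, ∀ b ∈ N, a * b = b * a := fun a ha b hb =>
    Subgroup.mem_centralizer_iff.1 (hab hb) a ha
  -- every `K v` supplements `N`
  have hsup : ∀ v ∈ N, Subgroup.closure {x, y * v} ⊔ N = ⊤ := by
    intro v hv
    rw [eq_top_iff, ← hxy, sup_le_iff, Subgroup.closure_le]
    refine ⟨?_, le_sup_right⟩
    rintro g (rfl | rfl)
    · exact Subgroup.mem_sup_left (Subgroup.subset_closure (by simp))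
    · have h1 : g * v ∈ Subgroup.closure {x, g * v} ⊔ N :=
        Subgroup.mem_sup_left (Subgroup.subset_closure (by simp))
      have := mul_mem h1 (Subgroup.mem_sup_right (inv_mem hv))
      simpa using this
  have hdec : ∀ v ∈ N, ∀ g : G, ∃ k ∈ Subgroup.closure {x, y * v}, ∃ n ∈ N, k * n = g := by
    intro v hv g
    have : g ∈ Subgroup.closure {x, y * v} ⊔ N := by rw [hsup v hv]; trivial
    exact (Subgroup.mem_sup_of_normal_right).1 this
  have hinf : ∀ v ∈ N, Subgroup.closure {x, y * v} ⊓ N = ⊥ := by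
    intro v hv
    have hn : (Subgroup.closure {x, y * v} ⊓ N).Normal := by
      refine ⟨fun a ha g => ?_⟩
      obtain ⟨k, hk, n, hn, rfl⟩ := hdec v hv g
      have e : k * n * a * (k * n)⁻¹ = k * a * k⁻¹ := by
        rw [mul_assoc k n a, hcomm n hn a ha.2]; group
      rw [e]
      exact Subgroup.mem_inf.2 ⟨mul_mem (mul_mem hk ha.1) (inv_mem hk), this.conj_mem _ ha.2 _⟩
    rcases hN.eq_bot_or_eq (K := Subgroup.closure {x, y * v} ⊓ N) inf_le_right with h | h
    · exact h
    · exfalso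
      apply hcon v hv
      rw [← hsup v hv, eq_comm, sup_eq_left, ← h]; exact inf_le_left
  have hone : ∀ v ∈ N, ∀ g ∈ Subgroup.closure {x, y * v}, g ∈ N → g = 1 := by
    intro v hv g h1 h2
    have : g ∈ Subgroup.closure {x, y * v} ⊓ N := ⟨h1, h2⟩
    rwa [hinf v hv, Subgroup.mem_bot] at this
  have hdecR : ∀ v ∈ N, ∀ g ∈ R, ∃ k ∈ Subgroup.closure {x, y * v} ⊓ R, ∃ n ∈ N, k * n = g := by
    intro v hv g hg
    obtain ⟨k, hk, n, hn, rfl⟩ := hdec v hv g
    exact ⟨k, ⟨hk, (mul_mem_cancel_right (hNR.le hn)).1 hg⟩, n, hn, rfl⟩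
  have hcard : ∀ v ∈ N,
      (Nat.card (Subgroup.closure {x, y * v} ⊓ R : Subgroup G)).Coprime (Nat.card N) := by
    intro v hv
    have h1 := card_inf_mul_relIndex N (Subgroup.closure {x, y * v} ⊓ R)
    have h2 : N ⊓ (Subgroup.closure {x, y * v} ⊓ R) = ⊥ := by
      rw [eq_bot_iff, ← hinf v hv]
      exact fun g hg => ⟨hg.2.1, hg.1⟩
    rw [h2, Subgroup.card_bot, one_mul] at h1
    rw [← h1]
    exact Nat.Coprime.coprime_dvd_left (relIndex_dvd_of_le_right inf_le_right) hcop
  -- `C_N(R) = 1`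
  have hCR : ∀ n ∈ N, n ∈ Subgroup.centralizer (R : Set G) → n = 1 := by
    intro n hn hc
    rcases hN.eq_bot_or_eq (K := N ⊓ Subgroup.centralizer (R : Set G)) inf_le_left with h | h
    · have : n ∈ N ⊓ Subgroup.centralizer (R : Set G) := ⟨hn, hc⟩
      rwa [h, Subgroup.mem_bot] at this
    · exfalso
      have h1 : N ≤ Subgroup.centralizer (R : Set G) := h ▸ inf_le_right
      have h2 : R ≤ N := le_trans (le_inf le_rfl (Subgroup.le_centralizer_iff.1 h1)) hC
      exact hNR.not_ge h2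
  set K1 := Subgroup.closure {x, y * 1} with hK1
  -- an element normalising `K1 ⊓ R` lies in `K1`
  have hnorm : ∀ g : G, (∀ r ∈ K1 ⊓ R, g * r * g⁻¹ ∈ K1) → g ∈ K1 := by
    intro g hg
    obtain ⟨k, hk, n, hn, rfl⟩ := hdec 1 (one_mem _) g
    have : n = 1 := by
      refine hCR n hn (Subgroup.mem_centralizer_iff.2 fun r hr => ?_)
      obtain ⟨s, hs, m, hm, rfl⟩ := hdecR 1 (one_mem _) r hr
      have h1 : n * s * n⁻¹ * s⁻¹ ∈ K1 := by
        have := mul_mem (mul_mem (mul_mem (inv_mem hk) (hg s hs)) hk) (inv_mem hs.1)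
        convert this using 1; group
      have h2 : n * s * n⁻¹ * s⁻¹ ∈ N := by
        have := mul_mem hn (this.conj_mem _ (inv_mem hn) s)
        convert this using 1; group
      have h3 := hone 1 (one_mem _) _ h1 h2
      have h4 : n * s = s * n := by
        rw [mul_inv_eq_one, mul_inv_eq_iff_eq_mul] at h3; exact h3
      rw [mul_assoc, hcomm m hm n hn, ← mul_assoc, ← h4, mul_assoc]
    rw [this, mul_one]; exact hk
  have hsolv : Group.IsSolvable N := by
    have : IsMulCommutative N := ⟨⟨fun a b => Subtype.ext (hcomm _ a.2 _ b.2)⟩⟩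
    exact isSolvable_of_isMulCommutative
  have key : ∀ v ∈ N, ∃ k ∈ N, x * k = k * x ∧ y⁻¹ * k * y * k⁻¹ = v := by
    intro v hv
    obtain ⟨k, hk, hkk⟩ := CopAct.exists_conj_mem_of_le_sup (A := Subgroup.closure {x, y * v} ⊓ R)
      (K := N) (Subgroup.le_normalizer_of_normal) (hcard v hv) (Or.inr hsolv)
      (B := K1 ⊓ R) (by
        intro g hg
        obtain ⟨s, hs, m, hm, rfl⟩ := hdecR v hv g hg.2
        exact mul_mem (Subgroup.mem_sup_right hs) (Subgroup.mem_sup_left hm))
      (hcard 1 (one_mem _))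
    -- conjugation by `k` maps `K1 ⊓ R` onto `K v ⊓ R`
    have hback : ∀ s ∈ Subgroup.closure {x, y * v} ⊓ R, k⁻¹ * s * k ∈ K1 := by
      intro s hs
      have hsR : k⁻¹ * s * k ∈ R :=
        mul_mem (mul_mem (inv_mem (hNR.le hk)) hs.2) (hNR.le hk)
      obtain ⟨t, ht, m, hm, e⟩ := hdecR 1 (one_mem _) _ hsR
      have h1 := hkk t ht
      have h2 : (k * t * k⁻¹)⁻¹ * s ∈ Subgroup.closure {x, y * v} := mul_mem (inv_mem h1.1) hs.1
      have h3 : (k * t * k⁻¹)⁻¹ * s = k * m * k⁻¹ := by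
        have : s = k * (t * m) * k⁻¹ := by rw [e]; group
        rw [this]; group
      have h4 := hone v hv _ h2 (h3 ▸ this.conj_mem _ hm k)
      rw [h3, mul_inv_eq_one, mul_eq_left] at h4
      rw [← e, h4, mul_one]; exact ht.1
    have hall : ∀ g ∈ Subgroup.closure {x, y * v}, k⁻¹ * g * k ∈ K1 := by
      intro g hg
      refine hnorm _ fun r hr => ?_
      have h1 := hkk r hr
      have h2 : g * (k * r * k⁻¹) * g⁻¹ ∈ Subgroup.closure {x, y * v} ⊓ R :=
        Subgroup.mem_inf.2
          ⟨mul_mem (mul_mem hg h1.1) (inv_mem hg), Subgroup.Normal.conj_mem ‹_› _ h1.2 _⟩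
      have := hback _ h2
      convert this using 1; group
    have hxK : x ∈ K1 := Subgroup.subset_closure (by simp)
    have hyK : y ∈ K1 := Subgroup.subset_closure (by simp)
    have h1 := hall x (Subgroup.subset_closure (by simp))
    have h2 := hall (y * v) (Subgroup.subset_closure (by simp))
    have h3 := hone 1 (one_mem _) _ (mul_mem (inv_mem hxK) h1) (by
      have := mul_mem (this.conj_mem _ (inv_mem hk) x⁻¹) hk
      convert this using 1; group)
    have h4 := hone 1 (one_mem _) _ (mul_mem (inv_mem hyK) h2) (by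
      have := mul_mem (mul_mem (this.conj_mem _ (inv_mem hk) y⁻¹) hv) hk
      convert this using 1; group)
    refine ⟨k, hk, ?_, ?_⟩
    · rw [inv_mul_eq_one] at h3
      conv_rhs => rw [h3]
      group
    · rw [inv_mul_eq_one] at h4
      have : y⁻¹ * k * y * k⁻¹ = y⁻¹ * (k * y * k⁻¹) := by group
      rw [this]
      nth_rewrite 2 [h4]
      group
  let f : ↥(N ⊓ Subgroup.centralizer {x}) → N := fun k =>
    ⟨y⁻¹ * k * y * (k : G)⁻¹, by
      have := mul_mem (this.conj_mem _ k.2.1 y⁻¹) (N.inv_mem k.2.1)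
      rwa [inv_inv] at this⟩
  have hf : Function.Surjective f := by
    intro v
    obtain ⟨k, hk, h1, h2⟩ := key v v.2
    exact ⟨⟨k, hk, Subgroup.mem_centralizer_singleton_iff.2 h1.symm⟩, Subtype.ext h2⟩
  have hle := Nat.card_le_card_of_surjective f hf
  have heq : N ⊓ Subgroup.centralizer {x} = N :=
    Subgroup.eq_of_le_of_card_ge inf_le_left hle
  apply hx
  refine Subgroup.mem_centralizer_iff.2 fun n hn => ?_
  have : n ∈ N ⊓ Subgroup.centralizer {x} := heq.symm ▸ hn
  exact Subgroup.mem_centralizer_singleton_iff.1 this.2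

/-! ### The lower `p`-series -/

/-- The set of primes used at step `n`. -/
def tau (p n : ℕ) : Set ℕ := if Even n then {p} else {p}ᶜ

theorem tau_succ (p n : ℕ) : tau p (n + 1) = (tau p n)ᶜ := by
  unfold tau
  by_cases h : Even n
  · rw [if_pos h, if_neg (by simpa [Nat.even_add_one] using h)]
  · rw [if_neg h, if_pos (by simpa [Nat.even_add_one] using h), compl_compl]

theorem tau_even (p : ℕ) {n : ℕ} (h : Even n) : tau p n = {p} := if_pos h

theorem tau_odd (p : ℕ) {n : ℕ} (h : ¬ Even n) : tau p n = {p}ᶜ := if_neg h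

/-- The lower `p`-series `H ≥ O^{p'}(H) ≥ O^{p',p}(H) ≥ ⋯`. -/
def ell (p : ℕ) : ℕ → Subgroup G → Subgroup G
  | 0, H => H
  | n + 1, H => gen (tau p n) (ell p n H)

variable {p : ℕ}

theorem ell_zero (H : Subgroup G) : ell p 0 H = H := rfl

theorem ell_succ (n : ℕ) (H : Subgroup G) : ell p (n + 1) H = gen (tau p n) (ell p n H) := rfl

theorem ell_mono (n : ℕ) (h : H ≤ K) : ell p n H ≤ ell p n K := by
  induction n with
  | zero => exact h
  | succ n ih => exact gen_mono ih

theorem ell_succ_le (n : ℕ) (H : Subgroup G) : ell p (n + 1) H ≤ ell p n H := gen_le _ _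

theorem ell_anti {m n : ℕ} (h : m ≤ n) (H : Subgroup G) : ell p n H ≤ ell p m H := by
  induction h with
  | refl => exact le_rfl
  | step _ ih => exact (ell_succ_le _ _).trans ih

theorem ell_le (n : ℕ) (H : Subgroup G) : ell p n H ≤ H := ell_anti (Nat.zero_le n) H

theorem map_ell [Finite G] (n : ℕ) (H : Subgroup G) (f : G →* G') :
    (ell p n H).map f = ell p n (H.map f) := by
  induction n with
  | zero => rfl
  | succ n ih => rw [ell_succ, ell_succ, map_gen, ih]

theorem normalizer_le_ell (n : ℕ) (H : Subgroup G) :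
    Subgroup.normalizer (H : Set G) ≤ Subgroup.normalizer (ell p n H : Set G) := by
  induction n with
  | zero => exact le_rfl
  | succ n ih => exact ih.trans (normalizer_le_gen _ _)

theorem le_normalizer_ell (n : ℕ) (H : Subgroup G) :
    H ≤ Subgroup.normalizer (ell p n H : Set G) :=
  Subgroup.le_normalizer.trans (normalizer_le_ell n H)

theorem ell_normal (n : ℕ) (H : Subgroup G) [hH : H.Normal] : (ell p n H).Normal :=
  normal_of_top_le_normalizer
    ((Subgroup.normalizer_eq_top_iff.2 hH).ge.trans (normalizer_le_ell n H))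

theorem ell_succ_eq_bot_iff [Finite G] (n : ℕ) (H : Subgroup G) :
    ell p (n + 1) H = ⊥ ↔ IsPiNum (tau p n)ᶜ (Nat.card (ell p n H)) := gen_eq_bot_iff

theorem gen_ell_succ (n : ℕ) (H : Subgroup G) :
    gen (tau p (n + 1))ᶜ (ell p (n + 1) H) = ell p (n + 1) H := by
  rw [tau_succ, compl_compl, ell_succ, gen_gen]

theorem ell_subtype_eq_bot_iff [Finite G] (n : ℕ) (H : Subgroup G) (K : Subgroup H) :
    ell p n K = ⊥ ↔ ell p n (K.map H.subtype) = ⊥ := by
  rw [← map_ell, Subgroup.map_eq_bot_iff_of_injective _ H.subtype_injective]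

theorem ell_top_eq_bot_iff [Finite G] (n : ℕ) (H : Subgroup G) :
    ell p n (⊤ : Subgroup H) = ⊥ ↔ ell p n H = ⊥ := by
  rw [ell_subtype_eq_bot_iff, ← MonoidHom.range_eq_map, H.range_subtype]

theorem minNormal_pi [Finite G] [hp : Fact p.Prime] (h : IsPSolvable p G) {N : Subgroup G}
    (hN : IsMinNormal N) (n : ℕ) :
    IsPiNum (tau p n) (Nat.card N) ∨ IsPiNum (tau p n)ᶜ (Nat.card N) := by
  have := hN.normal
  have h1 : IsPiNum {p} (Nat.card N) ∨ IsPiNum {p}ᶜ (Nat.card N) :=
    (h.isPGroup_or_coprime_of_minimal hN.2.2).imp (isPGroup_iff_isPiNum hp.out).1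
      (isPiNum_compl_singleton_iff hp.out).2
  by_cases hn : Even n
  · rwa [tau_even p hn]
  · rw [tau_odd p hn, compl_compl]; exact h1.symm

universe u

theorem ell_eq_bot [hp : Fact p.Prime] (X : Type u) [Group X] [Finite X] :
    IsPSolvable p X → ell p (2 * Nat.card X) (⊤ : Subgroup X) = ⊥ := by
  refine card_induction (P := fun X _ _ =>
    IsPSolvable p X → ell p (2 * Nat.card X) (⊤ : Subgroup X) = ⊥) ?_ X
  intro X _ _ ih h
  rcases subsingleton_or_nontrivial X with hX | hX
  · exact Subsingleton.elim _ _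
  obtain ⟨N, hN⟩ := exists_isMinNormal X
  have := hN.normal
  have hlt := card_quotient_lt hN.ne_bot
  have h1 := ih (X ⧸ N) hlt (h.quotient N)
  rw [← Subgroup.map_top_of_surjective _ (QuotientGroup.mk'_surjective N), ← map_ell,
    Subgroup.map_eq_bot_iff, QuotientGroup.ker_mk'] at h1
  set m := 2 * Nat.card (X ⧸ N)
  have h2 : ell p (m + 1 + 1) (⊤ : Subgroup X) = ⊥ := by
    rcases minNormal_pi h hN m with h3 | h3
    · rw [ell_succ_eq_bot_iff, tau_succ, compl_compl]
      exact h3.card_of_le ((ell_succ_le _ _).trans h1)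
    · rw [eq_bot_iff, ← (ell_succ_eq_bot_iff m ⊤).2 (h3.card_of_le h1)]
      exact ell_succ_le _ _
  rw [eq_bot_iff, ← h2]
  exact ell_anti (by omega) _

end Cfsg.Agent.Loc.H78.Pow
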