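import Cfsg.Agent.Loc.OneClA
import Cfsg.Agent.Loc.PowA
import Cfsg.Agent.GT.SchurZassenhaus
import Cfsg.Agent.GT.Frattini
import Cfsg.Agent.GT.PGroupChain
import Cfsg.Agent.Inv.SylowElt
import Cfsg.Agent.GT.HallHigmanA

/-! Solvable groups with one class of involutions have `2`-length one (Thompson). -/

set_option autoImplicit false

namespace Cfsg.Agent.Loc.H78.OneCl
open Cfsg Cfsg.Agent.GT Cfsg.Agent.Loc.H78.Pow
open scoped Pointwise commutatorElement

variable {G : Type*} [Group G] [Finite G]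

theorem card_dvd_of_fib {α β : Type*} [DecidableEq β] (X : Finset α) (I : Finset β) (ω : α → β)
    (h : ∀ x ∈ X, ω x ∈ I) (hfib : ∀ z ∈ I, ∀ z' ∈ I,
      (X.filter fun x => ω x = z).card ≤ (X.filter fun x => ω x = z').card) : I.card ∣ X.card := by
  rw [Finset.card_eq_sum_card_fiberwise h]
  rcases I.eq_empty_or_nonempty with rfl | ⟨z, hz⟩
  · simp
  rw [Finset.sum_const_nat (m := (X.filter fun x => ω x = z).card) fun z' hz' =>
    le_antisymm (hfib _ hz' _ hz) (hfib _ hz _ hz')]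
  exact dvd_mul_right _ _

theorem half_pow {x : G} (hx : IsPiNum {2} (orderOf x)) (h1 : x ≠ 1) :
    x ^ (orderOf x / 2) ≠ 1 ∧ x ^ (orderOf x / 2) * x ^ (orderOf x / 2) = 1 := by
  obtain ⟨k, hk⟩ := (isPiNum_singleton_iff Nat.prime_two (orderOf_pos x).ne').1 hx
  have hk0 : k ≠ 0 := fun h => h1 (orderOf_eq_one_iff.1 (by rw [hk, h, pow_zero]))
  obtain ⟨j, rfl⟩ := Nat.exists_eq_succ_of_ne_zero hk0
  have e : orderOf x / 2 = 2 ^ j := by rw [hk, pow_succ, Nat.mul_div_cancel _ two_pos]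
  refine ⟨pow_ne_one_of_lt_orderOf (by rw [e]; positivity)
    (Nat.div_lt_self (orderOf_pos x) one_lt_two), ?_⟩
  rw [← pow_add, e, ← mul_two, ← pow_succ, ← hk, pow_orderOf_eq_one]

omit [Finite G] in
/-- An odd-order element that is trivial on a `2`-group modulo its fixed points is trivial. -/
theorem cent_of_odd {B A : Subgroup G} (hB : IsPiNum {2} (Nat.card B)) (hAB : A ≤ B) {d : G}
    (hd : IsPiNum {2}ᶜ (orderOf d)) (hA : d ∈ Subgroup.centralizer (A : Set G))
    (h : ∀ b ∈ B, d * b * d⁻¹ * b⁻¹ ∈ A) : d ∈ Subgroup.centralizer (B : Set G) := by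
  refine Subgroup.mem_centralizer_iff.2 fun b hb => ?_
  set c := d * b * d⁻¹ * b⁻¹ with hc
  have hdc : c * d = d * c := Subgroup.mem_centralizer_iff.1 hA c (h b hb)
  have e : ∀ k : ℕ, d ^ k * b = c ^ k * b * d ^ k := by
    intro k
    induction k with
    | zero => simp
    | succ k ih =>
      have e1 : d * b = c * b * d := by rw [hc]; group
      have e2 : d * c ^ k = c ^ k * d := ((Commute.pow_left hdc k)).eq.symm
      rw [pow_succ', mul_assoc, ih, ← mul_assoc, ← mul_assoc, e2, mul_assoc _ d b, e1, pow_succ]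
      simp only [mul_assoc]
  have e2 := e (orderOf d)
  rw [pow_orderOf_eq_one, one_mul, mul_one, eq_comm, mul_eq_right] at e2
  have h1 : orderOf c = 1 := (hB.orderOf_mem (hAB (h b hb))).eq_one
    (hd.of_dvd (orderOf_dvd_of_pow_eq_one e2))
  rw [orderOf_eq_one_iff, hc, mul_inv_eq_one, mul_inv_eq_iff_eq_mul] at h1
  exact h1.symm

/-- The structure of a minimal normal `2`-subgroup not centralised by `D`. -/
theorem min_struct {P B D : Subgroup G} [P.Normal] [hBn : B.Normal] [D.Normal]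
    (hP : IsPiNum {2} (Nat.card P)) (hBP : B ≤ P) (hD : gen {2}ᶜ D = D)
    (hBD : ¬ D ≤ Subgroup.centralizer (B : Set G))
    (hmin : ∀ A : Subgroup G, A.Normal → A < B → D ≤ Subgroup.centralizer (A : Set G)) :
    ⁅B, P⁆ ≤ Subgroup.centralizer (D : Set G) ∧ ∀ b ∈ B, b * b * (b * b) = 1 := by
  have hB := hP.card_of_le hBP
  have hp2 : ∀ {A : Subgroup G}, IsPiNum {2} (Nat.card A) → IsPGroup 2 A :=
    (isPGroup_iff_isPiNum Nat.prime_two).2
  have hB1 : B ≠ ⊥ := fun h => hBD (by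
    rw [← Subgroup.commutator_eq_bot_iff_le_centralizer, h, Subgroup.commutator_bot_right])
  set B0 := B ⊓ Subgroup.centralizer (D : Set G) with hB0
  have hmin' : ∀ A : Subgroup G, A.Normal → A < B → A ≤ B0 := fun A hA h =>
    le_inf h.le (Subgroup.le_centralizer_iff.1 (hmin A hA h))
  have hlt : B0 < B := lt_of_le_of_ne inf_le_left fun h =>
    hBD (Subgroup.le_centralizer_iff.1 (h ▸ inf_le_right))
  have hDB : ⁅D, B⁆ = B := by
    refine (eq_or_lt_of_le (Subgroup.commutator_le_right D B)).resolve_right fun h => hBD ?_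
    rw [← hD, gen_le_iff]
    exact fun d hd ho => cent_of_odd hB h.le ho (hmin _ inferInstance h hd)
      fun b hb => Subgroup.commutator_mem_commutator hd hb
  have hBP0 : ⁅B, P⁆ ≤ B0 := hmin' _ inferInstance
    (PG.commutator_lt_of_isPGroup (hp2 hB) (hp2 hP) Subgroup.le_normalizer_of_normal hB1)
  have hcen : B ≤ Subgroup.centralizer (B0 : Set G) := by
    rw [← Subgroup.commutator_eq_bot_iff_le_centralizer]
    nth_rewrite 1 [← hDB]
    refine Subgroup.commutator_commutator_eq_bot_of_rotate ?_ ?_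
    · rw [Subgroup.commutator_eq_bot_iff_le_centralizer]
      exact (Subgroup.commutator_le_right B B0).trans inf_le_right
    · rw [(Subgroup.commutator_eq_bot_iff_le_centralizer (H₁ := B0)).2 inf_le_right,
        Subgroup.commutator_bot_left]
  have hc0 : ∀ b ∈ B, ∀ u ∈ B0, u * b = b * u := fun b hb u hu =>
    Subgroup.mem_centralizer_iff.1 (hcen hb) u hu
  have hcomm : ∀ a ∈ B, ∀ b ∈ B, a⁻¹ * b * a * b⁻¹ ∈ B0 := fun a ha b hb => by
    have := hBP0 (Subgroup.commutator_mem_commutator (inv_mem ha) (hBP hb))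
    rwa [commutatorElement_def, inv_inv] at this
  have hsqmul : ∀ a b : G, a * b * (a * b) = a * a * (a⁻¹ * b * a * b⁻¹) * (b * b) :=
    fun a b => by group
  -- squares lie in `B0`
  have hsq : ∀ b ∈ B, b * b ∈ B0 := by
    let A : Subgroup G :=
      { carrier := {b | b ∈ B ∧ b * b ∈ B0}
        one_mem' := ⟨one_mem _, by simp⟩
        mul_mem' := fun {a b} ha hb => ⟨mul_mem ha.1 hb.1, by
          rw [hsqmul]; exact mul_mem (mul_mem ha.2 (hcomm a ha.1 b hb.1)) hb.2⟩
        inv_mem' := fun {a} ha => ⟨inv_mem ha.1, by rw [← mul_inv_rev]; exact inv_mem ha.2⟩ }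
    have hAn : A.Normal := ⟨fun a ha g => ⟨hBn.conj_mem _ ha.1 g, by
      have := Subgroup.Normal.conj_mem inferInstance _ ha.2 g
      convert this using 1; group⟩⟩
    have hAB : A ≤ B := fun a ha => ha.1
    rcases eq_or_lt_of_le hAB with h | h
    · exact fun b hb => (show b ∈ A from h ▸ hb).2
    exfalso
    obtain ⟨b, hb, hb0⟩ := SetLike.exists_of_lt hlt
    have : ∀ k : ℕ, b ^ 2 ^ k ∉ B0 := by
      intro k
      induction k with
      | zero => simpa using hb0
      | succ k ih =>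
        intro h1
        exact ih (hmin' A hAn h ⟨pow_mem hb _, by rwa [← pow_add, ← mul_two, ← pow_succ]⟩)
    obtain ⟨k, hk⟩ := hp2 hB ⟨b, hb⟩
    apply this k
    rw [show b ^ 2 ^ k = 1 from congrArg Subtype.val hk]; exact one_mem _
  have hu2 : ∀ a ∈ B, ∀ b ∈ B, a⁻¹ * b * a * b⁻¹ * (a⁻¹ * b * a * b⁻¹) = 1 := by
    intro a ha b hb
    have e1 := hc0 a⁻¹ (inv_mem ha) _ (hcomm a ha b hb)
    have e2 := hc0 b hb _ (hsq a ha)
    calc a⁻¹ * b * a * b⁻¹ * (a⁻¹ * b * a * b⁻¹)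
        = (a⁻¹ * b * a * b⁻¹ * a⁻¹) * (b * a * b⁻¹) := by group
      _ = a⁻¹ * a⁻¹ * (b * (a * b⁻¹ * b * a)) * b⁻¹ := by rw [e1]; group
      _ = 1 := by rw [inv_mul_cancel_right, ← e2]; group
  have hfour : ∀ a ∈ B, ∀ b ∈ B, a * b * (a * b) * (a * b * (a * b)) =
      a * a * (a * a) * (b * b * (b * b)) := by
    intro a ha b hb
    rw [hsqmul a b]
    set u := a⁻¹ * b * a * b⁻¹
    have hu : u ∈ B0 := hcomm a ha b hb
    have c1 : Commute u (a * a) := hc0 _ (mul_mem ha ha) _ hu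
    have c2 : Commute u (b * b) := hc0 _ (mul_mem hb hb) _ hu
    have c3 : Commute (b * b) (a * a) := hc0 _ (mul_mem ha ha) _ (hsq b hb)
    have e : u * u = 1 := hu2 a ha b hb
    calc a * a * u * (b * b) * (a * a * u * (b * b))
        = a * a * (u * (b * b * (a * a))) * u * (b * b) := by group
      _ = a * a * (a * a) * (u * (b * b) * u) * (b * b) := by
        rw [c3.eq, ← mul_assoc u, c1.eq]; group
      _ = _ := by rw [c2.eq, mul_assoc _ u u, e]; group
  let A : Subgroup G :=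
    { carrier := {b | b ∈ B ∧ b * b * (b * b) = 1}
      one_mem' := ⟨one_mem _, by simp⟩
      mul_mem' := fun {a b} ha hb => ⟨mul_mem ha.1 hb.1, by
        rw [hfour a ha.1 b hb.1, ha.2, hb.2, one_mul]⟩
      inv_mem' := fun {a} ha => ⟨inv_mem ha.1, by
        rw [← mul_inv_rev, ← mul_inv_rev, ha.2, inv_one]⟩ }
  have hBA : B ≤ A := by
    rw [← hDB, Subgroup.commutator_le]
    intro d hd b hb
    have h1 : d * b * d⁻¹ ∈ B := hBn.conj_mem _ hb d
    refine ⟨mul_mem h1 (inv_mem hb), ?_⟩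
    rw [commutatorElement_def, hfour _ h1 _ (inv_mem hb)]
    have e : d * b * d⁻¹ * (d * b * d⁻¹) = b * b := by
      have := Subgroup.mem_centralizer_iff.1 (hsq b hb).2 d hd
      calc _ = d * (b * b) * d⁻¹ := by group
        _ = _ := by rw [this]; group
    rw [e]; group
  exact ⟨hBP0.trans inf_le_right, fun b hb => (hBA hb).2⟩

theorem core (hG : Group.IsSolvable G) (hO : pPrimeCore 2 G = ⊥)
    (htwo : ∃ x y : G, x ≠ y ∧ x ≠ 1 ∧ x * x = 1 ∧ y ≠ 1 ∧ y * y = 1)
    (hconj : ∀ x y : G, x ≠ 1 → x * x = 1 → y ≠ 1 → y * y = 1 → IsConj x y) :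
    IsPiNum {2}ᶜ (pCore 2 G).index := by
  classical
  by_contra hidx
  have hp2 : ∀ {A : Subgroup G}, IsPiNum {2} (Nat.card A) ↔ IsPGroup 2 A :=
    (isPGroup_iff_isPiNum Nat.prime_two).symm
  set P := pCore 2 G with hPdef
  have hP : IsPiNum {2} (Nat.card P) := hp2.2 (isPGroup_pCore 2)
  have hC : Subgroup.centralizer (P : Set G) ≤ P :=
    (isPSolvable_of_isSolvable hG).centralizer_pCore_le hO
  obtain ⟨x1, x2, hx12, hx1, hx11, hx2, hx22⟩ := htwo
  have hord : ∀ {x : G}, x ≠ 1 → x * x = 1 → orderOf x = 2 := fun h1 h2 =>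
    orderOf_eq_prime (by rw [sq, h2]) h1
  have hord' : ∀ {x : G}, orderOf x = 2 → x ≠ 1 ∧ x * x = 1 := fun {x} h =>
    ⟨fun e => by simp [e] at h, by rw [← sq, ← h, pow_orderOf_eq_one]⟩
  -- a normal subgroup centralising one involution centralises all
  have hall : ∀ (M : Subgroup G) [M.Normal] (u : G), orderOf u = 2 → (∀ m ∈ M, Commute m u) →
      ∀ x : G, x * x = 1 → ∀ m ∈ M, Commute m x := by
    intro M hM u hu h x hx m hm
    by_cases hx1 : x = 1
    · simp [hx1]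
    obtain ⟨g, rfl⟩ := isConj_iff.1 (hconj u x (hord' hu).1 (hord' hu).2 hx1 hx)
    have := h _ (hM.conj_mem _ hm g⁻¹)
    rw [Commute, SemiconjBy] at this ⊢
    calc m * (g * u * g⁻¹) = g * (g⁻¹ * m * g⁻¹⁻¹ * u) * g⁻¹ := by group
      _ = _ := by rw [this]; group
  obtain ⟨S⟩ : Nonempty (Sylow 2 G) := inferInstance
  have hS1 : (S : Subgroup G) ≠ ⊥ := S.ne_bot_of_dvd_card (hord hx1 hx11 ▸ orderOf_dvd_natCard x1)
  obtain ⟨z, -, hz, hzS⟩ := Inv.exists_central_of_isPGroup S.2 hS1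
  have hPV := hall P z hz fun m hm => hzS m (pCore_le_sylow S hm)
  have hVP : ∀ x : G, x * x = 1 → x ∈ P := fun x hx =>
    hC (Subgroup.mem_centralizer_iff.2 fun m hm => hPV x hx m hm)
  let V : Subgroup G :=
    { carrier := {x | x * x = 1}
      one_mem' := one_mul 1
      mul_mem' := fun {a b} ha hb => by
        change a * b * (a * b) = 1
        rw [mul_assoc, ← mul_assoc b, ← (hPV b hb a (hVP a ha)).eq, mul_assoc, hb, mul_one, ha]
      inv_mem' := fun {a} ha => by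
        change a⁻¹ * a⁻¹ = 1
        rw [← mul_inv_rev, ha, inv_one] }
  have hV : ∀ x, x ∈ V ↔ x * x = 1 := fun _ => Iff.rfl
  have hVn : V.Normal := ⟨fun a ha g => by
    change g * a * g⁻¹ * (g * a * g⁻¹) = 1
    calc _ = g * (a * a) * g⁻¹ := by group
      _ = 1 := by rw [ha]; group⟩
  have hall' : ∀ (M : Subgroup G) [M.Normal] (u : G), orderOf u = 2 → (∀ m ∈ M, Commute m u) →
      M ≤ Subgroup.centralizer (V : Set G) := fun M _ u hu h m hm =>
    Subgroup.mem_centralizer_iff.2 fun x hx => (hall M u hu h x hx m hm).eq.symm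
  have hPC : P ≤ Subgroup.centralizer (V : Set G) :=
    hall' P z hz fun m hm => hzS m (pCore_le_sylow S hm)
  -- `N = O_{2,2'}(G)` and a chief factor `Y / N`
  set N := piCoreMod {2}ᶜ P with hNdef
  have hPN : P ≤ N := le_piCoreMod_self _ _
  have hNodd : IsPiNum {2}ᶜ (P.relIndex N) := isPiNum_relIndex_piCoreMod _ _
  have hNt : N < ⊤ := lt_top_iff_ne_top.2 fun h => hidx (piCoreMod_eq_top_iff.1 h)
  obtain ⟨Y, hY, -⟩ := exists_isChiefFactor_above hNt
  have hYn : Y.Normal := hY.2.1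
  have hNY : N < Y := hY.1
  have hY2 : IsPiNum {2} (N.relIndex Y) := by
    obtain ⟨-, r, hr, -, k, -, hk⟩ := hY.elementary
    by_cases h : r = 2
    · rw [hk, h]; exact isPiNum_prime_pow Nat.prime_two (Set.mem_singleton 2) k
    · refine absurd (le_piCoreMod ?_) hNY.not_ge
      rw [← Subgroup.relIndex_mul_relIndex P N Y hPN hNY.le, hk]
      exact hNodd.mul (isPiNum_prime_pow hr h k)
  have hYsq : ∀ u ∈ Y, u * u ∈ N := by
    obtain ⟨-, r, hr, hu, k, hk0, hk⟩ := hY.elementary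
    have : r = 2 := hY2 r hr (hk ▸ dvd_pow_self r hk0.ne')
    intro u h
    rw [← sq, ← this]; exact hu u h
  -- `N` centralises `V`
  have hNC : N ≤ Subgroup.centralizer (V : Set G) := by
    obtain ⟨K, hKN, hPK, hPK0, hK⟩ := exists_complement_of_coprime_relIndex hPN
      Subgroup.le_normalizer_of_normal (hP.coprime hNodd)
    have hcop : (Nat.card P).Coprime (Nat.card K) := hK ▸ hP.coprime hNodd
    have hfr : Subgroup.normalizer (K : Set G) ⊔ P = ⊤ := by
      rw [eq_top_iff]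
      intro g _
      obtain ⟨a, ha, e⟩ := conj_of_coprime_sup_eq_of_normal P (MulAut.conj g • K) K
        (by rwa [CopAct.conj_smul_eq_map, Subgroup.card_map_of_injective (MulAut.conj g).injective])
        hcop (by
          rw [hPK, ← Subgroup.Normal.conj_smul_eq_self g P, ← Subgroup.smul_sup, hPK,
            Subgroup.Normal.conj_smul_eq_self]) (Or.inl inferInstance)
      rw [smul_smul, ← map_mul, CopAct.conj_smul_eq_iff_mem_normalizer] at e
      have := mul_mem (Subgroup.mem_sup_right (inv_mem ha)) (Subgroup.mem_sup_left (T := P) e)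
      simpa using this
    have h2 : 2 ∣ Nat.card (Subgroup.normalizer (K : Set G)) := by
      have e : P.index = P.relIndex (Subgroup.normalizer (K : Set G)) := by
        rw [← Subgroup.relIndex_top_right, ← hfr, Subgroup.relIndex_sup_right]
      rw [isPiNum_compl_singleton_iff_not_dvd Nat.prime_two, not_not, e] at hidx
      exact hidx.trans (Subgroup.relIndex_dvd_card _ _)
    obtain ⟨u, hu, huo⟩ := exists_mem_orderOf_eq_prime Nat.prime_two h2
    have huP : u ∈ P := hVP u (hord' huo).2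
    refine hall' N u huo fun m hm => ?_
    have hle : N ≤ Subgroup.centralizer {u} := by
      rw [← hPK, sup_le_iff]
      refine ⟨fun a ha => Subgroup.mem_centralizer_singleton_iff.2 (hPV u (hord' huo).2 a ha),
        fun k hk => Subgroup.mem_centralizer_singleton_iff.2 ?_⟩
      have h1 : k * (u * k⁻¹ * u⁻¹) ∈ P ⊓ K := Subgroup.mem_inf.2 ⟨by
        have := mul_mem (Subgroup.Normal.conj_mem inferInstance _ huP k) (inv_mem huP)
        convert this using 1; group,
        mul_mem hk ((Subgroup.mem_normalizer_iff.1 hu _).1 (inv_mem hk))⟩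
      rw [hPK0, Subgroup.mem_bot] at h1
      calc k * u = k * (u * k⁻¹ * u⁻¹) * (u * k) := by group
        _ = u * k := by rw [h1, one_mul]
    exact Subgroup.mem_centralizer_singleton_iff.1 (hle hm)
  have hYmap : IsPGroup 2 (Y.map (QuotientGroup.mk' N)) := by
    rw [isPGroup_iff_isPiNum Nat.prime_two, card_map_mk'_eq_relIndex]; exact hY2
  have hYC : Y ≤ Subgroup.centralizer (V : Set G) := by
    refine hall' Y z hz fun m hm => ?_
    have h1 : Y.map (QuotientGroup.mk' N) ≤ (S : Subgroup G).map (QuotientGroup.mk' N) := by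
      have := Subgroup.Normal.map hYn _ (QuotientGroup.mk'_surjective N)
      exact (le_pCore hYmap).trans (pCore_le_sylow (S.mapSurjective (QuotientGroup.mk'_surjective N)))
    rw [Subgroup.map_le_map_iff, QuotientGroup.ker_mk'] at h1
    have h2 : (S : Subgroup G) ⊔ N ≤ Subgroup.centralizer {z} :=
      sup_le (fun s hs => Subgroup.mem_centralizer_singleton_iff.2 (hzS s hs))
        (hNC.trans (Subgroup.centralizer_le (Set.singleton_subset_iff.2 (hord' hz).2)))
    exact Subgroup.mem_centralizer_singleton_iff.1 (h2 (h1 hm))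
  -- a four-group in `Y / N`
  obtain ⟨T0⟩ : Nonempty (Sylow 2 Y) := inferInstance
  set T := (T0 : Subgroup Y).map Y.subtype with hT
  have hTY : T ≤ Y := Subgroup.map_subtype_le _
  have hT2 : IsPiNum {2} (Nat.card T) := hp2.2 (T0.2.map _)
  have hYT : Y ≤ T ⊔ N := le_sylow_sup_of_isPGroup_map hYmap T0
  obtain ⟨t1, ht1, t2, ht2, ht1N, ht2N, ht12N⟩ :
      ∃ t1 ∈ T, ∃ t2 ∈ T, t1 ∉ N ∧ t2 ∉ N ∧ t1 * t2 ∉ N := by
    by_contra hcon
    push Not at hcon
    obtain ⟨t0, ht0, ht0N⟩ : ∃ t0 ∈ T, t0 ∉ N := by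
      by_contra h
      push Not at h
      exact hNY.not_ge (hYT.trans (sup_le h le_rfl))
    have := Fintype.ofFinite G
    have hdvd := card_dvd_of_fib (Finset.univ.filter fun t => t ∈ T ∧ t ∉ N)
      (Finset.univ.filter fun x : G => x ≠ 1 ∧ x * x = 1) (fun t => t ^ (orderOf t / 2))
      (fun t ht => by
        rw [Finset.mem_filter] at ht ⊢
        exact ⟨Finset.mem_univ _, half_pow (hT2.orderOf_mem ht.2.1) fun e => ht.2.2 (e ▸ one_mem _)⟩)
      (fun u hu u' hu' => by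
        rw [Finset.mem_filter] at hu hu'
        obtain ⟨g, hg⟩ := isConj_iff.1 (hconj u u' hu.2.1 hu.2.2 hu'.2.1 hu'.2.2)
        have h1 : g ∈ Subgroup.normalizer (T : Set G) ⊔ Y := by
          rw [hT, Sylow.normalizer_sup_eq_top T0]; trivial
        obtain ⟨l, hl, y, hy, rfl⟩ := Subgroup.mem_sup_of_normal_right.1 h1
        have h2 : l * u * l⁻¹ = u' := by
          rw [← hg, mul_assoc l y u, ← Subgroup.mem_centralizer_iff.1 (hYC hy) u hu.2.2]; group
        refine Finset.card_le_card_of_injOn (fun t => l * t * l⁻¹) (fun t ht => ?_)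
          fun a _ b _ h => by simpa using h
        simp only [Finset.coe_filter, Finset.mem_filter, Finset.mem_univ, true_and,
          Set.mem_ofPred_eq] at ht ⊢
        refine ⟨⟨(Subgroup.mem_normalizer_iff.1 hl t).1 ht.1.1, fun h => ht.1.2 ?_⟩, ?_⟩
        · have := Subgroup.Normal.conj_mem inferInstance _ h l⁻¹
          simpa [mul_assoc] using this
        · have e : orderOf (l * t * l⁻¹) = orderOf t := (MulAut.conj l).orderOf_eq t
          rw [e, conj_pow, ht.2, h2])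
    have e1 : (Finset.univ.filter fun t => t ∈ T ∧ t ∉ N).card = Nat.card (T ⊓ N : Subgroup G) := by
      rw [Nat.card_eq_fintype_card, Fintype.card_subtype]
      refine Finset.card_bij (fun t _ => t0⁻¹ * t) (fun t ht => ?_) (fun a _ b _ h => by simpa using h)
        fun u hu => ?_
      · simp only [Finset.mem_filter, Finset.mem_univ, true_and] at ht ⊢
        exact Subgroup.mem_inf.2 ⟨mul_mem (inv_mem ht0) ht.1, hcon _ (inv_mem ht0) _ ht.1
          (fun h => ht0N (inv_mem_iff.1 h)) ht.2⟩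
      · simp only [Finset.mem_filter, Finset.mem_univ, true_and, Subgroup.mem_inf] at hu ⊢
        exact ⟨t0 * u, ⟨mul_mem ht0 hu.1, fun h => ht0N ((mul_mem_cancel_right hu.2).1 h)⟩,
          by group⟩
    have e2 : (Finset.univ.filter fun x : G => x ≠ 1 ∧ x * x = 1).card + 1 = Nat.card V := by
      rw [Nat.card_eq_fintype_card, Fintype.card_subtype,
        ← Finset.card_erase_add_one (s := Finset.univ.filter fun x => x ∈ V) (a := 1)
          (by simp [one_mem])]
      congr 2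
      ext x; simp [hV]
    set c := (Finset.univ.filter fun x : G => x ≠ 1 ∧ x * x = 1).card with hc
    have hc2 : 2 ≤ c := Finset.one_lt_card.2 ⟨x1, by simp [hx1, hx11], x2, by simp [hx2, hx22], hx12⟩
    obtain ⟨r, hr, hrc⟩ := Nat.exists_prime_and_dvd (show c ≠ 1 by omega)
    have hr2 : r = 2 := (hT2.card_of_le inf_le_left) r hr (hrc.trans (e1 ▸ hdvd))
    have h2V : 2 ∣ Nat.card V := hz ▸ V.orderOf_dvd_natCard (hord' hz).2
    subst hr2
    omega
  -- the subgroup `D = O^{2', 2}(Y)` and the minimal subgroup `B`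
  set D := gen {2}ᶜ (gen {2} Y) with hD
  have := gen_normal {2} Y
  have hDn : D.Normal := gen_normal _ _
  have hDY : D ≤ Y := (gen_le _ _).trans (gen_le _ _)
  have hD1 : D ≠ ⊥ := fun h => by
    rw [hD, gen_eq_bot_iff, compl_compl] at h
    exact ht1N (hPN (le_pCore (hp2.1 h) (mem_gen (hTY ht1) (hT2.orderOf_mem ht1))))
  have hDP : ¬ D ≤ Subgroup.centralizer (P : Set G) := fun h => hD1 (by
    rw [hD, ← gen_gen, gen_eq_bot_iff, compl_compl]
    exact hP.card_of_le (h.trans hC))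
  obtain ⟨B, hBP, ⟨hBn, hBD⟩, hmin⟩ := exists_minimal_le
    (P := fun B : Subgroup G => B.Normal ∧ ¬ D ≤ Subgroup.centralizer (B : Set G))
    ⟨inferInstance, hDP⟩
  obtain ⟨hBPD, hB4⟩ := min_struct hP hBP gen_gen hBD fun A hA h => by
    by_contra h1
    exact h.ne (hmin A ⟨hA, h1⟩ h.le)
  have hVB : V ≤ B := by
    have hB1 : B ≠ ⊥ := fun h => hBD (by
      rw [← Subgroup.commutator_eq_bot_iff_le_centralizer, h, Subgroup.commutator_bot_right])
    obtain ⟨u, huB, hu, -⟩ := Inv.exists_central_of_isPGroup (hp2.1 (hP.card_of_le hBP)) hB1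
    intro x hx
    by_cases hx1 : x = 1
    · rw [hx1]; exact one_mem _
    obtain ⟨g, rfl⟩ := isConj_iff.1 (hconj u x (hord' hu).1 (hord' hu).2 hx1 hx)
    exact hBn.conj_mem _ huB g
  obtain ⟨ρ, hρ1, hρ2, hρ3⟩ := exists_rep hV (fun x hx y hy h1 h2 => hconj x y h1 hx h2 hy) hVB
    (hBP.trans hPC) hB4
  have hoddρ : ∀ g : G, IsPiNum {2}ᶜ (orderOf (ρ g)) → Odd (orderOf (ρ g)) := fun g h =>
    Nat.not_even_iff_odd.1 fun e => (isPiNum_compl_singleton_iff_not_dvd Nat.prime_two).1 h e.two_dvd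
  obtain ⟨d, hdD, hdo, hd⟩ : ∃ d ∈ D, IsPiNum {2}ᶜ (orderOf d) ∧ d ∉ ρ.ker := by
    by_contra h
    push Not at h
    apply hBD
    rw [hD, ← gen_gen, gen_le_iff]
    exact fun d hd ho => cent_of_odd (hP.card_of_le hBP) hVB ho (hYC (hDY hd))
      ((hρ1 d).1 (h d hd ho))
  have hfpf := (hρ2 d (hYC (hDY hdD)) (hoddρ d (hdo.of_dvd (orderOf_map_dvd _ _)))).resolve_left hd
  have hPk : P ≤ ρ.ker := fun a ha => (hρ1 a).2 fun b hb => by
    have h1 : ⁅a, b⁆ ∈ ⁅B, P⁆ := by
      rw [Subgroup.commutator_comm]; exact Subgroup.commutator_mem_commutator ha hb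
    refine hfpf _ (Subgroup.commutator_le_left B P h1) ?_
    rw [← commutatorElement_def a b, Subgroup.mem_centralizer_iff.1 (hBPD h1) d hdD,
      mul_inv_cancel_right, mul_inv_cancel]
    exact one_mem _
  have hkN : IsPiNum {2}ᶜ (ρ.ker.relIndex N) := hNodd.of_dvd (Subgroup.relIndex_dvd_of_le_left N hPk)
  have hYk : Y ⊓ ρ.ker ≤ N := by
    refine (hY.le_sup_or_inf_le ρ.ker).resolve_left fun h => hd ?_
    refine (gen_le _ _).trans (gen_le_iff.2 fun g hg ho => ?_) hdD
    exact mem_of_relIndex (R := N ⊔ ρ.ker) (by rwa [Subgroup.relIndex_sup_right]) (h hg) ho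
  -- elements of `T \ N` act fixed-point-freely on the image of `N`
  have hinv : ∀ t ∈ T, t ∉ N → (∀ y ∈ N, ρ t * ρ y * (ρ t)⁻¹ = ρ y → ρ y = 1) ∧
      ∀ y ∈ N, ρ t * ρ y * (ρ t)⁻¹ = (ρ y)⁻¹ := by
    intro t ht htN
    have h2 : ρ t * ρ t = 1 := by
      rw [← map_mul]
      exact hPk (mem_of_relIndex hNodd (hYsq t (hTY ht)) (hT2.orderOf_mem (mul_mem ht ht)))
    have h1 : ∀ y ∈ N, ρ t * ρ y * (ρ t)⁻¹ = ρ y → ρ y = 1 := by
      intro y hy e
      refine hρ3 y (hNC hy) t (hYC (hTY ht)) (hoddρ y ?_) h2 (fun h => htN (hYk ⟨hTY ht, h⟩))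
        (by rw [mul_inv_eq_iff_eq_mul] at e; exact e.symm)
      refine IsPiNum.orderOf_mem (H := N.map ρ) ?_ (Subgroup.mem_map_of_mem _ hy)
      rwa [← Subgroup.relIndex_ker]
    refine ⟨h1, fun y hy => ?_⟩
    have hn : ρ t ∈ Subgroup.normalizer (N.map ρ : Set _) :=
      Subgroup.le_normalizer_map ρ (Subgroup.mem_map_of_mem _ (Subgroup.le_normalizer_of_normal
        (Subgroup.mem_top t)))
    have := MonoidHom.FixedPointFree.coe_eq_inv_of_involutive
      (φ := (N.map ρ).normalizerMonoidHom ⟨ρ t, hn⟩) (by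
        rintro ⟨_, y, hy, rfl⟩ e
        exact Subtype.ext (h1 y hy (congrArg Subtype.val e))) (fun a => by
        apply Subtype.ext
        change ρ t * (ρ t * a * (ρ t)⁻¹) * (ρ t)⁻¹ = a
        calc _ = (ρ t * ρ t) * a * (ρ t * ρ t)⁻¹ := by group
          _ = a := by rw [h2]; group)
    exact congrArg Subtype.val (congrFun this ⟨ρ y, y, hy, rfl⟩)
  have hNk : N ≤ ρ.ker := fun y hy => (hinv _ (mul_mem ht1 ht2) ht12N).1 y hy (by
    have e1 := (hinv t2 ht2 ht2N).2 y hy
    have e2 := (hinv t1 ht1 ht1N).2 _ (inv_mem hy)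
    rw [map_inv, inv_inv, ← e1] at e2
    rw [map_mul]
    refine Eq.trans ?_ e2
    group)
  exact hd (mem_of_relIndex (τ := {2}ᶜ) (by
    rw [compl_compl]; exact hY2.of_dvd (Subgroup.relIndex_dvd_of_le_left Y hNk)) (hDY hdD) hdo)

theorem homocyclic {S : Type*} [CommGroup S] [Finite S] (hS : IsPGroup 2 S)
    (h : ∀ x y : S, x ≠ 1 → x ^ 2 = 1 → y ≠ 1 → y ^ 2 = 1 → ∃ a : MulAut S, a x = y) :
    ∃ m r : ℕ, Nonempty (S ≃* (Fin r → Multiplicative (ZMod (2 ^ m)))) := by
  classical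
  obtain ⟨ι, _, n, hn, ⟨e⟩⟩ := CommGroup.equiv_prod_multiplicative_zmod_of_finite S
  have hord : ∀ i, orderOf (e.symm (Pi.mulSingle i (Multiplicative.ofAdd 1))) = n i := by
    intro i
    rw [MulEquiv.orderOf_eq, orderOf_piMulSingle, orderOf_ofAdd_eq_addOrderOf,
      ZMod.addOrderOf_one]
  have hpow : ∀ i, ∃ k, n i = 2 ^ (k + 1) := by
    intro i
    obtain ⟨k, hk⟩ := (IsPGroup.iff_orderOf.1 hS) (e.symm (Pi.mulSingle i (Multiplicative.ofAdd 1)))
    rw [hord] at hk
    cases k with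
    | zero => have := hn i; omega
    | succ k => exact ⟨k, hk⟩
  choose k hk using hpow
  have hu : ∀ i, e.symm (Pi.mulSingle i (Multiplicative.ofAdd 1)) ^ 2 ^ k i ≠ 1 ∧
      (e.symm (Pi.mulSingle i (Multiplicative.ofAdd 1)) ^ 2 ^ k i) ^ 2 = 1 := fun i =>
    ⟨pow_ne_one_of_lt_orderOf (by positivity) (by
      rw [hord, hk]; exact Nat.pow_lt_pow_right one_lt_two (Nat.lt_succ_self _)),
      by rw [← pow_mul, ← pow_succ, ← hk]; exact orderOf_dvd_iff_pow_eq_one.1 (hord i).dvd⟩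
  have hle : ∀ i j, k i ≤ k j := by
    intro i j
    by_contra hlt
    obtain ⟨a, ha⟩ := h _ _ (hu i).1 (hu i).2 (hu j).1 (hu j).2
    apply (hu j).1
    have h1 := congrFun (congrArg e ha) j
    rw [map_pow, map_pow, map_pow, MulEquiv.apply_symm_apply, Pi.pow_apply, Pi.pow_apply,
      Pi.mulSingle_eq_same] at h1
    have h2 : ∀ x : Multiplicative (ZMod (n j)), x ^ 2 ^ k i = 1 := fun x => by
      have : NeZero (n j) := ⟨by have := hn j; omega⟩
      refine orderOf_dvd_iff_pow_eq_one.1 ((orderOf_dvd_natCard x).trans ?_)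
      rw [Nat.card_eq_fintype_card, Fintype.card_multiplicative, ZMod.card, hk]
      exact pow_dvd_pow 2 (by omega)
    rw [← map_pow, ← Pi.mulSingle_pow, ← h1, h2, Pi.mulSingle_one, map_one]
  obtain ⟨m, hm⟩ : ∃ m, n = fun _ => 2 ^ m := by
    rcases isEmpty_or_nonempty ι with hι | ⟨⟨i⟩⟩
    · exact ⟨0, funext fun i => hι.elim i⟩
    · exact ⟨k i + 1, funext fun j => by rw [hk, le_antisymm (hle j i) (hle i j)]⟩
  subst hm
  exact ⟨m, Fintype.card ι, ⟨e.trans (MulEquiv.arrowCongr (Fintype.equivFin ι) (MulEquiv.refl _))⟩⟩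

theorem thompson (hG : Group.IsSolvable G) (S : Sylow 2 G)
    (htwo : ∃ x y : G, x ∈ (S : Subgroup G) ∧ y ∈ (S : Subgroup G) ∧ x ≠ y ∧ x ≠ 1 ∧ x ^ 2 = 1 ∧
      y ≠ 1 ∧ y ^ 2 = 1)
    (hconj : ∀ x y : G, x ≠ 1 → x ^ 2 = 1 → y ≠ 1 → y ^ 2 = 1 → IsConj x y) :
    PLengthLE 2 1 G ∧ ∃ Y : Subgroup (MulAut (S : Subgroup G)), Group.IsSolvable Y ∧
      ∀ x y : (S : Subgroup G), x ≠ 1 → x ^ 2 = 1 → y ≠ 1 → y ^ 2 = 1 → ∃ a ∈ Y, a x = y := by
  set O := pPrimeCore 2 G with hO
  set π := QuotientGroup.mk' O with hπ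
  have hOc : (Nat.card O).Coprime 2 := coprime_card_pPrimeCore 2
  have hOS : ∀ x ∈ (S : Subgroup G), x ∈ O → x = 1 := fun x h1 h2 => by
    have : x ∈ O ⊓ (S : Subgroup G) := ⟨h2, h1⟩
    rwa [hO, pPrimeCore_inf_eq_bot S.2, Subgroup.mem_bot] at this
  have hπ1 : ∀ g, π g = 1 ↔ g ∈ O := fun g => QuotientGroup.eq_one_iff g
  have hlift : ∀ x : G ⧸ O, x ≠ 1 → x * x = 1 → ∃ g : G, π g = x ∧ g ≠ 1 ∧ g ^ 2 = 1 := by
    intro x h1 h2
    obtain ⟨g, ⟨j, hj⟩, rfl⟩ := exists_pElt_lift (p := 2) (QuotientGroup.mk'_surjective O)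
      (k := 1) (y := x) (by rw [pow_one, sq, h2])
    refine ⟨g, rfl, fun h => h1 (by rw [h, map_one]), ?_⟩
    have h3 : g ^ 2 ∈ O := by rw [← hπ1, map_pow, sq]; exact h2
    have h4 : orderOf (g ^ 2) ∣ 2 ^ j := orderOf_dvd_of_pow_eq_one (by
      rw [← pow_mul, mul_comm, pow_mul, hj, one_pow])
    exact orderOf_eq_one_iff.1 (Nat.eq_one_of_dvd_coprimes (hOc.pow_right j)
      (O.orderOf_dvd_natCard h3) h4)
  have hcore := core (G := G ⧸ O) inferInstance pPrimeCore_quotient_pPrimeCore (by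
    obtain ⟨x, y, hx, hy, hxy, hx1, hx2, hy1, hy2⟩ := htwo
    refine ⟨π x, π y, fun h => hxy ?_, fun h => hx1 (hOS x hx ((hπ1 x).1 h)),
      by rw [← map_mul, ← sq, hx2, map_one], fun h => hy1 (hOS y hy ((hπ1 y).1 h)),
      by rw [← map_mul, ← sq, hy2, map_one]⟩
    exact inv_mul_eq_one.1 (hOS _ (mul_mem (inv_mem hx) hy) (QuotientGroup.eq.1 h))) (by
    intro x y hx1 hx2 hy1 hy2
    obtain ⟨x, rfl, h1, h2⟩ := hlift x hx1 hx2
    obtain ⟨y, rfl, h3, h4⟩ := hlift y hy1 hy2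
    exact π.map_isConj (hconj x y h1 h2 h3 h4))
  have hlen : PLengthLE 2 1 G := by
    rw [pLengthLE_one_iff, pPrimePCore,
      Subgroup.index_comap_of_surjective _ (QuotientGroup.mk'_surjective _)]
    exact (isPiNum_compl_singleton_iff Nat.prime_two).1 hcore
  refine ⟨hlen, (S : Subgroup G).normalizerMonoidHom.range, ?_, fun x y hx1 hx2 hy1 hy2 => ?_⟩
  · exact Group.isSolvable_of_surjective (MonoidHom.rangeRestrict_surjective _)
  have hSM : (S : Subgroup G) ≤ pPrimePCore 2 G := (pLengthLE_one_iff_sylow_le S).1 hlen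
  have hM : pPrimePCore 2 G ≤ (S : Subgroup G) ⊔ O := by
    have := le_sylow_sup_of_isPGroup_map (K := pPrimePCore 2 G) (N := O)
      ((isPGroup_pCore 2).to_le map_pPrimePCore.le) (S.subtype hSM)
    rwa [S.coe_subtype, map_subtype_subgroupOf_of_le hSM] at this
  have htop : Subgroup.normalizer (S : Set G) ⊔ O = ⊤ := by
    rw [eq_top_iff, ← Sylow.normalizer_sup_eq_top' S hSM]
    exact sup_le le_sup_left (hM.trans (sup_le_sup_right Subgroup.le_normalizer _))
  obtain ⟨g, hg⟩ := isConj_iff.1 (hconj x y (fun h => hx1 (Subtype.ext h))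
    (congrArg Subtype.val hx2) (fun h => hy1 (Subtype.ext h)) (congrArg Subtype.val hy2))
  obtain ⟨o, ho, n, hn, rfl⟩ := Subgroup.mem_sup_of_normal_left.1
    (show g ∈ O ⊔ Subgroup.normalizer (S : Set G) by rw [sup_comm, htop]; trivial)
  refine ⟨_, ⟨⟨n, hn⟩, rfl⟩, Subtype.ext ?_⟩
  change n * x * n⁻¹ = y
  have h1 : n * x * n⁻¹ ∈ (S : Subgroup G) := (Subgroup.mem_normalizer_iff.1 hn _).1 x.2
  have h2 := hOS _ (mul_mem (inv_mem h1) y.2) (by
    have := mul_mem (Subgroup.Normal.conj_mem inferInstance _ ho (n * x * n⁻¹)⁻¹) (inv_mem ho)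
    rw [← hg]
    convert this using 1; group)
  exact inv_mul_eq_one.1 h2

end Cfsg.Agent.Loc.H78.OneCl
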