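import Cfsg.Agent.Loc.PowA

/-! Tools for Powell's theorem: the `p`-length is detected on two-generator subgroups. -/

set_option autoImplicit false

namespace Cfsg.Agent.Loc.H78.Pow
open Cfsg Cfsg.Agent.GT

universe u

variable {p : ℕ}

theorem map_closure_pair {G G' : Type*} [Group G] [Group G'] (f : G →* G') (x y : G) :
    (Subgroup.closure {x, y}).map f = Subgroup.closure {f x, f y} := by
  rw [MonoidHom.map_closure, Set.image_pair]

/-- The statement of the two-generator theorem for one group. -/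
def TG (p : ℕ) (X : Type u) [Group X] : Prop :=
  IsPSolvable p X → ∀ n : ℕ, (∀ x y : X, ell p n (Subgroup.closure {x, y}) = ⊥) →
    ell p n (⊤ : Subgroup X) = ⊥

theorem TG.sub {X : Type u} [Group X] [Finite X] {Y : Subgroup X} (h : TG p Y)
    (hs : IsPSolvable p Y) {n : ℕ}
    (h2 : ∀ x ∈ Y, ∀ y ∈ Y, ell p n (Subgroup.closure {x, y}) = ⊥) : ell p n Y = ⊥ := by
  rw [← ell_top_eq_bot_iff]
  refine h hs n fun x y => ?_
  rw [ell_subtype_eq_bot_iff, map_closure_pair]
  exact h2 _ x.2 _ y.2

theorem TG.quot {X : Type u} [Group X] [Finite X] {N : Subgroup X} [N.Normal] (h : TG p (X ⧸ N))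
    (hs : IsPSolvable p (X ⧸ N)) {n : ℕ}
    (h2 : ∀ x y : X, ell p n (Subgroup.closure {x, y}) ≤ N) : ell p n ⊤ ≤ N := by
  have := h hs n fun x y => by
    obtain ⟨x, rfl⟩ := QuotientGroup.mk'_surjective N x
    obtain ⟨y, rfl⟩ := QuotientGroup.mk'_surjective N y
    rw [← map_closure_pair, ← map_ell, Subgroup.map_eq_bot_iff, QuotientGroup.ker_mk']
    exact h2 x y
  rwa [← Subgroup.map_top_of_surjective _ (QuotientGroup.mk'_surjective N), ← map_ell,
    Subgroup.map_eq_bot_iff, QuotientGroup.ker_mk'] at this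

theorem isPiNum_relIndex_of_gen_le {X : Type*} [Group X] [Finite X] {τ : Set ℕ}
    {L N : Subgroup X} [N.Normal] (h : gen τ L ≤ N) : IsPiNum τᶜ (N.relIndex L) := by
  have h1 := isPiNum_relIndex_gen τ L
  exact h1.of_dvd (Subgroup.relIndex_dvd_of_le_left L h)

theorem isPiNum_card_of_relIndex {X : Type*} [Group X] [Finite X] {τ : Set ℕ}
    {L N : Subgroup X} (hN : IsPiNum τ (Nat.card N)) (h : IsPiNum τ (N.relIndex L)) :
    IsPiNum τ (Nat.card L) := by
  rw [← card_inf_mul_relIndex N L]
  exact (hN.card_of_le inf_le_left).mul h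

theorem tg [hp : Fact p.Prime] (X : Type u) [Group X] [Finite X] : TG p X := by
  refine subgroup_quotient_induction (P := fun X _ _ => TG p X) ?_ X
  intro X _ _ ihS ihQ hs n h2
  cases n with
  | zero =>
    rw [ell_zero, eq_bot_iff]
    intro x _
    have := h2 x x
    rw [ell_zero] at this
    rw [← this]; exact Subgroup.subset_closure (by simp)
  | succ m =>
  cases m with
  | zero =>
    rw [ell_succ_eq_bot_iff, ell_zero, isPiNum_card_subgroup_iff_orderOf]
    intro g _
    have := (ell_succ_eq_bot_iff 0 _).1 (h2 g g)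
    exact this.orderOf_mem (Subgroup.subset_closure (by simp))
  | succ m =>
  set σ := (tau p (m + 1))ᶜ with hσ
  set L := ell p (m + 1) (⊤ : Subgroup X) with hL
  have hLn : L.Normal := ell_normal _ _
  have hquot : ∀ (N : Subgroup X) [N.Normal], N ≠ ⊥ → IsPiNum σ (N.relIndex L) := by
    intro N _ hN
    exact isPiNum_relIndex_of_gen_le ((ihQ N hN).quot (hs.quotient N) (n := m + 1 + 1)
      fun x y => by rw [h2]; exact bot_le)
  by_cases hO : piCore σ X = ⊥
  swap
  · rw [ell_succ_eq_bot_iff]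
    exact isPiNum_card_of_relIndex (isPiNum_piCore σ) (hquot _ hO)
  by_contra hne
  have hLne : L ≠ ⊥ := fun h => hne (by rw [eq_bot_iff, ← h]; exact ell_succ_le _ _)
  have hnt : Nontrivial X := by
    by_contra h
    rw [not_nontrivial_iff_subsingleton] at h
    exact hLne (Subsingleton.elim _ _)
  obtain ⟨N, hN⟩ := exists_isMinNormal X
  have := hN.normal
  have hNτ : IsPiNum σᶜ (Nat.card N) := by
    rcases minNormal_pi hs hN (m + 1) with h | h
    · rwa [hσ, compl_compl]
    · exact absurd (le_bot_iff.1 (hO ▸ le_piCore h)) hN.ne_bot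
  set R := L ⊔ N with hR
  have hrel : IsPiNum σ (N.relIndex R) := by
    rw [hR, Subgroup.relIndex_sup_right]; exact hquot N hN.ne_bot
  have hC : R ⊓ Subgroup.centralizer (N : Set X) ≤ N := cent_le hO hNτ hrel
  have hgen : gen σ L = L := gen_ell_succ m ⊤
  -- a non-trivial `σ`-element of `L`
  obtain ⟨x0, hx0L, hx0σ, hx0⟩ : ∃ x ∈ L, IsPiNum σ (orderOf x) ∧ x ≠ 1 := by
    by_contra h
    push Not at h
    apply hLne
    rw [← hgen, eq_bot_iff, gen_le_iff]
    exact fun g hg hτ => h g hg hτ
  have hx0N : x0 ∉ N := fun h => hx0 (orderOf_eq_one_iff.1 (hx0σ.eq_one (hNτ.orderOf_mem h)))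
  have hNR : N < R := lt_of_le_of_ne le_sup_right fun h =>
    hx0N (h ▸ Subgroup.mem_sup_left hx0L)
  -- proper subgroups
  have hprop : ∀ Y : Subgroup X, Y ≠ ⊤ → IsPiNum σ (Nat.card (ell p (m + 1) Y)) := by
    intro Y hY
    rw [hσ, ← ell_succ_eq_bot_iff]
    exact (ihS Y hY).sub (hs.subgroup Y) fun x _ y _ => h2 x y
  -- `N` is abelian
  have hab : N ≤ Subgroup.centralizer (N : Set X) := by
    have hpg : ∀ q : ℕ, q.Prime → IsPGroup q N → N ≤ Subgroup.centralizer (N : Set X) := by
      intro q hq h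
      have := (hN.elementary_of_isPGroup hq h).1
      exact Subgroup.le_centralizer N
    by_cases hm : Even (m + 1)
    · refine hpg p hp.out ((isPGroup_iff_isPiNum hp.out).2 ?_)
      rwa [hσ, compl_compl, tau_even p hm] at hNτ
    by_contra hnab
    have hσp : σ = {p} := by rw [hσ, tau_odd p hm, compl_compl]
    have hcop : (Nat.card (Subgroup.zpowers x0)).Coprime (Nat.card N) := by
      rw [Nat.card_zpowers]; exact hx0σ.coprime hNτ
    have hxC : N ≤ Subgroup.centralizer {x0} := by
      refine CopAct.le_of_forall_sylow_le fun q _ hq => ?_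
      obtain ⟨Q, hQ⟩ := CopAct.exists_invariant_sylow (A := Subgroup.zpowers x0) (K := N)
        Subgroup.le_normalizer_of_normal hcop (Or.inl inferInstance) q
      refine ⟨Q, ?_⟩
      set Q' := (Q : Subgroup N).map N.subtype with hQ'
      set Y := Subgroup.normalizer (Q' : Set X) with hY
      have hQN : Q' ≤ N := Subgroup.map_subtype_le _
      have hYtop : Y ≠ ⊤ := by
        intro h
        have hn : Q'.Normal := Subgroup.normalizer_eq_top_iff.1 h
        rcases hN.eq_bot_or_eq hQN with h1 | h1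
        · rw [hQ', Subgroup.map_eq_bot_iff_of_injective _ N.subtype_injective] at h1
          exact Q.ne_bot_of_dvd_card hq h1
        · exact hnab (hpg q Fact.out (h1 ▸ Q.2.map _))
      have hD := hprop Y hYtop
      set D := ell p (m + 1) Y with hDdef
      have hYN : Y ⊔ N = ⊤ := Sylow.normalizer_sup_eq_top Q
      have hmap : D.map (QuotientGroup.mk' N) = L.map (QuotientGroup.mk' N) := by
        rw [hDdef, hL, map_ell, map_ell, ← hYN, Subgroup.map_sup,
          (Subgroup.map_eq_bot_iff N).2 (by rw [QuotientGroup.ker_mk']), sup_bot_eq]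
      have hxY : x0 ∈ Y := hQ (Subgroup.mem_zpowers x0)
      have hxD : x0 ∈ D := by
        have h1 : QuotientGroup.mk' N x0 ∈ D.map (QuotientGroup.mk' N) :=
          hmap ▸ Subgroup.mem_map_of_mem _ hx0L
        obtain ⟨d, hd, hdx⟩ := h1
        have h3 : d⁻¹ * x0 ∈ N := QuotientGroup.eq.1 hdx
        have hDY : D ≤ Y := ell_le _ _
        have hn : N ⊓ Y ≤ Subgroup.normalizer (D : Set X) :=
          inf_le_right.trans (le_normalizer_ell _ _)
        refine mem_of_relIndex' (τ := σ) (R := (N ⊓ Y) ⊔ D)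
          (sup_le hn Subgroup.le_normalizer) ?_ ?_ hx0σ
        · rw [relIndex_sup_of_le_normalizer hn]
          exact (hNτ.card_of_le inf_le_left).of_dvd (Subgroup.relIndex_dvd_card _ _)
        · have : x0 = d * (d⁻¹ * x0) := by group
          rw [this]
          exact mul_mem (Subgroup.mem_sup_right hd)
            (Subgroup.mem_sup_left (Subgroup.mem_inf.2 ⟨h3, mul_mem (inv_mem (hDY hd)) hxY⟩))
      have hc : D ≤ Subgroup.centralizer (Q' : Set X) :=
        le_centralizer_of_le_normalizer (ell_le _ _)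
          (Subgroup.le_normalizer.trans (le_normalizer_ell _ _))
          (hD.inf_eq_bot (hNτ.card_of_le hQN))
      intro g hg
      exact Subgroup.mem_centralizer_singleton_iff.2 (Subgroup.mem_centralizer_iff.1 (hc hxD) g hg)
    refine hx0N (hC ⟨Subgroup.mem_sup_left hx0L, Subgroup.mem_centralizer_iff.2 fun g hg => ?_⟩)
    exact Subgroup.mem_centralizer_singleton_iff.1 (hxC hg)
  -- a pair generating `X` modulo `N`
  obtain ⟨x, y, hxy⟩ : ∃ x y : X, ¬ ell p (m + 1) (Subgroup.closure {x, y}) ≤ N := by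
    by_contra h
    push Not at h
    exact hx0N ((ihQ N hN.ne_bot).quot (hs.quotient N) h hx0L)
  have hK : Subgroup.closure {x, y} ⊔ N = ⊤ := by
    by_contra hK
    apply hxy
    refine (ell_mono _ (le_sup_left : _ ≤ Subgroup.closure {x, y} ⊔ N)).trans
      (le_trans (le_inf ((ell_mono _ le_top).trans le_sup_left) ?_) hC)
    exact le_centralizer_of_le_normalizer Subgroup.le_normalizer_of_normal
      (le_sup_right.trans (le_normalizer_ell _ _)) ((hprop _ hK).inf_eq_bot hNτ)
  have hfin : ∀ x y : X, Subgroup.closure {x, y} ⊔ N = ⊤ →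
      x ∉ Subgroup.centralizer (N : Set X) → False := by
    intro x y h1 h3
    obtain ⟨v, -, hv⟩ := two_gen hN hab hNR (hrel.coprime hNτ) hC h1 h3
    exact hne (hv ▸ h2 x (y * v))
  by_cases hx : x ∈ Subgroup.centralizer (N : Set X)
  swap
  · exact hfin x y hK hx
  by_cases hy : y ∈ Subgroup.centralizer (N : Set X)
  swap
  · exact hfin y x (by rwa [Set.pair_comm]) hy
  have htop : (⊤ : Subgroup X) ≤ Subgroup.centralizer (N : Set X) := by
    rw [← hK, sup_le_iff, Subgroup.closure_le]
    refine ⟨?_, hab⟩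
    rintro g (rfl | rfl) <;> assumption
  exact hNR.not_ge (le_trans (le_inf le_rfl (le_top.trans htop)) hC)

/-! ### Elements of `O_{p',p}` -/

/-- `z` lies in a `p`-nilpotent normal subgroup of `H`. -/
def Good {G : Type*} [Group G] (p : ℕ) (z : G) (H : Subgroup G) : Prop :=
  ∃ M : Subgroup G, z ∈ M ∧ M ≤ H ∧ H ≤ Subgroup.normalizer (M : Set G) ∧
    IsPiNum {p}ᶜ (Nat.card (gen {p}ᶜ M))

theorem Good.mono {G : Type*} [Group G] {z : G} {H K : Subgroup G} (h : Good p z H) (hz : z ∈ K)
    (hK : K ≤ H) : Good p z K := by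
  obtain ⟨M, h1, h2, h3, h4⟩ := h
  refine ⟨M ⊓ K, ⟨h1, hz⟩, inf_le_right, ?_, h4.card_of_le (gen_mono inf_le_left)⟩
  exact (le_inf (hK.trans h3) Subgroup.le_normalizer).trans (Subgroup.inf_normalizer_le_normalizer_inf)

theorem Good.map {G G' : Type*} [Group G] [Group G'] [Finite G] {z : G} {H : Subgroup G}
    (h : Good p z H) (f : G →* G') : Good p (f z) (H.map f) := by
  obtain ⟨M, h1, h2, h3, h4⟩ := h
  refine ⟨M.map f, Subgroup.mem_map_of_mem f h1, Subgroup.map_mono h2,
    (Subgroup.map_mono h3).trans (Subgroup.le_normalizer_map f), ?_⟩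
  rw [← map_gen]; exact h4.card_map f

theorem Good.of_subtype {G : Type*} [Group G] [Finite G] {H : Subgroup G} {z : H}
    {K : Subgroup H} (h : Good p (z : G) (K.map H.subtype)) : Good p z K := by
  obtain ⟨M, h1, h2, h3, h4⟩ := h
  have hM : M ≤ H := h2.trans (Subgroup.map_subtype_le _)
  refine ⟨M.subgroupOf H, h1, fun g hg => ?_, fun g hg => ?_, ?_⟩
  · obtain ⟨k, hk, e⟩ := h2 hg
    rwa [← Subtype.ext e]
  · have := h3 (Subgroup.mem_map_of_mem _ hg)
    rw [Subgroup.mem_normalizer_iff] at this ⊢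
    exact fun m => this m
  · rw [← card_map_subtype, map_gen, map_subtype_subgroupOf_of_le hM]; exact h4

theorem good_of_normal {G : Type*} [Group G] [Finite G] {z : G} {M : Subgroup G} [M.Normal]
    (hz : z ∈ M) (h : IsPiNum {p}ᶜ (Nat.card (gen {p}ᶜ M))) : Good p z ⊤ :=
  ⟨M, hz, le_top, Subgroup.le_normalizer_of_normal, h⟩

/-- The statement `(*)` for one group. -/
def Star (p : ℕ) (X : Type u) [Group X] : Prop :=
  IsPSolvable p X → ∀ z : X, IsPiNum {p} (orderOf z) →
    (∀ h : X, Good p z (Subgroup.closure {z, h})) → Good p z ⊤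

theorem Star.sub {X : Type u} [Group X] [Finite X] {Y : Subgroup X} (h : Star p Y)
    (hs : IsPSolvable p Y) {z : X} (hz : z ∈ Y) (hp : IsPiNum {p} (orderOf z))
    (h2 : ∀ y ∈ Y, Good p z (Subgroup.closure {z, y})) : Good p z Y := by
  have := h hs ⟨z, hz⟩ (by rwa [← Subgroup.orderOf_coe]) fun y => Good.of_subtype (by
    rw [map_closure_pair]; exact h2 _ y.2)
  have h3 := this.map Y.subtype
  rwa [← MonoidHom.range_eq_map, Y.range_subtype] at h3

theorem Star.quot {X : Type u} [Group X] [Finite X] {N : Subgroup X} [N.Normal]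
    (h : Star p (X ⧸ N)) (hs : IsPSolvable p (X ⧸ N)) {z : X} (hp : IsPiNum {p} (orderOf z))
    (h2 : ∀ y : X, Good p z (Subgroup.closure {z, y})) : Good p (QuotientGroup.mk' N z) ⊤ := by
  refine h hs _ (hp.of_dvd (orderOf_map_dvd _ _)) fun y => ?_
  obtain ⟨y, rfl⟩ := QuotientGroup.mk'_surjective N y
  rw [← map_closure_pair]
  exact (h2 y).map _

theorem star [hp : Fact p.Prime] (X : Type u) [Group X] [Finite X] : Star p X := by
  refine subgroup_quotient_induction (P := fun X _ _ => Star p X) ?_ X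
  intro X _ _ ihS ihQ hs z hz h2
  by_cases hO : piCore {p}ᶜ X = ⊥
  swap
  · obtain ⟨M, h1, -, h3, h4⟩ := (ihQ _ hO).quot (hs.quotient _) hz h2
    have := normal_of_top_le_normalizer h3
    refine good_of_normal (M := M.comap (QuotientGroup.mk' _)) h1 ?_
    refine (h4.card_comap_mk' (isPiNum_piCore _)).card_of_le ?_
    rw [← Subgroup.map_le_iff_le_comap, map_gen]
    exact gen_mono (Subgroup.map_comap_le _ _)
  rcases subsingleton_or_nontrivial X with hX | hX
  · have := h2 z
    rwa [Subsingleton.elim (Subgroup.closure _) ⊤] at this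
  obtain ⟨W, hW⟩ := exists_isMinNormal X
  have := hW.normal
  have hWp : IsPiNum {p} (Nat.card W) := by
    rcases minNormal_pi hs hW 0 with h | h
    · rwa [tau_even p Even.zero] at h
    · rw [tau_even p Even.zero] at h
      exact absurd (le_bot_iff.1 (hO ▸ le_piCore h)) hW.ne_bot
  have hab : W ≤ Subgroup.centralizer (W : Set X) := by
    have := (hW.elementary_of_isPGroup hp.out ((isPGroup_iff_isPiNum hp.out).2 hWp)).1
    exact Subgroup.le_centralizer W
  obtain ⟨M, h1, -, h3, h4⟩ := (ihQ W hW.ne_bot).quot (hs.quotient _) hz h2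
  have := normal_of_top_le_normalizer h3
  have := gen_normal {p}ᶜ M
  set O := gen {p}ᶜ M with hOdef
  set R := O.comap (QuotientGroup.mk' W) with hR
  have hWR : W ≤ R := fun w hw => by
    rw [hR, Subgroup.mem_comap, QuotientGroup.mk'_apply, (QuotientGroup.eq_one_iff w).2 hw]
    exact one_mem _
  have hrel : IsPiNum {p}ᶜ (W.relIndex R) := by
    rw [← card_map_mk'_eq_relIndex]
    exact h4.card_of_le (Subgroup.map_comap_le _ _)
  have hC : R ⊓ Subgroup.centralizer (W : Set X) ≤ W :=
    cent_le hO (by rwa [compl_compl]) hrel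
  by_cases hzR : ∀ h ∈ R, h * z * h⁻¹ * z⁻¹ ∈ W
  · set C := M ⊓ Subgroup.centralizer (O : Set (X ⧸ W)) with hCdef
    have hzC : QuotientGroup.mk' W z ∈ C := by
      refine ⟨h1, Subgroup.mem_centralizer_iff.2 fun g hg => ?_⟩
      obtain ⟨g, rfl⟩ := QuotientGroup.mk'_surjective W g
      have := (QuotientGroup.eq_one_iff _).2 (hzR g hg)
      rw [← QuotientGroup.mk'_apply, map_mul, map_mul, map_mul, map_inv, map_inv, mul_inv_eq_one,
        mul_inv_eq_iff_eq_mul] at this
      exact this
    have hk := central_kill (τ := {p}) (Z := O ⊓ C) (J := C) inf_le_right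
      (inf_le_right.trans (Subgroup.centralizer_le inf_le_left)) (h4.card_of_le inf_le_left) (by
        rw [Subgroup.inf_relIndex_right]
        have := isPiNum_relIndex_gen {p}ᶜ M
        rw [compl_compl] at this
        exact this.of_dvd (relIndex_dvd_of_le_right inf_le_left))
    have hz2 := piCoreOf_le_piCore C (hk (mem_gen hzC (hz.of_dvd (orderOf_map_dvd _ _))))
    refine good_of_normal (M := (piCore {p} (X ⧸ W)).comap (QuotientGroup.mk' W)) hz2 ?_
    rw [gen_eq_bot_iff.2 (by
      rw [compl_compl]; exact (isPiNum_piCore _).card_comap_mk' hWp)]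
    exact isPiNum_card_bot _
  push Not at hzR
  obtain ⟨h, hhR, hh⟩ := hzR
  have hcR : h * z * h⁻¹ * z⁻¹ ∈ R := by
    have := mul_mem hhR (Subgroup.Normal.conj_mem inferInstance _ (inv_mem hhR) z)
    convert this using 1; group
  have hK : Subgroup.closure {z, h} ⊔ W = ⊤ := by
    by_contra hK
    set K := Subgroup.closure {z, h} ⊔ W
    have hzK : z ∈ K := Subgroup.mem_sup_left (Subgroup.subset_closure (by simp))
    have hhK : h ∈ K := Subgroup.mem_sup_left (Subgroup.subset_closure (by simp))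
    obtain ⟨M', g1, g2, g3, g4⟩ := (ihS K hK).sub (hs.subgroup K) hzK hz fun y _ => h2 y
    have hDW : gen {p}ᶜ M' ⊓ W = ⊥ := by
      rw [inf_comm]; exact hWp.inf_eq_bot g4
    have hDC : gen {p}ᶜ M' ≤ Subgroup.centralizer (W : Set X) :=
      le_centralizer_of_le_normalizer Subgroup.le_normalizer_of_normal
        (le_sup_right.trans (g3.trans (normalizer_le_gen _ _))) hDW
    have hbot : gen {p}ᶜ (M' ⊓ R) = ⊥ := by
      rw [eq_bot_iff, ← hDW]
      refine le_inf (gen_mono inf_le_left) (le_trans (le_inf ?_ ?_) hC)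
      · exact (gen_le _ _).trans inf_le_right
      · exact (gen_mono inf_le_left).trans hDC
    rw [gen_eq_bot_iff, compl_compl] at hbot
    have hcM : h * z * h⁻¹ * z⁻¹ ∈ M' :=
      mul_mem ((Subgroup.mem_normalizer_iff.1 (g3 hhK) z).1 g1) (inv_mem g1)
    exact hh (mem_of_relIndex hrel hcR (hbot.orderOf_mem (Subgroup.mem_inf.2 ⟨hcM, hcR⟩)))
  have hlt : W < R := lt_of_le_of_ne hWR fun e => hh (e ▸ hcR)
  have hzC : z ∉ Subgroup.centralizer (W : Set X) := fun hc => hh (hC (Subgroup.mem_inf.2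
    ⟨hcR, mul_mem (Subgroup.Normal.conj_mem inferInstance _ hc h) (inv_mem hc)⟩))
  obtain ⟨v, -, hv⟩ := two_gen hW hab hlt (hWp.coprime hrel).symm hC hK hzC
  exact hv ▸ h2 (h * v)

end Cfsg.Agent.Loc.H78.Pow
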