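import Cfsg.Agent.Loc.PowB
import Cfsg.Agent.GT.Zipper
import Mathlib.GroupTheory.Transfer

/-! Powell's theorem. -/

set_option autoImplicit false

namespace Cfsg.Agent.Loc.H78.Pow
open Cfsg Cfsg.Agent.GT

variable {p : ℕ} {G : Type*} [Group G]

theorem nil_of_good_top [Finite G] {S : Set G} (hS : Subgroup.closure S = ⊤)
    (h : ∀ a ∈ S, Good p a ⊤) : IsPiNum {p}ᶜ (Nat.card (gen {p}ᶜ (⊤ : Subgroup G))) := by
  set O := piCore {p}ᶜ G
  have h1 : (⊤ : Subgroup G) ≤ (piCore {p} (G ⧸ O)).comap (QuotientGroup.mk' O) := by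
    rw [← hS, Subgroup.closure_le]
    intro a ha
    obtain ⟨M, g1, -, g3, g4⟩ := h a ha
    have := normal_of_top_le_normalizer g3
    have := gen_normal {p}ᶜ M
    have hM : (M.map (QuotientGroup.mk' O)).Normal :=
      Subgroup.Normal.map ‹_› _ (QuotientGroup.mk'_surjective O)
    have h2 : gen {p}ᶜ (M.map (QuotientGroup.mk' O)) = ⊥ := by
      rw [← map_gen, Subgroup.map_eq_bot_iff, QuotientGroup.ker_mk']
      exact le_piCore g4
    rw [gen_eq_bot_iff, compl_compl] at h2
    exact le_piCore h2 (Subgroup.mem_map_of_mem _ g1)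
  have h2 : gen {p}ᶜ ((⊤ : Subgroup G).map (QuotientGroup.mk' O)) = ⊥ := by
    rw [gen_eq_bot_iff, compl_compl]
    exact (isPiNum_piCore _).card_of_le (Subgroup.map_le_iff_le_comap.2 h1)
  rw [← map_gen, Subgroup.map_eq_bot_iff, QuotientGroup.ker_mk'] at h2
  exact (isPiNum_piCore _).card_of_le h2

theorem nil_of_good [Finite G] {S : Set G} (h : ∀ a ∈ S, Good p a (Subgroup.closure S)) :
    IsPiNum {p}ᶜ (Nat.card (gen {p}ᶜ (Subgroup.closure S))) := by
  have := nil_of_good_top (p := p) (Subgroup.closure_closure_coe_preimage (k := S)) fun a ha =>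
    Good.of_subtype (by
      rw [← MonoidHom.range_eq_map, Subgroup.range_subtype]; exact h _ ha)
  rwa [← card_map_subtype, map_gen, ← MonoidHom.range_eq_map, Subgroup.range_subtype] at this

theorem isolated [Finite G] [IsSimpleGroup G] [hp : Fact p.Prime] (hnp : ¬ IsPGroup p G)
    (h3 : ∀ a b c : G, Subgroup.closure {a, b, c} ≠ ⊤) {z : G} (hz : IsPiNum {p} (orderOf z))
    (hg : ∀ H : Subgroup G, H ≠ ⊤ → z ∈ H → Good p z H) (g : G) :
    IsPiNum {p}ᶜ (orderOf (z⁻¹ * (g * z * g⁻¹))) := by
  have hconj : ∀ a, IsConj z a → ∀ H : Subgroup G, H ≠ ⊤ → a ∈ H → Good p a H := by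
    intro a ha H hH haH
    obtain ⟨c, rfl⟩ := isConj_iff.1 ha
    have h1 := hg (H.comap (MulAut.conj c).toMonoidHom) (fun e => hH (by
      rw [eq_top_iff]
      intro x _
      have : c⁻¹ * x * c ∈ H.comap (MulAut.conj c).toMonoidHom := e ▸ Subgroup.mem_top _
      simpa [mul_assoc] using this)) (by simpa using haH)
    have h2 := h1.map (MulAut.conj c).toMonoidHom
    rwa [Subgroup.map_comap_eq_self_of_surjective (MulAut.conj c).surjective] at h2
  have hnil : ∀ a b c, IsConj z a → IsConj z b → IsConj z c →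
      IsPiNum {p}ᶜ (Nat.card (gen {p}ᶜ (Subgroup.closure {a, b, c}))) := by
    intro a b c ha hb hc
    refine nil_of_good fun x hx => hconj x ?_ _ (h3 a b c) (Subgroup.subset_closure hx)
    rcases hx with rfl | rfl | rfl <;> assumption
  have hcc : ∀ b, IsConj z b → ∀ g : G, IsConj z (g * b * g⁻¹) := fun b hb g =>
    hb.trans (isConj_iff.2 ⟨g, rfl⟩)
  have htrans : ∀ a b c, IsConj z a → IsConj z b → IsConj z c →
      IsPiNum {p}ᶜ (orderOf (a⁻¹ * b)) → IsPiNum {p}ᶜ (orderOf (b⁻¹ * c)) →
      IsPiNum {p}ᶜ (orderOf (a⁻¹ * c)) := by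
    intro a b c ha hb hc h1 h2
    have ha' : a ∈ Subgroup.closure {a, b, c} := Subgroup.subset_closure (by simp)
    have hb' : b ∈ Subgroup.closure {a, b, c} := Subgroup.subset_closure (by simp)
    have hc' : c ∈ Subgroup.closure {a, b, c} := Subgroup.subset_closure (by simp)
    have := mul_mem (mem_gen (mul_mem (inv_mem ha') hb') h1) (mem_gen (mul_mem (inv_mem hb') hc') h2)
    have h4 := (hnil a b c ha hb hc).orderOf_mem this
    rwa [mul_assoc, mul_inv_cancel_left] at h4
  let K : Subgroup G :=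
    { carrier := {g | ∀ b, IsConj z b → IsPiNum {p}ᶜ (orderOf (b⁻¹ * (g * b * g⁻¹)))}
      one_mem' := fun b _ => by simpa using isPiNum_one _
      mul_mem' := fun {g h} hg hh b hb => by
        have := htrans _ _ _ hb (hcc b hb h) (hcc _ (hcc b hb h) g) (hh b hb) (hg _ (hcc b hb h))
        convert this using 3; group
      inv_mem' := fun {g} hg b hb => by
        have := hg _ (hcc b hb g⁻¹)
        rw [← orderOf_inv] at this
        convert this using 2; group }
  have hKn : K.Normal := ⟨fun g hg k b hb => by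
    have := hg _ (hcc b hb k⁻¹)
    rw [← (MulAut.conj k).orderOf_eq] at this
    convert this using 2
    simp only [MulAut.conj_apply]; group⟩
  rcases hKn.eq_bot_or_eq_top with hK | hK
  swap
  · have : g ∈ K := hK ▸ Subgroup.mem_top g
    exact this z (IsConj.refl z)
  -- commutators with `p'`-elements of three-generator subgroups
  have hcomm : ∀ a b c, IsConj z a → IsConj z b → IsConj z c →
      ∀ u ∈ gen {p}ᶜ (Subgroup.closure {a, b, c}), ∀ d ∈ Subgroup.closure {a, b, c},
      IsPiNum {p}ᶜ (orderOf (d⁻¹ * (u * d * u⁻¹))) := by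
    intro a b c ha hb hc u hu d hd
    have h1 := CopAct.conj_mem' (Subgroup.le_normalizer.trans (normalizer_le_gen {p}ᶜ _)) hd hu
    have h2 := (hnil a b c ha hb hc).orderOf_mem (mul_mem h1 (inv_mem hu))
    convert h2 using 2; group
  have heq : ∀ a b, IsConj z a → IsConj z b → IsPiNum {p}ᶜ (orderOf (a⁻¹ * b)) → a = b := by
    intro a b ha hb h
    have : a⁻¹ * b ∈ K := fun c hc => hcomm a b c ha hb hc _
      (mem_gen (mul_mem (inv_mem (Subgroup.subset_closure (by simp)))
        (Subgroup.subset_closure (by simp))) h) c (Subgroup.subset_closure (by simp))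
    rwa [hK, Subgroup.mem_bot, inv_mul_eq_one] at this
  have hzO : z ∈ pCore p G := by
    refine baer_suzuki_elem fun g => ?_
    set b := g * z * g⁻¹
    have hb : IsConj z b := hcc z (IsConj.refl z) g
    have e : ({z, b} : Set G) = {z, b, b} := by simp
    rw [e]
    set H := Subgroup.closure ({z, b, b} : Set G) with hH
    have hc : H ≤ Subgroup.centralizer (gen {p}ᶜ H : Set G) := by
      rw [hH, Subgroup.closure_le]
      intro a ha
      have ha' : IsConj z a := by
        rcases ha with rfl | rfl | rfl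
        exacts [IsConj.refl _, hb, hb]
      refine Subgroup.mem_centralizer_iff.2 fun u hu => ?_
      have := heq a _ ha' (hcc a ha' u)
        (hcomm z b b (IsConj.refl z) hb hb u hu a (Subgroup.subset_closure ha))
      rw [eq_mul_inv_iff_mul_eq] at this
      exact this.symm
    have hk := central_kill (τ := {p}) (gen_le _ H) hc (hnil z b b (IsConj.refl z) hb hb) (by
      have := isPiNum_relIndex_gen {p}ᶜ H
      rwa [compl_compl] at this)
    have hle : H ≤ gen {p} H := by
      conv_lhs => rw [hH]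
      rw [Subgroup.closure_le]
      intro a ha
      refine mem_gen (Subgroup.subset_closure ha) ?_
      have hbo : orderOf b = orderOf z := (MulAut.conj g).orderOf_eq z
      rcases ha with rfl | rfl | rfl
      exacts [hz, hbo ▸ hz, hbo ▸ hz]
    exact (isPGroup_iff_isPiNum hp.out).2 ((isPiNum_piCoreOf _ H).card_of_le (hle.trans hk))
  rcases (inferInstance : (pCore p G).Normal).eq_bot_or_eq_top with h | h
  · rw [h, Subgroup.mem_bot] at hzO
    simpa [hzO] using isPiNum_one _
  · exact absurd (pCore_eq_top_iff.1 h) hnp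

theorem descend [Finite G] (k : ℕ) (h5 : ell p (2 * k + 5) (⊤ : Subgroup G) = ⊥)
    (hiso : ∀ z ∈ ell p (2 * k + 3) (⊤ : Subgroup G), IsPiNum {p} (orderOf z) →
      ∀ g : G, IsPiNum {p}ᶜ (orderOf (z⁻¹ * (g * z * g⁻¹)))) :
    ell p (2 * k + 3) (⊤ : Subgroup G) = ⊥ := by
  have t1 : tau p (2 * k + 1) = {p}ᶜ := tau_odd p (by simp [parity_simps])
  have t2 : tau p (2 * k + 2) = {p} := tau_even p (by simp [parity_simps])
  have t3 : tau p (2 * k + 3) = {p}ᶜ := tau_odd p (by simp [parity_simps])
  have t4 : tau p (2 * k + 4) = {p} := tau_even p (by simp [parity_simps])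
  set J := ell p (2 * k + 2) (⊤ : Subgroup G) with hJ
  set M := ell p (2 * k + 3) (⊤ : Subgroup G) with hM
  set O := ell p (2 * k + 4) (⊤ : Subgroup G) with hO
  have hJg : gen {p}ᶜ J = J := by rw [← t2]; exact gen_ell_succ _ _
  have hMJ : M = gen {p} J := by rw [← t2]; rfl
  have hOM : O = gen {p}ᶜ M := by rw [← t3]; rfl
  have hOp : IsPiNum {p}ᶜ (Nat.card O) := by rw [← t4]; exact (ell_succ_eq_bot_iff _ _).1 h5
  have : O.Normal := ell_normal _ _
  have hMn : M.Normal := ell_normal _ _
  have hcen : M.map (QuotientGroup.mk' O) ≤ Subgroup.center _ := by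
    rw [Subgroup.map_le_iff_le_comap, hMJ, ← gen_gen, ← hMJ, gen_le_iff]
    intro z hz hzp
    rw [Subgroup.mem_comap, Subgroup.mem_center_iff]
    intro g
    obtain ⟨g, rfl⟩ := QuotientGroup.mk'_surjective O g
    have h1 : z⁻¹ * (g * z * g⁻¹) ∈ O :=
      hOM ▸ mem_gen (mul_mem (inv_mem hz) (hMn.conj_mem _ hz g)) (hiso z hz hzp g)
    have h2 := QuotientGroup.eq.2 h1
    rw [← QuotientGroup.mk'_apply, ← QuotientGroup.mk'_apply, map_mul, map_mul, map_inv,
      eq_mul_inv_iff_mul_eq] at h2
    exact h2.symm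
  have hk := central_kill (τ := {p}ᶜ) (Z := M.map (QuotientGroup.mk' O))
    (J := J.map (QuotientGroup.mk' O)) (Subgroup.map_mono (ell_succ_le _ _))
    (le_top.trans (Subgroup.le_centralizer_iff.1
      (hcen.trans (Subgroup.center_le_centralizer _)))) (by
      rw [card_map_mk'_eq_relIndex]
      exact isPiNum_relIndex_of_gen_le hOM.ge) (by
      rw [hMJ, map_gen]; exact isPiNum_relIndex_gen _ _)
  rw [← map_gen, hJg] at hk
  have h6 := (isPiNum_piCoreOf _ _).card_of_le hk
  rw [card_map_mk'_eq_relIndex] at h6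
  rw [hMJ, gen_eq_bot_iff]
  exact isPiNum_card_of_relIndex hOp h6

theorem powell [Finite G] [IsSimpleGroup G] (hna : ¬ IsMulCommutative G) [hp : Fact p.Prime]
    (hdvd : p ∣ Nat.card G) (hprop : ∀ H : Subgroup G, H ≠ ⊤ → IsPSolvable p H) :
    ∃ x y z : G, Subgroup.closure ({x, y, z} : Set G) = ⊤ := by
  by_contra h3
  push Not at h3
  have hnp : ¬ IsPGroup p G := fun h => by
    have := h.isNilpotent
    exact hna ⟨⟨IsSimpleGroup.comm_iff_isSolvable.2 inferInstance⟩⟩
  have h2 : ∀ x y : G, Subgroup.closure {x, y} ≠ ⊤ := fun x y => by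
    have := h3 x y y
    rwa [show ({x, y, y} : Set G) = {x, y} by simp] at this
  have step : ∀ k, (∀ x y : G, ell p (2 * k + 3) (Subgroup.closure {x, y}) = ⊥) →
      ∀ x y : G, ∀ z ∈ ell p (2 * k + 1) (Subgroup.closure {x, y}), IsPiNum {p} (orderOf z) →
      ∀ g : G, IsPiNum {p}ᶜ (orderOf (z⁻¹ * (g * z * g⁻¹))) := by
    intro k hk x y z hz hzp
    have t1 : tau p (2 * k + 1) = {p}ᶜ := tau_odd p (by simp [parity_simps])
    have t2 : tau p (2 * k + 2) = {p} := tau_even p (by simp [parity_simps])
    refine isolated hnp h3 hzp fun H hH hzH => (star H).sub (hprop H hH) hzH hzp fun g _ => ?_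
    set B := Subgroup.closure ({x, y, g} : Set G)
    have hB : ell p (2 * k + 3) B = ⊥ :=
      (tg B).sub (hprop B (h3 x y g)) fun a _ b _ => hk a b
    have hAB : Subgroup.closure {x, y} ≤ B := Subgroup.closure_mono (by
      rintro a (rfl | rfl) <;> simp)
    have hzB := ell_mono (p := p) (2 * k + 1) hAB hz
    have hgood : Good p z B := ⟨ell p (2 * k + 1) B, hzB, ell_le _ _, le_normalizer_ell _ _, by
      have := (ell_succ_eq_bot_iff _ _).1 hB
      rwa [t2, ell_succ, t1] at this⟩
    refine hgood.mono (Subgroup.subset_closure (by simp)) ?_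
    rw [Subgroup.closure_le]
    rintro a (rfl | rfl)
    · exact ell_le _ _ hzB
    · exact Subgroup.subset_closure (by simp)
  have main : ∀ k, ¬ ∀ x y : G, ell p (2 * k + 3) (Subgroup.closure {x, y}) = ⊥ := by
    intro k
    induction k with
    | zero =>
      intro hk
      obtain ⟨P⟩ : Nonempty (Sylow p G) := inferInstance
      have hPp : IsPiNum {p} (Nat.card (P : Subgroup G)) := (isPGroup_iff_isPiNum hp.out).1 P.2
      have hP : Subgroup.normalizer (P : Set G) ≤ Subgroup.centralizer (P : Set G) := by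
        intro g hg
        refine Subgroup.mem_centralizer_iff.2 fun z hz => ?_
        have hzp := hPp.orderOf_mem hz
        have h4 := step 0 hk z z z (by
          rw [ell_succ, tau_even p (by simp)]
          exact mem_gen (Subgroup.subset_closure (by simp)) hzp) hzp g
        have h5 : z⁻¹ * (g * z * g⁻¹) ∈ (P : Subgroup G) :=
          mul_mem (inv_mem hz) ((Subgroup.mem_normalizer_iff.1 hg z).1 hz)
        have h6 := orderOf_eq_one_iff.1 ((hPp.orderOf_mem h5).eq_one h4)
        rw [inv_mul_eq_one, eq_mul_inv_iff_mul_eq] at h6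
        exact h6
      have hc := MonoidHom.ker_transferSylow_isComplement' P hP
      rcases (inferInstance : (MonoidHom.transferSylow P hP).ker.Normal).eq_bot_or_eq_top
        with h | h
      · rw [h, Subgroup.isComplement'_bot_left] at hc
        exact hnp (IsPGroup.of_equiv (hc ▸ P.2) Subgroup.topEquiv)
      · rw [h, Subgroup.isComplement'_top_left] at hc
        exact P.ne_bot_of_dvd_card hdvd hc
    | succ k ih =>
      intro hk
      refine ih fun x y => ?_
      set A := Subgroup.closure ({x, y} : Set G)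
      rw [← ell_top_eq_bot_iff]
      refine descend k ((ell_top_eq_bot_iff _ _).2 (hk x y)) fun z hz hzp g => ?_
      have h4 : (z : G) ∈ ell p (2 * (k + 1) + 1) A := by
        have := Subgroup.mem_map_of_mem A.subtype hz
        rwa [map_ell, ← MonoidHom.range_eq_map, A.range_subtype] at this
      have := step (k + 1) hk x y z h4 (by rwa [Subgroup.orderOf_coe]) g
      rw [← Subgroup.orderOf_coe]
      exact this
  refine main (Nat.card G) fun x y => ?_
  set A := Subgroup.closure ({x, y} : Set G)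
  have := (ell_top_eq_bot_iff _ _).1 (ell_eq_bot A (hprop A (h2 x y)))
  rw [eq_bot_iff, ← this]
  have hle : Nat.card A ≤ Nat.card G := Subgroup.card_le_card_group A
  exact ell_anti (by omega) _

end Cfsg.Agent.Loc.H78.Pow
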