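import Mathlib
import Cfsg.Agent.Loc.FpfWard
import Cfsg.Agent.FT.Quot
import Cfsg.Agent.FT.BG3_2

/-!
Group-theoretic lemmas for fixed-point-free actions of a non-abelian group of order `p * l`.
-/

set_option autoImplicit false

namespace Cfsg.Agent.Loc.Shu

open Cfsg Cfsg.Agent.FT Cfsg.Agent.GT Cfsg.Agent.Loc.H78
open scoped commutatorElement

variable {Γ : Type*} [Group Γ]

/-- The conjugate `g⁻¹ K g`. -/
abbrev cj (K : Subgroup Γ) (g : Γ) : Subgroup Γ := K.comap (MulAut.conj g).toMonoidHom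

theorem mem_cj {K : Subgroup Γ} {g x : Γ} : x ∈ cj K g ↔ g * x * g⁻¹ ∈ K := Iff.rfl

theorem mem_cent2_cj {Z K : Subgroup Γ} {g a : Γ} (hg : g ∈ 𝐍(Z)) :
    a ∈ cent2 Z (cj K g) ↔ g * a * g⁻¹ ∈ cent2 Z K := by
  constructor
  · rintro ⟨h1, h2⟩
    refine ⟨mul_mem (mul_mem hg h1) (inv_mem hg), fun y hy => ?_⟩
    have := mem_cj.1 (h2 (g⁻¹ * y * g) (CopAct.conj_mem' le_rfl hg hy))
    rwa [conjugate_commutatorElement, show g * (g⁻¹ * y * g) * g⁻¹ = y by group] at this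
  · rintro ⟨h1, h2⟩
    refine ⟨?_, fun y hy => mem_cj.2 ?_⟩
    · have := mul_mem (mul_mem (inv_mem hg) h1) hg
      rwa [show g⁻¹ * (g * a * g⁻¹) * g = a by group] at this
    · rw [conjugate_commutatorElement]
      exact h2 _ (CopAct.conj_mem le_rfl hg hy)

theorem le_norm_cj [Finite Γ] {P D : Subgroup Γ} {g : Γ} (hg : g ∈ 𝐍(P)) (h : P ≤ 𝐍(D)) :
    P ≤ 𝐍(cj D g) :=
  le_norm_of_conj_mem fun a ha x hx => mem_cj.2 (by
    have := CopAct.conj_mem h (CopAct.conj_mem le_rfl hg ha) (mem_cj.1 hx)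
    rwa [show g * a * g⁻¹ * (g * x * g⁻¹) * (g * a * g⁻¹)⁻¹ = g * (a * x * a⁻¹) * g⁻¹ by group]
      at this)

theorem cent2_mono {Q D E : Subgroup Γ} (h : D ≤ E) : cent2 Q D ≤ cent2 Q E :=
  fun _ ha => ⟨ha.1, fun y hy => h (ha.2 y hy)⟩

theorem le_cent2 {Q D P : Subgroup Γ} (h : P ≤ 𝐍(Q)) (h1 : ⁅Q, P⁆ ≤ D) : P ≤ cent2 Q D :=
  (le_cent2_comm h).trans (cent2_mono h1)

theorem le_cent2_acore {A X Q D : Subgroup Γ} (hAQ : A ≤ 𝐍(Q)) (hAX : A ≤ 𝐍(X))
    (h : X ≤ cent2 Q D) : X ≤ cent2 Q (acore A D) := fun x hx =>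
  ⟨(h hx).1, fun y hy => mem_acore.2 fun a ha => by
    rw [conjugate_commutatorElement]
    exact (h (CopAct.conj_mem hAX ha hx)).2 _ (CopAct.conj_mem hAQ ha hy)⟩

variable [Finite Γ]

omit [Finite Γ] in
theorem le_inf_sup {Q P E D D' : Subgroup Γ} (hPQ : P ≤ 𝐍(Q)) (hQP : Q ≤ ⁅Q, P⁆) (hDQ : D ≤ Q)
    (hEQ : E ≤ Q) (hPD : P ≤ 𝐍(D)) (hQD : Q ≤ 𝐍(D)) (hPE : P ≤ 𝐍(E)) (hQE : Q ≤ 𝐍(E))
    (hQD' : Q ≤ 𝐍(D')) (h : Q ≤ E ⊔ D)
    (hP : P ≤ P ⊓ cent2 Q D ⊔ P ⊓ cent2 Q D') : Q ≤ E ⊓ D' ⊔ D := by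
  have hQF : Q ≤ 𝐍(E ⊓ D' ⊔ D) :=
    CopAct.le_normalizer_sup (CopAct.le_normalizer_inf hQE hQD') hQD
  refine hQP.trans (comm_le_of_le_cent2 (hP.trans (sup_le
    (inf_le_right.trans (cent2_mono le_sup_right)) (le_cent2 (inf_le_left.trans hPQ) ?_))))
  refine (Subgroup.commutator_mono h le_rfl).trans
    (commutator_sup_le ((sup_le hEQ hDQ).trans hQF) (le_sup_of_le_left (le_inf ?_ ?_))
      (le_sup_of_le_right ?_))
  · exact CopAct.commutator_le_of_le_normalizer (inf_le_left.trans hPE)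
  · exact (Subgroup.commutator_mono hEQ le_rfl).trans (comm_le_of_le_cent2 inf_le_right)
  · exact CopAct.commutator_le_of_le_normalizer (inf_le_left.trans hPD)

/-- If `[P, B]` acts trivially on `Q / D`, where `B` generates `A` with each of its other
conjugates, then `Q` is covered by the intersection of the other conjugates of `D`. -/
theorem le_of_conj {Q P A B D : Subgroup Γ} (hPQ : P ≤ 𝐍(Q)) (hQP : Q ≤ ⁅Q, P⁆) (hDQ : D ≤ Q)
    (hPD : P ≤ 𝐍(D)) (hQD : Q ≤ 𝐍(D)) (hAQ : A ≤ 𝐍(Q)) (hAP : A ≤ 𝐍(P)) (hPA : P ≤ ⁅P, A⁆)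
    (hBA : B ≤ A) (hPB : ⁅P, B⁆ ≤ cent2 Q D) (hgen : ∀ c ∈ A, c ∉ B → A ≤ B ⊔ cj B c)
    (h : ∀ e ∈ Q, (∀ c ∈ A, c ∉ B → c * e * c⁻¹ ∈ D) → e ∈ D) : Q ≤ D := by
  classical
  have key : ∀ S : Finset Γ, (∀ c ∈ S, c ∈ A ∧ c ∉ B) →
      P ≤ 𝐍(Q ⊓ S.inf (cj D)) ∧ Q ≤ 𝐍(Q ⊓ S.inf (cj D)) ∧ Q ≤ Q ⊓ S.inf (cj D) ⊔ D := by
    intro S
    induction S using Finset.induction_on with
    | empty => intro _; simpa using ⟨hPQ, Subgroup.le_normalizer⟩
    | insert c S _ ih =>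
      intro hS
      obtain ⟨h1, h2, h3⟩ := ih fun x hx => hS x (Finset.mem_insert_of_mem hx)
      obtain ⟨hcA, hcB⟩ := hS c (Finset.mem_insert_self c S)
      have hP' : P ≤ 𝐍(cj D c) := le_norm_cj (hAP hcA) hPD
      have hQ' : Q ≤ 𝐍(cj D c) := le_norm_cj (hAQ hcA) hQD
      rw [Finset.inf_insert, inf_comm (cj D c), ← inf_assoc]
      refine ⟨CopAct.le_normalizer_inf h1 hP', CopAct.le_normalizer_inf h2 hQ',
        le_inf_sup hPQ hQP hDQ inf_le_left hPD hQD h1 h2 hQ' h3 ?_⟩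
      refine hPA.trans (comm_le_of_le_cent2 ((hgen c hcA hcB).trans (sup_le ?_ ?_)))
      · exact le_cent2 (hBA.trans hAP) (le_sup_of_le_left
          (le_inf (CopAct.commutator_le_of_le_normalizer (hBA.trans hAP)) hPB))
      · have hn : cj B c ≤ 𝐍(P) := fun x hx => by
          have := mul_mem (mul_mem (inv_mem (hAP hcA)) (hAP (hBA (mem_cj.1 hx)))) (hAP hcA)
          rwa [show c⁻¹ * (c * x * c⁻¹) * c = x by group] at this
        refine le_cent2 hn (le_sup_of_le_right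
          (le_inf (CopAct.commutator_le_of_le_normalizer hn) ?_))
        refine Subgroup.commutator_le.2 fun x hx y hy => (mem_cent2_cj (hAQ hcA)).2 ?_
        rw [conjugate_commutatorElement]
        exact hPB (Subgroup.commutator_mem_commutator (CopAct.conj_mem hAP hcA hx) (mem_cj.1 hy))
  let S : Finset Γ := (Set.toFinite {c | c ∈ A ∧ c ∉ B}).toFinset
  refine (key S fun c hc => by simpa [S] using hc).2.2.trans (sup_le (fun e he => ?_) le_rfl)
  refine h e he.1 fun c h1 h2 => mem_cj.1 ?_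
  exact (Finset.inf_le (f := cj D) (show c ∈ S by simp [S, h1, h2]) : S.inf (cj D) ≤ _) he.2

/-- Glauberman's lemma for stabilisers of sections. -/
theorem exists_le_cent2 {Z K P A B B' : Subgroup Γ} (hPZ : P ≤ 𝐍(Z)) (hAP : A ≤ 𝐍(P))
    (hcop : (Nat.card A).Coprime (Nat.card P)) (hsol : Group.IsSolvable P) (hB : B ≤ A)
    (hB' : B' ≤ A) (h1 : B ≤ cent2 Z K) {x : Γ} (hx : x ∈ P) (h2 : B' ≤ cent2 Z (cj K x))
    (h : A ≤ B ⊔ B') : ∃ y ∈ P, A ≤ cent2 Z (cj K y) := by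
  have h3 : A ≤ P ⊔ cent2 Z K ⊓ 𝐍(P) := by
    refine h.trans (sup_le (le_sup_of_le_right (le_inf h1 (hB.trans hAP))) fun b hb => ?_)
    have h4 : x * b * x⁻¹ ∈ cent2 Z K ⊓ 𝐍(P) := ⟨(mem_cent2_cj (hPZ hx)).1 (h2 hb),
      (𝐍(P)).mul_mem ((𝐍(P)).mul_mem (Subgroup.le_normalizer hx) (hAP (hB' hb)))
        ((𝐍(P)).inv_mem (Subgroup.le_normalizer hx))⟩
    have := mul_mem (mul_mem (Subgroup.mem_sup_left (P.inv_mem hx)) (Subgroup.mem_sup_right h4))
      (Subgroup.mem_sup_left (T := cent2 Z K ⊓ 𝐍(P)) hx)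
    rwa [show x⁻¹ * (x * b * x⁻¹) * x = b by group] at this
  obtain ⟨k, hk, h4⟩ := CopAct.exists_conj_mem_of_subset_mul hAP hcop (Or.inr hsol)
    (M := cent2 Z K) fun a ha => by
      obtain ⟨k, hk, m, hm, rfl⟩ := (CopAct.mem_sup_iff_of_le_normalizer inf_le_right).1 (h3 ha)
      exact ⟨k, hk, by simpa using hm.1⟩
  exact ⟨k⁻¹, inv_mem hk, fun a ha => (mem_cent2_cj (hPZ (inv_mem hk))).2
    (by simpa using h4 a ha)⟩

/-- Wielandt's formula on a section, for an action with a kernel. -/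
theorem relIndex_eq_pow {Q D P R : Subgroup Γ} (hDQ : D ≤ Q) (hPQ : P ≤ 𝐍(Q))
    (hRQ : R ≤ 𝐍(Q)) (hPD : P ≤ 𝐍(D)) (hRD : R ≤ 𝐍(D)) (hRP : R ≤ 𝐍(P))
    (hR : (Nat.card R).Prime) (hRPc : (Nat.card R).Coprime (Nat.card P))
    (hQP : (Nat.card Q).Coprime (Nat.card P)) (hQR : (Nat.card Q).Coprime (Nat.card R))
    (hsol : Group.IsSolvable Q) (hsP : Group.IsSolvable P) (hab : ⁅P, P⁆ ≤ 𝐂(Q))
    (hPR : P ≤ ⁅P, R⁆) (hne : ¬ P ≤ 𝐂(Q)) (hC : Q ⊓ 𝐂(P) ≤ D) :
    D.relIndex Q = D.relIndex (Q ⊓ 𝐂(R)) ^ Nat.card R := by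
  set N := P ⊓ 𝐂(Q)
  have hPN : P ≤ 𝐍(N) :=
    CopAct.le_normalizer_inf Subgroup.le_normalizer (CopAct.le_normalizer_centralizer hPQ)
  have hRN : R ≤ 𝐍(N) := CopAct.le_normalizer_inf hRP (CopAct.le_normalizer_centralizer hRQ)
  have hQN : Q ≤ 𝐍(N) :=
    CopAct.le_normalizer_of_le_centralizer (Subgroup.le_centralizer_iff.1 inf_le_right)
  have hNQ : N ⊓ Q = ⊥ :=
    CopAct.inf_eq_bot_of_coprime (CopAct.coprime_mono hQP.symm inf_le_left le_rfl)
  have hNR : N ⊓ R = ⊥ :=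
    CopAct.inf_eq_bot_of_coprime (CopAct.coprime_mono hRPc.symm inf_le_left le_rfl)
  have hc : ∀ X ≤ Q, Nat.card (quot X N) = Nat.card X := fun X hX =>
    card_quot_of_inf_eq_bot (hX.trans hQN) (eq_bot_iff.2 (hNQ ▸ inf_le_inf_left _ hX))
  have hcR : Nat.card (quot R N) = Nat.card R := card_quot_of_inf_eq_bot hRN hNR
  have hri : ∀ X ≤ Q, (quot D N).relIndex (quot X N) = D.relIndex X := fun X hX => by
    have h1 := GT.card_inf_mul_relIndex D X
    have h2 := GT.card_inf_mul_relIndex (quot D N) (quot X N)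
    have h3 : quot D N ⊓ quot X N = quot (D ⊓ X) N := by
      refine le_antisymm ?_ (quot_inf_le D X N)
      rintro y ⟨h4, h5⟩
      obtain ⟨d, hd, rfl⟩ := mem_quot.1 h4
      obtain ⟨x, hx, e⟩ := mem_quot.1 h5
      have h6 : (x : Γ)⁻¹ * d ∈ N ⊓ Q :=
        ⟨(QuotientGroup.eq.1 e :), Q.mul_mem (Q.inv_mem (hX hx)) (hDQ hd)⟩
      rw [hNQ, Subgroup.mem_bot, inv_mul_eq_one] at h6
      exact coset_mem_quot d ⟨hd, h6 ▸ hx⟩
    rw [h3, hc _ (inf_le_left.trans hDQ), hc X hX, ← h1] at h2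
    exact Nat.eq_of_mul_eq_mul_left Nat.card_pos h2
  have hcP : (Nat.card (quot R N)).Coprime (Nat.card (quot P N)) :=
    hcR ▸ hRPc.coprime_dvd_right (card_quot_dvd P N)
  have hab' : IsMulCommutative (quot P N) := (isMulCommutative_quot_iff hPN).2
    (le_inf (CopAct.commutator_le_of_le_normalizer Subgroup.le_normalizer) hab)
  have hfp : quot P N ⊓ 𝐂(quot R N) = ⊥ := by
    have := CopAct.commutator_inf_centralizer_eq_bot hab' (quot_le_norm N hRP) hcP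
    rw [← quot_commutator hPN hRN] at this
    exact eq_bot_iff.2 (this ▸ inf_le_inf_right _ (quot_mono N hPR))
  have h1 := relIndex_eq_pow_of_frob (Q := quot Q N) (D := quot D N) (P := quot P N)
    (R := quot R N) (quot_mono N hDQ) (quot_le_norm N hPQ) (quot_le_norm N hRQ)
    (quot_le_norm N hPD) (quot_le_norm N hRD)
    ⟨⟨rfl, CopAct.inf_eq_bot_of_coprime hcP.symm, quot_le_norm N hRP⟩,
      fun e => hne (((quot_eq_bot_iff hPN).1 e).trans inf_le_right),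
      fun e => hR.one_lt.ne' (by rw [← hcR, e, Subgroup.card_bot]),
      semiregular_of_prime (hcR ▸ hR) hfp⟩
    (by
      rw [CopAct.card_sup_of_coprime (quot_le_norm N hRP) hcP, hc Q le_rfl, hcR]
      exact Nat.Coprime.mul_right (hQP.coprime_dvd_right (card_quot_dvd P N)) hQR)
    (isSolvable_quot N hsol)
    (by
      rw [← quot_inf_cent' hQN hPN hPQ hQP.symm (Or.inl hsP)]
      exact quot_mono N hC)
  rwa [← quot_inf_cent' hQN hRN hRQ hQR.symm (Or.inr hsol), hri Q le_rfl, hri _ inf_le_left,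
    hcR] at h1

/-- A non-abelian subgroup of order `p * l` with `l < p`. -/
structure PQ (A N : Subgroup Γ) (p l : ℕ) : Prop where
  hp : p.Prime
  hl : l.Prime
  card : Nat.card A = p * l
  hN : N ≤ A
  cardN : Nat.card N = p
  norm : A ≤ 𝐍(N)
  dvd : l ∣ p - 1
  na : ¬ IsMulCommutative A

theorem prime_card {A B : Subgroup Γ} {p l : ℕ} (hp : p.Prime) (hl : l.Prime)
    (hA : Nat.card A = p * l) (hB : B ≤ A) (h0 : B ≠ ⊥) (h1 : B ≠ A) : (Nat.card B).Prime := by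
  have hd : Nat.card B ∣ p * l := hA ▸ Subgroup.card_dvd_of_le hB
  obtain ⟨a, b, ha, hb, e⟩ := (Nat.dvd_mul).1 hd
  rcases (Nat.dvd_prime hp).1 ha with rfl | rfl <;> rcases (Nat.dvd_prime hl).1 hb with rfl | rfl
  · exact absurd (Subgroup.card_eq_one.1 (by omega)) h0
  · rw [← e, one_mul]; exact hl
  · rw [← e, mul_one]; exact hp
  · exact absurd (Subgroup.eq_of_le_of_card_ge hB (by omega)) h1

theorem le_sup_of_not_le {A B B' : Subgroup Γ} {p l : ℕ} (hp : p.Prime) (hl : l.Prime)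
    (hA : Nat.card A = p * l) (hB : B ≤ A) (hB' : B' ≤ A) (h0 : B ≠ ⊥) (h : ¬ B' ≤ B) :
    A ≤ B ⊔ B' := by
  by_contra h1
  have h2 := prime_card hp hl hA (sup_le hB hB') (fun e => h0 (eq_bot_iff.2 (e ▸ le_sup_left)))
    fun e => h1 e.ge
  exact h (eq_of_card_prime h2 rfl le_sup_left h0 ▸ le_sup_right)

omit [Finite Γ] in
theorem comm_of_sup {A B B' : Subgroup Γ} (h : A ≤ B ⊔ B') (h1 : B ≤ 𝐂(B)) (h2 : B' ≤ 𝐂(B'))
    (h3 : B ≤ 𝐂(B')) : IsMulCommutative A := by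
  have h4 : A ≤ 𝐂(B) := h.trans (sup_le h1 (Subgroup.le_centralizer_iff.1 h3))
  have h5 : A ≤ 𝐂(B') := h.trans (sup_le h3 h2)
  have h6 : A ≤ 𝐂(A) := h.trans
    (sup_le (Subgroup.le_centralizer_iff.1 h4) (Subgroup.le_centralizer_iff.1 h5))
  exact ⟨⟨fun a b => Subtype.ext (h6 b.2 a a.2)⟩⟩

omit [Finite Γ] in
theorem le_cent_self {B : Subgroup Γ} (h : (Nat.card B).Prime) : B ≤ 𝐂(B) := by
  have := Fact.mk h
  have : IsCyclic B := isCyclic_of_prime_card rfl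
  exact fun a ha b hb => congrArg Subtype.val (mul_comm' (⟨b, hb⟩ : B) ⟨a, ha⟩)

theorem exists_PQ {A : Subgroup Γ} {p l : ℕ} (hp : p.Prime) (hl : l.Prime) (hlt : l < p)
    (hA : Nat.card A = p * l) (na : ¬ IsMulCommutative A) : ∃ N, PQ A N p l := by
  have := Fact.mk hp
  have := Fact.mk hl
  obtain ⟨a, ha⟩ := exists_prime_orderOf_dvd_card' (G := A) p (hA ▸ dvd_mul_right p l)
  obtain ⟨b, hb⟩ := exists_prime_orderOf_dvd_card' (G := A) l (hA ▸ dvd_mul_left l p)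
  have hi : (Subgroup.zpowers a).index = l := by
    have := (Subgroup.zpowers a).card_mul_index
    rw [Nat.card_zpowers, ha, hA] at this
    exact Nat.eq_of_mul_eq_mul_left hp.pos this
  have hn : (Subgroup.zpowers a).Normal := Subgroup.normal_of_index_eq_minFac_card (by
    rw [hi, hA]
    refine le_antisymm ?_ (Nat.minFac_le_of_dvd hl.two_le (dvd_mul_left l p))
    rcases (Nat.Prime.dvd_mul (Nat.minFac_prime (by nlinarith [hp.two_le, hl.two_le]))).1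
      (Nat.minFac_dvd (p * l)) with h | h
    · rw [(Nat.prime_dvd_prime_iff_eq (Nat.minFac_prime
        (by nlinarith [hp.two_le, hl.two_le])) hp).1 h]; exact hlt.le
    · exact ((Nat.prime_dvd_prime_iff_eq (Nat.minFac_prime
        (by nlinarith [hp.two_le, hl.two_le])) hl).1 h).ge)
  have hAN : A ≤ 𝐍((Subgroup.zpowers a).map A.subtype) :=
    CopAct.le_normalizer_map_subtype_of_normal _
  set N := (Subgroup.zpowers a).map A.subtype
  have hN : N ≤ A := Subgroup.map_subtype_le _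
  have hcN : Nat.card N = p := by
    rw [Subgroup.card_map_of_injective A.subtype_injective, Nat.card_zpowers, ha]
  have hcB : Nat.card (Subgroup.zpowers (b : Γ)) = l := by
    rw [Nat.card_zpowers, Subgroup.orderOf_coe, hb]
  have hB : Subgroup.zpowers (b : Γ) ≤ A := Subgroup.zpowers_le.2 b.2
  refine ⟨N, hp, hl, hA, hN, hcN, hAN, ?_, na⟩
  have := card_dvd_relIndex_sub_one (A := Subgroup.zpowers (b : Γ)) (Q := N) (D := ⊥)
    (hB.trans hAN) Subgroup.le_normalizer_of_normal Subgroup.le_normalizer_of_normal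
    fun c hc hc1 x hx hxc => by
      by_contra hx1
      have e1 := eq_of_card_prime hl hcB (Subgroup.zpowers_le.2 hc)
        (by rwa [Ne, Subgroup.zpowers_eq_bot])
      have e2 := eq_of_card_prime hp hcN (Subgroup.zpowers_le.2 hx)
        (by rwa [Ne, Subgroup.zpowers_eq_bot])
      refine na (comm_of_sup (le_sup_of_not_le hp hl hA hN hB
        (fun e => hp.one_lt.ne' (by rw [← hcN, e, Subgroup.card_bot])) fun h => ?_)
        (le_cent_self (hcN ▸ hp)) (le_cent_self (hcB ▸ hl)) ?_)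
      · have := Subgroup.card_dvd_of_le h
        rw [hcB, hcN, Nat.prime_dvd_prime_iff_eq hl hp] at this
        omega
      · rw [← e1, ← e2, GT.centralizer_zpowers, Subgroup.zpowers_le,
          Subgroup.mem_centralizer_singleton_iff]
        exact commutatorElement_eq_one_iff_mul_comm.1 (Subgroup.mem_bot.1 hxc)
  rwa [hcB, Subgroup.relIndex_bot_left, hcN] at this

variable {A N B : Subgroup Γ} {p l : ℕ}

theorem PQ.prime (h : PQ A N p l) (hB : B ≤ A) (h0 : B ≠ ⊥) (h1 : B ≠ A) : (Nat.card B).Prime :=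
  prime_card h.hp h.hl h.card hB h0 h1

omit [Finite Γ] in
theorem PQ.ne_bot (h : PQ A N p l) : N ≠ ⊥ := fun e =>
  h.hp.one_lt.ne' (by rw [← h.cardN, e, Subgroup.card_bot])

theorem PQ.gen (h : PQ A N p l) (hB : B ≤ A) (h0 : B ≠ ⊥) (h1 : B ≠ A) (h2 : B ≠ N) :
    ∀ c ∈ A, c ∉ B → A ≤ B ⊔ cj B c := by
  intro c hc hcB
  have hcj : cj B c ≤ A := fun x hx => by
    have := mul_mem (mul_mem (inv_mem hc) (hB (mem_cj.1 hx))) hc
    rwa [show c⁻¹ * (c * x * c⁻¹) * c = x by group] at this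
  refine le_sup_of_not_le h.hp h.hl h.card hB hcj h0 fun h3 => h.na ?_
  have hp := h.prime hB h0 h1
  have h4 : c⁻¹ ∈ 𝐍(B) := Subgroup.mem_normalizer_fintype fun x hx => by
    have := h3 (x := c⁻¹ * x * c) (mem_cj.2 (by simpa [mul_assoc] using hx))
    simpa using this
  have h5 : A ≤ 𝐍(B) := (le_sup_of_not_le h.hp h.hl h.card hB (Subgroup.zpowers_le.2 hc) h0
    fun e => hcB (e (Subgroup.mem_zpowers c))).trans
      (sup_le Subgroup.le_normalizer (Subgroup.zpowers_le.2 (by simpa using inv_mem h4)))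
  have h6 : ¬ N ≤ B := fun e => h2 (eq_of_card_prime hp rfl e h.ne_bot).symm
  have h7 : B ⊓ N = ⊥ := by
    by_contra h8
    exact h6 ((eq_of_card_prime h.hp h.cardN inf_le_right h8).ge.trans inf_le_left)
  refine comm_of_sup (le_sup_of_not_le h.hp h.hl h.card hB h.hN h0 h6) (le_cent_self hp)
    (le_cent_self (h.cardN ▸ h.hp)) (CopAct.commutator_eq_bot_iff.1 (eq_bot_iff.2 ?_))
  rw [← h7]
  exact le_inf (Subgroup.commutator_comm B N ▸
    CopAct.commutator_le_of_le_normalizer (h.hN.trans h5))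
    (CopAct.commutator_le_of_le_normalizer (hB.trans h.norm))

theorem PQ.exists_compl (h : PQ A N p l) : ∃ b ∈ A, b ^ l = 1 ∧ Subgroup.zpowers b ⊔ N = A := by
  have := Fact.mk h.hl
  obtain ⟨b, hb⟩ := exists_prime_orderOf_dvd_card' (G := A) l (h.card ▸ dvd_mul_left l p)
  have hcB : Nat.card (Subgroup.zpowers (b : Γ)) = l := by
    rw [Nat.card_zpowers, Subgroup.orderOf_coe, hb]
  have hB : Subgroup.zpowers (b : Γ) ≤ A := Subgroup.zpowers_le.2 b.2
  refine ⟨b, b.2, by rw [← hb, ← Subgroup.orderOf_coe, pow_orderOf_eq_one],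
    le_antisymm (sup_le hB h.hN) ?_⟩
  rw [sup_comm]
  refine le_sup_of_not_le h.hp h.hl h.card h.hN hB h.ne_bot fun e => ?_
  have := Subgroup.card_dvd_of_le e
  rw [hcB, h.cardN, Nat.prime_dvd_prime_iff_eq h.hl h.hp] at this
  have h1 := Nat.le_of_dvd (by have := h.hp.two_le; omega) h.dvd
  have := h.hp.two_le
  omega

end Cfsg.Agent.Loc.Shu
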