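import Mathlib
import Cfsg.Agent.Loc.ShuA

/-!
Restriction of the core configuration to the stabiliser of a weight, and the case of a Frobenius
action on the symplectic section.
-/

set_option autoImplicit false

namespace Cfsg.Agent.Loc.Shu

open Cfsg Module Cfsg.Agent.FT Cfsg.Agent.GT Cfsg.Agent.Loc.H78
open scoped commutatorElement

variable {Γ : Type*} [Group Γ] [Finite Γ]

theorem pfix_stabC {W : Type*} [AddCommGroup W] [Module ℂ W] [FiniteDimensional ℂ W]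
    {ρ : Γ → End ℂ W} {Q A Z K : Subgroup Γ} (h : Cfg ρ Q A Z K) :
    pfix ρ (K ⊔ A ⊓ cent2 Z K) = ⊥ := by
  by_contra hne
  have hZ : Z ≤ Q ⊔ A := h.hZQ.trans le_sup_left
  have hB : A ⊓ cent2 Z K ≤ Q ⊔ A := inf_le_left.trans le_sup_right
  obtain ⟨w, hw, hw0, hw'⟩ := h.prep.exists_weight hZ hne (fun g hg u hu => by
      have h1 := h.invQ (h.hZQ hg) (pfix_anti le_sup_left hu)
      refine h.prep.mem_pfix_sup h.hKF hB h1 fun b hb => ?_
      rw [h.prep.comm_apply (hB hb) (hZ hg), pfix_anti le_sup_right hu b hb]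
      exact h1 _ (hb.2.2 g hg))
    fun a ha b hb u _ => by
      rw [← h.prep.mul_apply (hZ ha) (hZ hb), ← h.prep.mul_apply (hZ hb) (hZ ha),
        h.cen (h.hZQ hb) a ha]
  have := h.nrm_eq_zero (pfix_anti le_sup_left hw) hw'
  rw [nrm_of_mem_pfix (pfix_anti le_sup_right hw), smul_eq_zero] at this
  exact hw0 (this.resolve_left (Nat.cast_ne_zero.2 Nat.card_pos.ne'))

variable {r : ℕ} [hr : Fact r.Prime] {V : Type*} [AddCommGroup V] [Module (ZMod r) V] [Finite V]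
  {π : Γ → End (ZMod r) V} {Q A Z K : Subgroup Γ}

theorem pfix_stab (h : Cfg π Q A Z K) (hrM : ¬ r ∣ Nat.card ↥(Q ⊔ A)) :
    pfix π (K ⊔ A ⊓ cent2 Z K) = ⊥ := by
  obtain ⟨n, ρ, hρ, hd⟩ := h.prep.exists_lift hrM
  have hb : ∀ L ≤ Q ⊔ A, pfix ρ L = ⊥ ↔ pfix π L = ⊥ := fun L hL => by
    rw [← Submodule.finrank_eq_zero, ← Submodule.finrank_eq_zero, hd L hL]
  have hZF : Z ≤ Q ⊔ A := h.hZQ.trans le_sup_left
  exact (hb _ (sup_le h.hKF (inf_le_left.trans le_sup_right))).1 (pfix_stabC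
    ⟨hρ, h.hAQ, h.cop, (hb A le_sup_right).2 h.fixA, h.hZQ, h.hAZ, h.der, h.cen,
      h.maxK.le, fun e => h.maxK.ne ((hb K h.hKF).1 e), fun L h1 h2 h3 => h.maxK.max L h1 h2
        fun e => h3 ((hb L (h2.trans hZF)).2 e)⟩)

omit [Finite Γ] [Finite V] in
/-- Restriction to the fixed space of `K`. -/
theorem exists_restrict {M M' K : Subgroup Γ} (hM : PRep M π) (hKM : K ≤ M) (h1 : M' ≤ M)
    (h2 : M' ≤ 𝐍(K)) : ∃ π' : Γ → End (ZMod r) (pfix π K), PRep M' π' ∧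
      ∀ g ∈ M', ∀ u, (π' g u : V) = π g u :=
  ⟨ofRep (hM.toRep h1 (pfix π K) fun _ hg _ hu => hM.apply_mem_pfix hKM (h1 hg) (h2 hg) hu),
    prep_ofRep _, fun g hg u => by rw [ofRep_apply _ hg]; rfl⟩

theorem cfg_restrict (h : Cfg π Q A Z K) (hrM : ¬ r ∣ Nat.card ↥(Q ⊔ A)) {M' Q' : Subgroup Γ}
    {π' : Γ → End (ZMod r) (pfix π K)} (hM : PRep M' π') (e : ∀ g ∈ M', ∀ u, (π' g u : V) = π g u)
    (hZ : Z ≤ Q') (hQ : Q' ≤ Q) (hB : A ⊓ cent2 Z K ≤ 𝐍(Q')) (hQM : Q' ≤ M')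
    (hBM : A ⊓ cent2 Z K ≤ M') : Cfg π' Q' (A ⊓ cent2 Z K) Z K where
  prep := hM.mono (sup_le hQM hBM)
  hAQ := hB
  cop := CopAct.coprime_mono h.cop hQ inf_le_left
  fixA := eq_bot_iff.2 fun u hu => by
    have : (u : V) ∈ pfix π (K ⊔ A ⊓ cent2 Z K) := h.prep.mem_pfix_sup h.hKF
      (inf_le_left.trans le_sup_right) u.2 fun b hb => by rw [← e b (hBM hb), hu b hb]
    rw [pfix_stab h hrM] at this
    exact Subtype.ext this
  hZQ := hZ
  hAZ := inf_le_left.trans h.hAZ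
  der := fun x hx y hy => h.der x (hQ hx) y (hQ hy)
  cen := hQ.trans h.cen
  maxK := ⟨h.maxK.le, by
      obtain ⟨v, hv, hv0⟩ := (Submodule.ne_bot_iff _).1 h.maxK.ne
      exact (Submodule.ne_bot_iff _).2 ⟨⟨v, hv⟩, fun g hg => Subtype.ext (by
        rw [e g (hQM (hZ (h.maxK.le hg)))]; exact hv g hg), fun e' => hv0 (congrArg Subtype.val e')⟩,
    fun L h1 h2 h3 => h.maxK.max L h1 h2 (by
      obtain ⟨v, hv, hv0⟩ := (Submodule.ne_bot_iff _).1 h3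
      exact (Submodule.ne_bot_iff _).2 ⟨v, fun g hg => by rw [← e g (hQM (hZ (h2 hg))), hv g hg],
        fun e' => hv0 (Subtype.ext e')⟩)⟩

theorem le_rad_of_frob {B M P : Subgroup Γ} (h : Cfg π Q B Z K) (hrM : ¬ r ∣ Nat.card ↥(Q ⊔ B))
    (hB : B ≤ cent2 Z K) (hBp : (Nat.card B).Prime) {q : ℕ} [hq : Fact q.Prime]
    (hQ : IsPGroup q Q) (hM : PRep M π) (hQM : Q ≤ M) (hPM : P ≤ M) (hsP : Group.IsSolvable P)
    (hPQc : (Nat.card P).Coprime (Nat.card Q)) (hBPc : (Nat.card B).Coprime (Nat.card P))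
    (hPQ : P ≤ 𝐍(Q)) (hPK : P ≤ 𝐍(K)) (hBP : B ≤ 𝐍(P)) (hab : ⁅P, P⁆ ≤ 𝐂(Q))
    (hC : Q ⊓ 𝐂((⁅P, B⁆ : Subgroup Γ)) ≤ Z) : Q ≤ Q ⊓ cent2 Q K := by
  by_contra hYQ
  set Y := Q ⊓ cent2 Q K
  have e : B ⊓ cent2 Z K = B := inf_eq_left.2 hB
  have hP1 : ⁅P, B⁆ ≤ P := CopAct.commutator_le_of_le_normalizer hBP
  have hsQ := CopAct.isSolvable_of_isPGroup hQ
  have hR : ∀ B' ≤ B ⊓ cent2 Z K, B' ≠ ⊥ → B ≤ B' := fun B' h1 h2 =>
    (eq_of_card_prime hBp rfl (h1.trans inf_le_left) h2).ge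
  have hPY : P ≤ 𝐍(Y) := CopAct.le_normalizer_inf hPQ (le_norm_cent2 hPQ hPK)
  have hc1 := CopAct.coprime_mono hPQc hP1 le_rfl
  have hY := h.rad_decomp_of_comm hrM hM hQM hPM hPQ hPK hR le_rfl hP1 hc1 hsQ hC
  obtain ⟨u, hu, hu'⟩ := h.count_comm hrM hY
    ⟨⟨fun a b => Subtype.ext (le_cent_self hBp b.2 a a.2)⟩⟩ hR
  obtain ⟨N, hN⟩ := (h.count hrM hY inf_le_left le_rfl
    fun x hx hxY => exists_comm_notMem hx hxY).1
  have hN2 := relIndex_eq_of_mul_card inf_le_left hN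
  have h1 := relIndex_eq_pow (D := Y) (P := ⁅P, B⁆) (R := B) inf_le_left (hP1.trans hPQ) h.hAQ
    (hP1.trans hPY) (e ▸ h.hBY) (Subgroup.normalizer_commutator_ge_right P B) hBp
    (CopAct.coprime_mono hBPc le_rfl hP1) hc1.symm h.cop hsQ (CopAct.isSolvable_of_le hP1 hsP)
    ((Subgroup.commutator_mono hP1 hP1).trans hab)
    (CopAct.commutator_commutator_eq hBP hBPc).ge
    (fun h2 => hYQ ((le_inf le_rfl (Subgroup.le_centralizer_iff.1 h2)).trans (hC.trans h.hZY)))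
    (hC.trans h.hZY)
  obtain ⟨d, he⟩ := exists_relIndex_eq_pow (hQ.to_le (inf_le_left : Q ⊓ 𝐂(B) ≤ Q)) Y
  have he0 : d ≠ 0 := by
    rintro rfl
    rw [he, pow_zero, one_pow] at h1
    exact hYQ (Subgroup.relIndex_eq_one.1 h1)
  rw [he] at hu h1
  rcases hu' with ⟨rfl, -⟩ | ⟨hu3, -⟩
  · rw [h1, one_pow, one_mul, ← pow_mul] at hu
    have := Nat.pow_right_injective hq.out.two_le hu
    nlinarith [hBp.two_le, Nat.pos_of_ne_zero he0]
  · exact ward_arith hBp hq.out he0 (hN2.symm.trans h1) (h1.symm.trans hu) (by rw [hu3, e])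

/-- The commutator of `P` with the stabiliser acts trivially on the symplectic section. -/
theorem comm_le_cent2 {M P : Subgroup Γ} (h : Cfg π Q A Z K) (hrM : ¬ r ∣ Nat.card ↥(Q ⊔ A))
    (hBp : (Nat.card ↥(A ⊓ cent2 Z K)).Prime) {q : ℕ} [hq : Fact q.Prime]
    (hQ : IsPGroup q Q) (hM : PRep M π) (hQM : Q ≤ M) (hAM : A ≤ M) (hPM : P ≤ M)
    (hsP : Group.IsSolvable P)
    (hPQc : (Nat.card P).Coprime (Nat.card Q)) (hAPc : (Nat.card A).Coprime (Nat.card P))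
    (hPQ : P ≤ 𝐍(Q)) (hPZ : P ≤ 𝐂(Z)) (hAP : A ≤ 𝐍(P)) (hab : ⁅P, P⁆ ≤ 𝐂(Q)) :
    ⁅P, A ⊓ cent2 Z K⁆ ≤ cent2 Q (Q ⊓ cent2 Q K) := by
  set B := A ⊓ cent2 Z K
  set P₁ : Subgroup Γ := ⁅P, B⁆
  have hBP : B ≤ 𝐍(P) := inf_le_left.trans hAP
  have hP1 : P₁ ≤ P := CopAct.commutator_le_of_le_normalizer hBP
  have hP1Q : P₁ ≤ 𝐍(Q) := hP1.trans hPQ
  have hPK : P ≤ 𝐍(K) := CopAct.le_normalizer_of_le_centralizer
    (hPZ.trans (CopAct.centralizer_anti h.maxK.le))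
  have hc1 := CopAct.coprime_mono hPQc hP1 le_rfl
  have hsQ := CopAct.isSolvable_of_isPGroup hQ
  have hQ1 : ⁅Q, P₁⁆ ≤ Q := CopAct.commutator_le_of_le_normalizer hP1Q
  have hQ' : ⁅Q, P₁⁆ ⊔ Z ≤ Q := sup_le hQ1 h.hZQ
  have hQQ : ⁅Q, Q⁆ ≤ Z := Subgroup.commutator_le.2 h.der
  obtain ⟨π', h1, h2⟩ := exists_restrict (M' := Q ⊔ B ⊔ P) hM ((h.maxK.le.trans h.hZQ).trans hQM)
    (sup_le (sup_le hQM (inf_le_left.trans hAM)) hPM) (sup_le (sup_le h.hQK h.hBK) hPK)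
  have hBn : B ≤ 𝐍(⁅Q, P₁⁆ ⊔ Z) := CopAct.le_normalizer_sup (CopAct.le_normalizer_commutator
    (inf_le_left.trans h.hAQ) (Subgroup.normalizer_commutator_ge_right P B))
    (inf_le_left.trans h.hAZ)
  have h3 := cfg_restrict h hrM h1 h2 le_sup_right hQ' hBn
    (hQ'.trans (le_sup_left.trans le_sup_left)) (le_sup_right.trans le_sup_left)
  have h4 := le_rad_of_frob h3 (fun e => hrM (e.trans (Subgroup.card_dvd_of_le
      (sup_le_sup hQ' inf_le_left)))) inf_le_right hBp (hQ.to_le hQ') h1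
    (hQ'.trans (le_sup_left.trans le_sup_left)) le_sup_right hsP
    (CopAct.coprime_mono hPQc le_rfl hQ') (CopAct.coprime_mono hAPc inf_le_left le_rfl)
    (CopAct.le_normalizer_sup (CopAct.le_normalizer_commutator hPQ
      (Subgroup.normalizer_commutator_ge_left P B)) (CopAct.le_normalizer_of_le_centralizer hPZ))
    hPK hBP (hab.trans (CopAct.centralizer_anti hQ')) (by
      rintro x ⟨hx, hxc⟩
      obtain ⟨a, ha, z, hz, rfl⟩ := (CopAct.mem_sup_iff_of_le_normalizer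
        (h.hZQ.trans (Subgroup.normalizer_commutator_ge_left Q P₁))).1 hx
      have h5 : z ∈ 𝐂(P₁) := Subgroup.le_centralizer_iff.1 (hP1.trans hPZ) hz
      have h6 : a ∈ 𝐂(P₁) := by simpa using (𝐂(P₁)).mul_mem hxc ((𝐂(P₁)).inv_mem h5)
      exact mul_mem (hQQ (CopAct.commutator_inf_centralizer_le hP1Q hc1 ⟨ha, h6⟩)) hz)
  have h5 : ⁅⁅Q, P₁⁆, Q ⊓ 𝐂(P₁)⁆ = ⊥ := by
    rw [Subgroup.commutator_comm Q P₁]
    refine Subgroup.commutator_commutator_eq_bot_of_rotate ?_ ?_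
    · exact eq_bot_iff.2 ((Subgroup.commutator_mono ((Subgroup.commutator_mono le_rfl
        inf_le_left).trans hQQ) hP1).trans (CopAct.commutator_eq_bot_iff.2 hPZ).le)
    · rw [CopAct.commutator_eq_bot_iff.2 (Subgroup.le_centralizer_iff.1 inf_le_right),
        Subgroup.commutator_bot_left]
  refine le_cent2 hP1Q (le_inf hQ1 (le_cent2 (hQ1.trans Subgroup.le_normalizer) ?_))
  conv_lhs => enter [1]; rw [← CopAct.commutator_sup_centralizer hP1Q hc1 (Or.inr hsQ)]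
  refine commutator_sup_le ((sup_le hQ1 inf_le_left).trans h.hQK) ?_ ?_
  · exact (Subgroup.commutator_mono le_sup_left le_sup_left).trans (comm_le_of_le_rad h4)
  · rw [Subgroup.commutator_comm, h5]; exact bot_le

end Cfsg.Agent.Loc.Shu
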