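import Mathlib
import Cfsg.Agent.Loc.ShuB

/-!
A non-abelian group of order `p * l` acting fixed-point-freely and coprimely on a solvable group:
the Fitting height is at most two.
-/

set_option autoImplicit false

namespace Cfsg.Agent.Loc.Shu

open Cfsg Module Cfsg.Agent.FT Cfsg.Agent.GT Cfsg.Agent.Loc.H78
open scoped commutatorElement

universe u

variable {Γ : Type*} [Group Γ] [Finite Γ]

theorem exists_min_not_le {P₀ A C : Subgroup Γ} (hA : A ≤ 𝐍(P₀)) (h : ¬ P₀ ≤ C) :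
    ∃ P ≤ P₀, A ≤ 𝐍(P) ∧ ¬ P ≤ C ∧ ∀ U < P, A ≤ 𝐍(U) → U ≤ C := by
  obtain ⟨P, -, hP⟩ := exists_minimal_le_of_wellFoundedLT
    (fun P : Subgroup Γ => P ≤ P₀ ∧ A ≤ 𝐍(P) ∧ ¬ P ≤ C) P₀ ⟨le_rfl, hA, h⟩
  refine ⟨P, hP.prop.1, hP.prop.2.1, hP.prop.2.2, fun U hU hAU => ?_⟩
  by_contra h1
  exact hU.not_ge (hP.le_of_le ⟨hU.le.trans hP.prop.1, hAU, h1⟩ hU.le)

omit [Finite Γ] in
theorem comm_lt {P : Subgroup Γ} (hs : Group.IsSolvable P) (h : P ≠ ⊥) : ⁅P, P⁆ < P := by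
  have := (Subgroup.nontrivial_iff_ne_bot P).2 h
  have h1 := Group.IsSolvable.commutator_lt_top_of_nontrivial P
  refine lt_of_le_of_ne (CopAct.commutator_le_of_le_normalizer Subgroup.le_normalizer) fun e => ?_
  refine h1.ne (Subgroup.map_injective P.subtype_injective ?_)
  rw [commutator_def, Subgroup.map_commutator, ← MonoidHom.range_eq_map, Subgroup.range_subtype, e]

variable {r : ℕ} [hr : Fact r.Prime] {V : Type*} [AddCommGroup V] [Module (ZMod r) V] [Finite V]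

theorem pq_core (π : Representation (ZMod r) Γ V) {p l q t : ℕ} [hq : Fact q.Prime]
    [ht : Fact t.Prime] (hqt : q ≠ t) {Q₀ P₀ A N : Subgroup Γ} (hQ₀ : IsPGroup q Q₀)
    (hP₀ : IsPGroup t P₀) (hA : PQ A N p l) (hAq : ¬ q ∣ Nat.card A) (hAt : ¬ t ∣ Nat.card A)
    (hAQ₀ : A ≤ 𝐍(Q₀)) (hAP₀ : A ≤ 𝐍(P₀)) (hPQ₀ : P₀ ≤ 𝐍(Q₀)) (hrq : r ≠ q)
    (hrA : ¬ r ∣ Nat.card A) (hfaith : Q₀ ⊓ π.ker = ⊥) (hfix : (P₀ ⊔ Q₀) ⊓ 𝐂(A) = ⊥)
    (hV : pfix (π : Γ → Module.End (ZMod r) V) A = ⊥) : ⁅Q₀, P₀⁆ = ⊥ := by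
  by_contra hne
  obtain ⟨P, hP0, hAP, hnP, hPmin⟩ := exists_min_not_le (C := 𝐂(Q₀)) hAP₀
    fun e => hne (CopAct.commutator_eq_bot_iff.2 e)
  have hP : IsPGroup t P := hP₀.to_le hP0
  obtain ⟨Q, hQ0, hAQ, hPQ, hnt, hmin⟩ := CopAct.exists_minimal_not_centralized hAQ₀
    (hP0.trans hPQ₀) fun e => hnP (CopAct.commutator_eq_bot_iff.1 e)
  have hQ : IsPGroup q Q := hQ₀.to_le hQ0
  have hcop : (Nat.card A).Coprime (Nat.card Q) :=
    (CopAct.coprime_of_isPGroup_left hQ hAq).symm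
  have hcopP : (Nat.card P).Coprime (Nat.card Q) := coprime_of_isPGroup_ne hqt.symm hP hQ
  have hcopAP : (Nat.card A).Coprime (Nat.card P) :=
    (CopAct.coprime_of_isPGroup_left hP hAt).symm
  have hsQ := CopAct.isSolvable_of_isPGroup hQ
  have hsP := CopAct.isSolvable_of_isPGroup hP
  obtain ⟨s1, s2, -, s4, s5, -⟩ := CopAct.minimal_action_structure hQ hAQ hPQ hAP
    (((Nat.Prime.coprime_iff_not_dvd hq.out).2 (isPGroup_not_dvd hq.out hqt hP)).symm) hnt hmin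
  have hfPQ : (P ⊔ Q) ⊓ 𝐂(A) = ⊥ :=
    eq_bot_iff.2 (hfix ▸ inf_le_inf_right _ (sup_le_sup hP0 hQ0))
  have hfP : P ⊓ 𝐂(A) = ⊥ := eq_bot_iff.2 (hfPQ ▸ inf_le_inf_right _ le_sup_left)
  have hfQ : Q ⊓ 𝐂(A) = ⊥ := eq_bot_iff.2 (hfPQ ▸ inf_le_inf_right _ le_sup_right)
  have hPA : P ≤ ⁅P, A⁆ := (comm_eq_of_inf_cent_eq_bot hAP hcopAP hsP hfP).ge
  have hab : ⁅P, P⁆ ≤ 𝐂(Q) :=
    (hPmin _ (comm_lt hsP fun e => hnP (e ▸ bot_le))
      (CopAct.le_normalizer_commutator hAP hAP)).trans (CopAct.centralizer_anti hQ0)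
  have hmin' : ∀ D ≤ Q, ¬ Q ≤ D → P ≤ 𝐍(D) → acore A D ≤ ⁅Q, Q⁆ := fun D h1 h2 h3 => by
    have h4 : acore A D ≤ Q := (acore_le A D).trans h1
    have := hmin _ (lt_of_le_of_ne h4 fun e => h2 (e.ge.trans (acore_le A D))) (le_norm_acore A D)
      (le_norm_acore_of hAP h3)
    exact s2 ▸ le_inf h4 (Subgroup.le_centralizer_iff.1 (CopAct.commutator_eq_bot_iff.1 this))
  have hAPN : A ≤ 𝐍(⁅P, N⁆) := CopAct.le_normalizer_commutator hAP hA.norm
  have hPN1 : ⁅P, N⁆ ≤ P := CopAct.commutator_le_of_le_normalizer (hA.hN.trans hAP)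
  have hN : ∀ D ≤ Q, ¬ Q ≤ D → P ≤ 𝐍(D) → ⁅P, N⁆ ≤ cent2 Q D → Q ⊓ 𝐂(N) ≤ ⁅Q, Q⁆ := by
    intro D h1 h2 h3 h4
    have h5 : ⁅Q, ⁅P, N⁆⁆ ≤ ⁅Q, Q⁆ :=
      (comm_le_of_le_cent2 (le_cent2_acore hAQ hAPN h4)).trans (hmin' D h1 h2 h3)
    have h6 : ⁅P, N⁆ ≤ 𝐂(Q) := CopAct.le_centralizer_of_commutator_commutator_eq_bot
      (hPN1.trans hPQ) (CopAct.coprime_mono hcopP hPN1 le_rfl) (eq_bot_iff.2
        ((Subgroup.commutator_mono (h5.trans (s2.ge.trans inf_le_right)) hPN1).trans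
          (CopAct.commutator_eq_bot_iff.2 (Subgroup.le_centralizer_iff.1 le_rfl)).le))
    have h7 : P ≤ 𝐂(N) := by
      by_contra h8
      have h9 := (hPmin (P ⊓ 𝐂(N)) (lt_of_le_of_ne inf_le_left fun e => h8 (e.ge.trans inf_le_right))
        (CopAct.le_normalizer_inf hAP (CopAct.le_normalizer_centralizer hA.norm))).trans
        (CopAct.centralizer_anti hQ0)
      refine hnt (CopAct.commutator_eq_bot_iff.2 ?_)
      rw [← CopAct.commutator_sup_centralizer (hA.hN.trans hAP)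
        (CopAct.coprime_mono hcopAP hA.hN le_rfl) (Or.inr hsP)]
      exact sup_le h6 h9
    obtain ⟨b, hbA, hbl, hbs⟩ := hA.exists_compl
    have h8 : Q ⊓ 𝐂(N) < Q := lt_of_le_of_ne inf_le_left fun e => hnt
      (comm_eq_bot_of_fpf hQ hP hqt hPQ (hAQ hbA) (hAP hbA) hA.hl hbl (by
        rw [← GT.centralizer_zpowers]
        exact inf_cent_eq_bot_of_sup hbs (sup_le h7 (e ▸ inf_le_right)) hfPQ))
    have h9 := hmin _ h8 (CopAct.le_normalizer_inf hAQ (CopAct.le_normalizer_centralizer hA.norm))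
      (CopAct.le_normalizer_inf hPQ (CopAct.le_normalizer_centralizer
        (CopAct.le_normalizer_of_le_centralizer h7)))
    exact s2 ▸ le_inf inf_le_left
      (Subgroup.le_centralizer_iff.1 (CopAct.commutator_eq_bot_iff.1 h9))
  have hrQ := isPGroup_not_dvd hr.out hrq hQ
  have hZ0 : Q ⊓ 𝐂(Q) ≠ ⊥ := by
    intro e
    have h1 : ⁅Q, Q⁆ = ⊥ := s5.elim id fun h => h ▸ e
    rw [inf_eq_left.2 (CopAct.commutator_eq_bot_iff.1 h1)] at e
    exact hnt (by rw [e, Subgroup.commutator_bot_left])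
  have hQM : Q ≤ Q ⊔ A ⊔ P := le_sup_left.trans le_sup_left
  obtain ⟨U, π', hM, h0, ⟨K, hK⟩, hcfg⟩ := exists_cfg π hQM (le_sup_right.trans le_sup_left)
    (sup_le (CopAct.sup_le_normalizer hAQ) hPQ) hcop.symm hrQ
    (eq_bot_iff.2 (hfaith ▸ inf_le_inf_right _ hQ0)) hV s4 hZ0
  have hrM := not_dvd_card_sup hr.out hAQ hcop.symm hrQ hrA
  set Z := Q ⊓ 𝐂(Q)
  have hfZ : Z ⊓ 𝐂(A) = ⊥ := eq_bot_iff.2 (hfQ ▸ inf_le_inf_right _ inf_le_left)
  have hBA : ∀ K, MaxFix π' Z K → ¬ A ≤ cent2 Z K := fun K hK e => hK.not_le h0 (by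
    have := comm_le_of_le_cent2 e
    rwa [comm_eq_of_inf_cent_eq_bot (hcfg K hK).hAZ (CopAct.coprime_mono hcop le_rfl inf_le_left)
      (CopAct.isSolvable_of_le inf_le_left hsQ) hfZ] at this)
  have h := hcfg K hK
  have hZK := hK.not_le h0
  set B := A ⊓ cent2 Z K
  have hB0 : B ≠ ⊥ := h.stab_ne_bot hrM
  have hB1 : B ≠ A := fun e => hBA K hK (e.ge.trans inf_le_right)
  have hB := hA.prime inf_le_left hB0 hB1
  have hZc : IsMulCommutative Z := ⟨⟨fun a b => Subtype.ext (b.2.2 a a.2.1)⟩⟩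
  rcases s5 with s5 | s5
  · have e : Z = Q := inf_eq_left.2 (CopAct.commutator_eq_bot_iff.1 s5)
    have hPZ : P ≤ 𝐍(Z) := e ▸ hPQ
    have h1 : B ≤ cent2 Z (acore P K) := by
      intro c hc
      refine ⟨hc.2.1, fun y hy => mem_acore.2 fun x hx => ?_⟩
      have hc' : ∀ x ∈ P, MaxFix π' Z (cj K x) := fun x hx =>
        hK.conj hM (inf_le_left.trans hQM) (Subgroup.mem_sup_right hx) (hPZ hx)
      suffices h2 : B ≤ cent2 Z (cj K x) from (h2 hc).2 y hy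
      by_contra h2
      obtain ⟨y, hy, h3⟩ := exists_le_cent2 hPZ hAP hcopAP hsP (B := B)
        (B' := A ⊓ cent2 Z (cj K x)) inf_le_left inf_le_left inf_le_right hx inf_le_right (by
          rw [sup_comm]
          exact le_sup_of_not_le hA.hp hA.hl hA.card inf_le_left inf_le_left
            ((hcfg _ (hc' x hx)).stab_ne_bot hrM) fun h3 => h2 (h3.trans inf_le_right))
      exact hBA _ (hc' y hy) h3
    set D := acore P K
    have hDQ : D ≤ Q := (acore_le P K).trans (e ▸ hK.le)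
    have hQD : ¬ Q ≤ D := fun h2 => hZK (e ▸ h2.trans (acore_le P K))
    have hPD : P ≤ 𝐍(D) := le_norm_acore P K
    rw [e] at h1
    have h2 : ⁅P, B⁆ ≤ cent2 Q D := (Subgroup.commutator_mono le_rfl h1).trans
      (Subgroup.le_normalizer_iff_commutator_le_right.1 (le_norm_cent2 hPQ hPD))
    by_cases hBN : B = N
    · rw [hBN] at h1 h2
      have h3 := comm_le_of_le_cent2 (le_cent2_acore hAQ hA.norm h1)
      have h4 := CopAct.commutator_eq_bot_iff.1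
        (eq_bot_iff.2 (h3.trans ((hmin' D hDQ hQD hPD).trans s5.le)))
      have h5 := (le_inf le_rfl (Subgroup.le_centralizer_iff.1 h4)).trans (hN D hDQ hQD hPD h2)
      exact hQD ((h5.trans s5.le).trans bot_le)
    · refine hQD (le_of_conj hPQ s1.ge hDQ hPD (CopAct.le_normalizer_of_isMulCommutative
        (e ▸ hZc) le_rfl hDQ) hAQ hAP hPA inf_le_left h2
        (hA.gen inf_le_left hB0 hB1 hBN) fun y hy h3 => ?_)
      exact mem_of_conj_mem_of_not_stab (e ▸ hZc) hAQ hfQ hcop.symm hy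
        fun a ha haB => h3 a ha fun h4 => haB (h1 h4)
  have hCP : Q ⊓ 𝐂(P) = Z := s2.trans s5.symm
  have hPZ : P ≤ 𝐂(Z) := Subgroup.le_centralizer_iff.1 (hCP.ge.trans inf_le_right)
  have hPK : P ≤ 𝐍(K) :=
    CopAct.le_normalizer_of_le_centralizer (hPZ.trans (CopAct.centralizer_anti hK.le))
  have h2 := comm_le_cent2 h hrM hB hQ hM hQM (le_sup_right.trans le_sup_left) le_sup_right hsP
    hcopP hcopAP hPQ hPZ hAP hab
  set Y := Q ⊓ cent2 Q K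
  have hPY : P ≤ 𝐍(Y) := CopAct.le_normalizer_inf hPQ (le_norm_cent2 hPQ hPK)
  have hYQ : ¬ Q ≤ Y := fun e => hZK (s5.le.trans (comm_le_of_le_rad e))
  by_cases hBN : B = N
  · have hCB : Q ⊓ 𝐂(B) ≤ Z := by
      rw [hBN]
      exact (hN Y inf_le_left hYQ hPY (hBN ▸ h2)).trans s5.ge
    have hR : ∀ B' ≤ B, B' ≠ ⊥ → B ≤ B' := fun B' h1 h2 => (eq_of_card_prime hB rfl h1 h2).ge
    have hc := CopAct.coprime_mono hcop (inf_le_left : B ≤ A) le_rfl
    obtain ⟨u, hu, hu'⟩ := (h.count hrM (h.rad_decomp h.hBY hc hsQ hCB fun y hy c hc =>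
        h.comm_fixes hrM (fun B' h1 h2 => hR B' h1 h2 hc) hy) inf_le_left le_rfl
      (fun x hx hxY => exists_comm_notMem hx hxY)).2
      ⟨⟨fun a b => Subtype.ext (le_cent_self hB b.2 a a.2)⟩⟩ (inf_le_left.trans hAQ)
      fun b hb hb1 x hx hxb => mem_of_comm_mem h.hBY (CopAct.coprime_mono hc le_rfl inf_le_left)
        (Or.inr (CopAct.isSolvable_of_le inf_le_left hsQ)) inf_le_left (hCB.trans h.hZY) hx
        fun a ha => comm_mem_of_mem_zpowers (h.hBY hb) hxb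
          (hR _ (Subgroup.zpowers_le.2 hb) (by rwa [Ne, Subgroup.zpowers_eq_bot]) ha)
    have hu2 := relIndex_eq_of_mul_card inf_le_left hu
    have hu1 : u ≠ 1 := by
      rintro rfl
      exact hYQ (Subgroup.relIndex_eq_one.1 (hu2.trans (one_pow 2)))
    obtain ⟨hu3, -⟩ := hu'.resolve_left hu1
    obtain ⟨d, he⟩ := exists_relIndex_eq_pow hQ Y
    obtain ⟨m, rfl⟩ := eq_pow_of_sq_eq hq.out (hu2.symm.trans he)
    have hu4 : q ^ m + 1 = p := by rw [hu3, ← hA.cardN, ← hBN]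
    have h3 : l ∣ q ^ m := by have := hA.dvd; rwa [← hu4, Nat.add_sub_cancel] at this
    have h4 := (Nat.prime_dvd_prime_iff_eq hA.hl hq.out).1 (hA.hl.dvd_of_dvd_pow h3)
    exact hAq (by rw [hA.card, h4]; exact dvd_mul_left q p)
  · refine hYQ (le_of_conj hPQ s1.ge inf_le_left hPY h.hQY hAQ hAP hPA inf_le_left h2
      (hA.gen inf_le_left hB0 hB1 hBN) fun x hx h3 =>
        ⟨hx, Subgroup.le_normalizer hx, fun y hy => ?_⟩)
    refine mem_of_conj_mem_of_not_stab hZc h.hAZ hfZ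
      (CopAct.coprime_mono h.cop h.hZQ le_rfl) (h.der x hx y hy) fun a ha haB => ?_
    have := (h3 a ha fun h4 => haB h4.2).2.2 _ (CopAct.conj_mem hAQ ha hy)
    rwa [← conjugate_commutatorElement] at this

/-- The hypothesis on the operator group, in a form that passes to quotients. -/
def Op (A : Subgroup Γ) (p l : ℕ) : Prop :=
  Nat.card A ∣ p * l ∧ (Nat.card A = p * l → ¬ IsMulCommutative A)

theorem Op.map {Δ : Type*} [Group Δ] {A : Subgroup Γ} {p l : ℕ} (h : Op A p l)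
    (f : Γ →* Δ) : Nat.card (A.map f) ∣ p * l ∧
      (Nat.card (A.map f) = p * l → ¬ IsMulCommutative (A.map f)) := by
  refine ⟨(Subgroup.card_map_dvd _ _).trans h.1, fun e hc => ?_⟩
  have h1 : Nat.card A = p * l :=
    Nat.dvd_antisymm h.1 (e ▸ Subgroup.card_map_dvd _ _)
  have h2 := (Nat.bijective_iff_surjective_and_card (f.subgroupMap A)).2
    ⟨f.subgroupMap_surjective A, h1.trans e.symm⟩
  exact h.2 h1 ⟨⟨fun a b => h2.1 (by rw [map_mul, map_mul]; exact hc.is_comm.comm _ _)⟩⟩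

theorem op_core (π : Representation (ZMod r) Γ V) {p l q t : ℕ} [hq : Fact q.Prime]
    [ht : Fact t.Prime] (hqt : q ≠ t) {Q₀ P₀ A : Subgroup Γ} (hQ₀ : IsPGroup q Q₀)
    (hP₀ : IsPGroup t P₀) (hp : p.Prime) (hl : l.Prime) (hlt : l < p) (hA : Op A p l)
    (hAq : ¬ q ∣ Nat.card A) (hAt : ¬ t ∣ Nat.card A)
    (hAQ₀ : A ≤ 𝐍(Q₀)) (hAP₀ : A ≤ 𝐍(P₀)) (hPQ₀ : P₀ ≤ 𝐍(Q₀)) (hrq : r ≠ q)
    (hrA : ¬ r ∣ Nat.card A) (hfaith : Q₀ ⊓ π.ker = ⊥) (hfix : (P₀ ⊔ Q₀) ⊓ 𝐂(A) = ⊥)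
    (hV : pfix (π : Γ → Module.End (ZMod r) V) A = ⊥) : ⁅Q₀, P₀⁆ = ⊥ := by
  by_cases e : Nat.card A = p * l
  · obtain ⟨N, hN⟩ := exists_PQ hp hl hlt e (hA.2 e)
    exact pq_core π hqt hQ₀ hP₀ hN hAq hAt hAQ₀ hAP₀ hPQ₀ hrq hrA hfaith hfix hV
  obtain ⟨s, hs, h1⟩ : ∃ s : ℕ, s.Prime ∧ Nat.card A ∣ s := by
    obtain ⟨a, b, ha, hb, e'⟩ := (Nat.dvd_mul).1 hA.1
    rcases (Nat.dvd_prime hp).1 ha with rfl | rfl
    · exact ⟨l, hl, by rw [← e', one_mul]; exact hb⟩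
    · rcases (Nat.dvd_prime hl).1 hb with rfl | rfl
      · exact ⟨a, hp, by rw [← e', mul_one]⟩
      · exact absurd e'.symm e
  have := Fact.mk hs
  obtain ⟨b, hb⟩ := isCyclic_iff_exists_zpowers_eq_top.1 (isCyclic_of_card_dvd_prime (p := s) h1)
  have e' : Subgroup.zpowers (b : Γ) = A := by
    have := congrArg (Subgroup.map A.subtype) hb
    rwa [MonoidHom.map_zpowers, ← MonoidHom.range_eq_map, Subgroup.range_subtype] at this
  refine comm_eq_bot_of_fpf hQ₀ hP₀ hqt hPQ₀ (hAQ₀ b.2) (hAP₀ b.2) hs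
    (orderOf_dvd_iff_pow_eq_one.1 ((A.orderOf_dvd_natCard b.2).trans h1)) ?_
  rwa [← GT.centralizer_zpowers, e']

/-- In a faithful configuration whose nilpotent residual is nilpotent of order prime to the
characteristic, the group itself is nilpotent. -/
theorem nilRes_eq_bot (π : Representation (ZMod r) Γ V) {G A : Subgroup Γ} [G.Normal]
    (hsol : Group.IsSolvable G) {p l : ℕ} (hp : p.Prime) (hl : l.Prime) (hlt : l < p)
    (hA : Op A p l) (hco : (Nat.card A).Coprime (Nat.card G)) (hfix : G ⊓ 𝐂(A) = ⊥)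
    (h3 : G ⊓ π.ker = ⊥) (h5 : Group.IsNilpotent (FG.H93.nilRes G))
    (h6 : ¬ r ∣ Nat.card (FG.H93.nilRes G)) (hrA : ¬ r ∣ Nat.card A)
    (h7 : pfix (π : Γ → Module.End (ZMod r) V) A = ⊥) : FG.H93.nilRes G = ⊥ := by
  by_contra h4
  obtain ⟨q, hq, hqd, t, ht, htq, htd, P, hP, hne⟩ := exists_tower h4 (FG.H93.nilRes_le _)
    (nilRes_le_comm _) hco (Or.inr hsol)
  have := Fact.mk hq
  have hle := (pCoreOf_le (p := q) _).trans (FG.H93.nilRes_le G)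
  refine hne (le_sup_of_le_left (CopAct.commutator_eq_bot_iff.1 (op_core π htq.symm
    (isPGroup_pCoreOf q _) (P.isPGroup'.map _) hp hl hlt hA ?_ ?_
    Subgroup.le_normalizer_of_normal hP Subgroup.le_normalizer_of_normal ?_ hrA
    (eq_bot_iff.2 (h3 ▸ inf_le_inf_right _ hle)) ?_ h7)))
  · exact fun h => hq.one_lt.ne' (Nat.eq_one_of_dvd_coprimes hco h
      (hqd.trans (Subgroup.card_dvd_of_le (FG.H93.nilRes_le _))))
  · exact fun h => ht.out.one_lt.ne' (Nat.eq_one_of_dvd_coprimes hco h htd)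
  · rintro rfl
    exact h6 hqd
  · exact eq_bot_iff.2 (hfix ▸ inf_le_inf_right _ (sup_le (Subgroup.map_subtype_le _) hle))

theorem isNilpotent_nilRes {Γ : Type u} [Group Γ] [Finite Γ] {G A : Subgroup Γ} [G.Normal]
    (hsol : Group.IsSolvable G) {p l : ℕ} (hp : p.Prime) (hl : l.Prime) (hlt : l < p)
    (hA : Op A p l) (hco : (Nat.card A).Coprime (Nat.card G)) (hfix : G ⊓ 𝐂(A) = ⊥) :
    Group.IsNilpotent (FG.H93.nilRes G) := by
  by_contra hT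
  have hTG := FG.H93.nilRes_le G
  obtain ⟨Δ, _, _, f, r, hr, V, _, _, _, π, h1, h2, h3, h4, h5, h6, h7⟩ :=
    exists_faithful_quot Γ G _ A hTG hsol hT hco hfix
  have := Subgroup.Normal.map ‹G.Normal› f h1
  rw [FG.H93.map_nilRes] at h4 h5 h6
  refine h4 (nilRes_eq_bot π (isSolvable_map G f) hp hl hlt
    (hA.map f)
    ((hco.coprime_dvd_left (Subgroup.card_map_dvd _ _)).coprime_dvd_right
      (Subgroup.card_map_dvd _ _)) ?_ h3 h5 h6 (fun h => hr.out.one_lt.ne'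
      (Nat.eq_one_of_dvd_coprimes hco (h.trans (Subgroup.card_map_dvd _ _)) h2)) h7)
  rw [← CopAct.map_inf_centralizer' f Subgroup.le_normalizer_of_normal hco (Or.inr hsol), hfix,
    Subgroup.map_bot]

end Cfsg.Agent.Loc.Shu
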