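import Mathlib
import Cfsg.Agent.Loc.ShuC
import Cfsg.Agent.FT.BG3_4

/-!
The symmetric group of degree three acting fixed-point-freely and coprimely on a solvable group:
the derived subgroup is nilpotent.
-/

set_option autoImplicit false

namespace Cfsg.Agent.Loc.Shu

open Cfsg Module Cfsg.Agent.FT Cfsg.Agent.GT Cfsg.Agent.Loc.H78
open scoped commutatorElement

universe u

section Rep

variable {F : Type*} [Field F] {W : Type*} [AddCommGroup W] [Module F W] {H : Type*} [Group H]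

/-- A representation as automorphisms of the multiplicative copy of the module. -/
def repAut (ρ : Representation F H W) : H →* MulAut (Multiplicative W) where
  toFun g :=
    { toFun := fun v => Multiplicative.ofAdd (ρ g v.toAdd)
      invFun := fun v => Multiplicative.ofAdd (ρ g⁻¹ v.toAdd)
      left_inv := fun v => by
        simp only [toAdd_ofAdd]
        rw [← Module.End.mul_apply, ← map_mul, inv_mul_cancel, map_one]; rfl
      right_inv := fun v => by
        simp only [toAdd_ofAdd]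
        rw [← Module.End.mul_apply, ← map_mul, mul_inv_cancel, map_one]; rfl
      map_mul' := fun v w => by simp }
  map_one' := by ext v; simp
  map_mul' := fun g h => by ext v; simp

end Rep

/-- A group of prime order without fixed vector centralises an odd `q`-group it normalises. -/
theorem shult_rep {H : Type*} [Group H] [Finite H] {r : ℕ} [hr : Fact r.Prime] {W : Type*}
    [AddCommGroup W] [Module (ZMod r) W] [Finite W] (ρ : Representation (ZMod r) H W) {q : ℕ}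
    [hq : Fact q.Prime] (hq2 : q ≠ 2) {Q X : Subgroup H} (hQ : IsPGroup q Q)
    (hX : (Nat.card X).Prime) (hXq : Nat.card X ≠ q) (hXQ : X ≤ 𝐍(Q)) (hrq : r ≠ q)
    (hrX : Nat.card X ≠ r) (h0 : ∀ w, (∀ x ∈ X, ρ x w = w) → w = 0) :
    ∀ g ∈ ⁅Q, X⁆, ∀ w, ρ g w = w := by
  have := CopAct.instFiniteSemidirect (repAut ρ)
  have hW : IsPGroup r (Multiplicative W) := fun w => ⟨1, by
    rw [pow_one]
    change Multiplicative.ofAdd (r • w.toAdd) = 1
    rw [← Nat.cast_smul_eq_nsmul (ZMod r), ZMod.natCast_self, zero_smul]; rfl⟩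
  obtain ⟨n, hn⟩ := hW.exists_card_eq
  have h1 : ⁅CopAct.sdR (repAut ρ) Q, CopAct.sdR (repAut ρ) X⁆ ≤ 𝐂(CopAct.sdL (repAut ρ) ⊤) := by
    by_contra hne
    refine hq2 (prime_act_pgroup_cent ((CopAct.isPGroup_sdR_iff _ Q).2 hQ)
      (by rwa [CopAct.card_sdR]) (by rwa [CopAct.card_sdR])
      ((Subgroup.map_mono hXQ).trans (Subgroup.le_normalizer_map _))
      ((CopAct.isSolvable_sdL_iff _ _).2 inferInstance) (CopAct.sdR_le_normalizer_top _ _)
      (CopAct.sdR_le_normalizer_top _ _) ?_ ?_ ?_ hne).1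
    · rw [CopAct.card_sdL_top, hn]
      exact ((Nat.coprime_primes hr.out hq.out).2 hrq).pow_left n
    · rw [CopAct.card_sdL_top, hn, CopAct.card_sdR]
      exact ((Nat.coprime_primes hr.out hX).2 hrX.symm).pow_left n
    · rw [eq_bot_iff]
      rintro _ ⟨⟨w, -, rfl⟩, hw⟩
      have h2 := (CopAct.inl_mem_centralizer_sdR _).1 hw
      rw [show w = 1 from h0 w.toAdd fun x hx => congrArg Multiplicative.toAdd (h2 x hx), map_one]
      exact one_mem _
  rw [CopAct.sdR, CopAct.sdR, ← Subgroup.map_commutator] at h1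
  exact fun g hg w => congrArg Multiplicative.toAdd
    ((CopAct.sdR_le_centralizer_iff _).1 h1 g hg (Multiplicative.ofAdd w) trivial)

variable {Γ : Type*} [Group Γ] [Finite Γ]

theorem comm_eq_bot_of_inv {H : Subgroup Γ} {b : Γ} (hb : b ∈ 𝐍(H)) (h2 : b ^ 2 = 1)
    (h : H ⊓ 𝐂[b] = ⊥) : ⁅H, H⁆ = ⊥ := by
  let φ := CopAct.conjHom (Subgroup.zpowers_le.2 hb) ⟨b, Subgroup.mem_zpowers b⟩
  have h1 : MonoidHom.FixedPointFree φ := fun x hx => by
    have h3 := congrArg Subtype.val hx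
    rw [CopAct.coe_conjHom_apply] at h3
    have : (x : Γ) ∈ H ⊓ 𝐂[b] := ⟨x.2, Subgroup.mem_centralizer_singleton_iff.2
      (mul_inv_eq_iff_eq_mul.1 h3).symm⟩
    rw [h] at this
    exact Subtype.ext this
  have h3 : Function.Involutive φ := fun x => Subtype.ext (by
    rw [CopAct.coe_conjHom_apply, CopAct.coe_conjHom_apply]
    change b * (b * x * b⁻¹) * b⁻¹ = x
    rw [show b * (b * x * b⁻¹) * b⁻¹ = b ^ 2 * x * (b ^ 2)⁻¹ by rw [sq]; group, h2]
    simp)
  exact CopAct.commutator_eq_bot_iff.2 fun x hx y hy =>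
    congrArg Subtype.val (h1.commute_all_of_involutive h3 ⟨y, hy⟩ ⟨x, hx⟩).eq

omit [Finite Γ] in
theorem comm_sup_sup_le {Q L X Y : Subgroup Γ} (hL : L ≤ Q) (hX : X ≤ Q) (hY : Y ≤ Q)
    (hQL : Q ≤ 𝐍(L)) (h : ⁅X, Y⁆ ≤ L) : ⁅L ⊔ X, L ⊔ Y⁆ ≤ L := by
  refine commutator_sup_le ((sup_le hL hX).trans hQL)
    (CopAct.commutator_le_of_le_normalizer ((sup_le hL hY).trans hQL)) ?_
  rw [Subgroup.commutator_comm]
  exact commutator_sup_le ((sup_le hL hY).trans hQL)
    (CopAct.commutator_le_of_le_normalizer (hX.trans hQL)) (Subgroup.commutator_comm X Y ▸ h)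

theorem s3_comm_le {Q A N B L : Subgroup Γ} (hA : PQ A N 3 2) (hAQ : A ≤ 𝐍(Q))
    (hcop : (Nat.card A).Coprime (Nat.card Q)) (hsQ : Group.IsSolvable Q) (hf : Q ⊓ 𝐂(A) = ⊥)
    (hBA : B ≤ A) (hB0 : B ≠ ⊥) (hB1 : B ≠ A) (hL : L ≤ Q) (hQL : Q ≤ 𝐍(L)) (hBL : B ≤ 𝐍(L))
    (h : ⁅Q, B⁆ ≤ L) : ⁅Q, Q⁆ ≤ L := by
  by_cases hBN : B = N
  · obtain ⟨b, hbA, hb2, hbs⟩ := hA.exists_compl
    subst hBN
    have h1 : Q ≤ L ⊔ Q ⊓ 𝐂(B) := by
      conv_lhs => rw [← CopAct.commutator_sup_centralizer (hBA.trans hAQ)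
        (CopAct.coprime_mono hcop hBA le_rfl) (Or.inr hsQ)]
      exact sup_le_sup_right h _
    refine (Subgroup.commutator_mono h1 h1).trans
      (comm_sup_sup_le hL inf_le_left inf_le_left hQL ?_)
    rw [comm_eq_bot_of_inv (CopAct.le_normalizer_inf hAQ
      (CopAct.le_normalizer_centralizer hA.norm) hbA) hb2 (by
        rw [← GT.centralizer_zpowers]
        exact inf_cent_eq_bot_of_sup hbs inf_le_right
          (eq_bot_iff.2 (hf ▸ inf_le_inf_right _ inf_le_left)))]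
    exact bot_le
  have : Fact (Nat.Prime 3) := ⟨Nat.prime_three⟩
  obtain ⟨a', ha'⟩ := exists_prime_orderOf_dvd_card' (G := N) 3 (hA.cardN ▸ dvd_rfl)
  obtain ⟨a, haN, ha3⟩ : ∃ a ∈ N, orderOf a = 3 := ⟨a', a'.2, by rwa [Subgroup.orderOf_coe]⟩
  have ha1 : a ≠ 1 := by rintro rfl; simp at ha3
  have hNa : Subgroup.zpowers a = N := eq_of_card_prime Nat.prime_three hA.cardN
    (Subgroup.zpowers_le.2 haN) (by rwa [Ne, Subgroup.zpowers_eq_bot])
  have hB := hA.prime hBA hB0 hB1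
  have haB : a ∉ B := fun e => hBN (eq_of_card_prime hB rfl
    (hNa ▸ Subgroup.zpowers_le.2 e : N ≤ B) hA.ne_bot).symm
  have haA := hA.hN haN
  have e3 : a * a * a = 1 := by rw [← pow_three', ← ha3, pow_orderOf_eq_one]
  have e1 : a⁻¹ = a * a := inv_eq_of_mul_eq_one_left e3
  have hmem : ∀ n ∈ N, n = 1 ∨ n = a ∨ n = a⁻¹ := fun n hn => by
    classical
    rw [← hNa, mem_zpowers_iff_mem_range_orderOf, ha3, Finset.mem_image] at hn
    obtain ⟨i, hi, rfl⟩ := hn
    rw [Finset.mem_range] at hi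
    interval_cases i
    · exact Or.inl (pow_zero a)
    · exact Or.inr (Or.inl (pow_one a))
    · exact Or.inr (Or.inr (by rw [e1, sq]))
  have hBN' : A ≤ B ⊔ N := le_sup_of_not_le hA.hp hA.hl hA.card hBA hA.hN hB0 fun e => haB (e haN)
  have hQc : ∀ c ∈ A, Q ≤ 𝐍(cj L c) := fun c hc => le_norm_cj (hAQ hc) hQL
  have hLc : ∀ c ∈ A, cj L c ≤ Q := fun c hc x hx => by
    have := CopAct.conj_mem' hAQ hc (hL (mem_cj.1 hx))
    rwa [show c⁻¹ * (c * x * c⁻¹) * c = x by group] at this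
  have hsup : ∀ c ∈ A, c ∉ B → Q ≤ L ⊔ cj L c := fun c hc hcB => by
    rw [← comm_eq_of_inf_cent_eq_bot hAQ hcop hsQ hf]
    refine comm_le_of_le_cent2 ((hA.gen hBA hB0 hB1 hBN c hc hcB).trans (sup_le
      (le_cent2 (hBA.trans hAQ) (le_sup_of_le_left h)) fun x hx => cent2_mono le_sup_right ?_))
    exact (mem_cent2_cj (hAQ hc)).2 (le_cent2 (hBA.trans hAQ) h (mem_cj.1 hx))
  have hJ : ∀ x ∈ L, a * x * a⁻¹ ∈ L → a⁻¹ * x * a ∈ L → x ∈ acore A L := fun x h0 h1 h2 =>
    mem_acore.2 fun c hc => by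
      obtain ⟨β, hβ, n, hn, rfl⟩ := (CopAct.mem_sup_iff_of_le_normalizer'
        (hBA.trans hA.norm)).1 (sup_comm B N ▸ hBN' hc)
      rw [show β * n * x * (β * n)⁻¹ = β * (n * x * n⁻¹) * β⁻¹ by group]
      refine CopAct.conj_mem hBL hβ ?_
      rcases hmem n hn with rfl | rfl | rfl
      · simpa using h0
      · exact h1
      · simpa using h2
  have hinv : ∀ b ∈ B, b ≠ 1 → b * a * b⁻¹ = a⁻¹ := fun b hb hb1 => by
    rcases hmem _ (CopAct.conj_mem hA.norm (hBA hb) haN) with e | e | e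
    · exact absurd (by simpa using e) ha1
    · refine (hA.na (comm_of_sup hBN' (le_cent_self hB) (le_cent_self (hA.cardN ▸ hA.hp)) ?_)).elim
      rw [← eq_of_card_prime hB rfl (Subgroup.zpowers_le.2 hb)
        (by rwa [Ne, Subgroup.zpowers_eq_bot]), ← hNa, GT.centralizer_zpowers, Subgroup.zpowers_le,
        Subgroup.mem_centralizer_singleton_iff]
      exact mul_inv_eq_iff_eq_mul.1 e
    · exact e
  set D := cj L a ⊓ cj L a⁻¹
  have hDQ : D ≤ Q := inf_le_left.trans (hLc a haA)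
  have hQD : Q ≤ 𝐍(D) := CopAct.le_normalizer_inf (hQc a haA) (hQc _ (inv_mem haA))
  have hBD : B ≤ 𝐍(D) := le_norm_of_conj_mem fun b hb x hx => by
    by_cases hb1 : b = 1
    · simpa [hb1] using hx
    have e := hinv b hb hb1
    have e' : b * a⁻¹ * b⁻¹ = a := by
      rw [show b * a⁻¹ * b⁻¹ = (b * a * b⁻¹)⁻¹ by group, e, inv_inv]
    refine ⟨mem_cj.2 ?_, mem_cj.2 ?_⟩
    · have := CopAct.conj_mem hBL hb (mem_cj.1 hx.2)
      rwa [show b * (a⁻¹ * x * a⁻¹⁻¹) * b⁻¹ = (b * a⁻¹ * b⁻¹) * (b * x * b⁻¹) * (b * a⁻¹ * b⁻¹)⁻¹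
        by group, e'] at this
    · have := CopAct.conj_mem hBL hb (mem_cj.1 hx.1)
      rwa [show b * (a * x * a⁻¹) * b⁻¹ = (b * a * b⁻¹) * (b * x * b⁻¹) * (b * a * b⁻¹)⁻¹
        by group, e] at this
  have hDL : D ≤ L := by
    rw [← CopAct.commutator_sup_centralizer hBD (CopAct.coprime_mono hcop hBA hDQ)
      (Or.inr (CopAct.isSolvable_of_le hDQ hsQ))]
    refine sup_le ((Subgroup.commutator_mono hDQ le_rfl).trans h) fun y hy => ?_
    have y1 : a * y * a⁻¹ ∈ L := hy.1.1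
    have y2 : a⁻¹ * y * a ∈ L := by simpa using mem_cj.1 hy.1.2
    have hJ' : ∀ x ∈ L, x ∈ D → x ∈ acore A L := fun x h1 h2 =>
      hJ x h1 h2.1 (by simpa using mem_cj.1 h2.2)
    have hQJ : Q ≤ 𝐍(acore A L) := le_norm_acore_of hAQ hQL
    have hJQ : acore A L ≤ Q := (acore_le A L).trans hL
    have hw : y * (a * y * a⁻¹) * (a⁻¹ * y * a) ∈ acore A L := by
      refine mem_of_comm_mem (le_norm_acore A L) (CopAct.coprime_mono hcop le_rfl hJQ)
        (Or.inr (CopAct.isSolvable_of_le hJQ hsQ)) hJQ (hf ▸ bot_le)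
        (mul_mem (mul_mem (hDQ hy.1) (hL y1)) (hL y2)) fun c hc => ?_
      refine ((hBN'.trans (sup_le (fun b hb => ?_) ?_) : A ≤ cent1 _ (acore A L)) hc).2
      · refine ⟨le_norm_acore A L (hBA hb), ?_⟩
        by_cases hb1 : b = 1
        · simp [hb1]
        have e := hinv b hb hb1
        have e' : b * a⁻¹ * b⁻¹ = a := by
          rw [show b * a⁻¹ * b⁻¹ = (b * a * b⁻¹)⁻¹ by group, e, inv_inv]
        have e2 : b * y * b⁻¹ = y := mul_inv_eq_iff_eq_mul.2 (hy.2 b hb)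
        have e4 : ⁅y * (a * y * a⁻¹) * (a⁻¹ * y * a), b⁆ =
            y * ⁅a * y * a⁻¹, a⁻¹ * y * a⁆ * y⁻¹ := by
          have : b * (y * (a * y * a⁻¹) * (a⁻¹ * y * a))⁻¹ * b⁻¹ =
              ((b * y * b⁻¹) * ((b * a * b⁻¹) * (b * y * b⁻¹) * (b * a⁻¹ * b⁻¹)) *
                ((b * a⁻¹ * b⁻¹) * (b * y * b⁻¹) * (b * a * b⁻¹)))⁻¹ := by group
          rw [commutatorElement_def, mul_assoc, mul_assoc, ← mul_assoc b, this, e, e', e2,
            commutatorElement_def]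
          group
        rw [e4]
        refine CopAct.conj_mem hQJ (hDQ hy.1) (hJ' _ (comm_mem_of_norm (hQL (hL y1)) y2)
          ⟨comm_mem_symm (comm_mem_of_norm (hQc a haA (hL y2)) (mem_cj.2 ?_)),
            comm_mem_of_norm (hQc _ (inv_mem haA) (hL y1)) (mem_cj.2 ?_)⟩)
        · rwa [show a * (a * y * a⁻¹) * a⁻¹ = (a * a) * y * (a * a)⁻¹ by group, ← e1, inv_inv]
        · rwa [show a⁻¹ * (a⁻¹ * y * a) * a⁻¹⁻¹ = (a * a)⁻¹ * y * (a * a) by group, ← e1, inv_inv]
      · rw [← hNa, Subgroup.zpowers_le]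
        refine ⟨le_norm_acore A L haA, ?_⟩
        have e4 : ⁅y * (a * y * a⁻¹) * (a⁻¹ * y * a), a⁆ =
            ⁅y, (a * y * a⁻¹) * (a⁻¹ * y * a)⁆ := by
          have : a * (y * (a * y * a⁻¹) * (a⁻¹ * y * a))⁻¹ * a⁻¹ =
              ((a * y * a⁻¹) * ((a * a) * y * (a * a)⁻¹) * y)⁻¹ := by group
          rw [commutatorElement_def, mul_assoc, mul_assoc, ← mul_assoc a, this, ← e1, inv_inv,
            commutatorElement_def]
          group
        rw [e4]
        exact hJ' _ (comm_mem_of_norm (hQL (hDQ hy.1)) (mul_mem y1 y2))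
          (comm_mem_symm (comm_mem_of_norm (hQD (hL (mul_mem y1 y2))) hy.1))
    have := L.mul_mem (L.mul_mem (acore_le A L hw) (L.inv_mem y2)) (L.inv_mem y1)
    rwa [mul_inv_cancel_right, mul_inv_cancel_right] at this
  refine (Subgroup.commutator_mono (hsup a haA haB)
    (hsup a⁻¹ (inv_mem haA) fun e => haB (by simpa using inv_mem e))).trans
    (comm_sup_sup_le hL (hLc a haA) (hLc _ (inv_mem haA)) hQL (le_trans (le_inf ?_ ?_) hDL))
  · exact CopAct.commutator_le_of_le_normalizer ((hLc _ (inv_mem haA)).trans (hQc a haA))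
  · rw [Subgroup.commutator_comm]
    exact CopAct.commutator_le_of_le_normalizer ((hLc a haA).trans (hQc _ (inv_mem haA)))

theorem s3_core {r : ℕ} [hr : Fact r.Prime] {V : Type*} [AddCommGroup V] [Module (ZMod r) V]
    [Finite V] (π : Representation (ZMod r) Γ V) {q : ℕ} [hq : Fact q.Prime] {Q A N : Subgroup Γ}
    (hQ : IsPGroup q Q) (hA : PQ A N 3 2) (hAq : ¬ q ∣ Nat.card A) (hAQ : A ≤ 𝐍(Q)) (hrq : r ≠ q)
    (hrA : ¬ r ∣ Nat.card A) (hfaith : Q ⊓ π.ker = ⊥) (hf : Q ⊓ 𝐂(A) = ⊥)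
    (hV : pfix (π : Γ → Module.End (ZMod r) V) A = ⊥) : ⁅Q, Q⁆ = ⊥ := by
  by_contra hne
  have hQQ : ⁅Q, Q⁆ ≤ Q := CopAct.commutator_le_of_le_normalizer Subgroup.le_normalizer
  have hZ0 : ⁅Q, Q⁆ ⊓ 𝐂(Q) ≠ ⊥ := PG.inf_centralizer_ne_bot_of_isPGroup (hQ.to_le hQQ) hQ
    (Subgroup.normalizer_commutator_ge_left Q Q) hne
  set Z := ⁅Q, Q⁆ ⊓ 𝐂(Q)
  have hZQ : Z ≤ Q := inf_le_left.trans hQQ
  have hQZ : Q ≤ 𝐂(Z) := Subgroup.le_centralizer_iff.1 inf_le_right
  have hAZ : A ≤ 𝐍(Z) := CopAct.le_normalizer_inf (CopAct.le_normalizer_commutator hAQ hAQ)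
    (CopAct.le_normalizer_centralizer hAQ)
  have hcop : (Nat.card A).Coprime (Nat.card Q) := (CopAct.coprime_of_isPGroup_left hQ hAq).symm
  have hsQ := CopAct.isSolvable_of_isPGroup hQ
  have hrZ := isPGroup_not_dvd hr.out hrq (hQ.to_le hZQ)
  obtain ⟨U, π', hM, hU, h0, hA0⟩ := exists_prep_sub π (M := Q ⊔ A) (hZQ.trans le_sup_left)
    le_sup_right (sup_le (CopAct.le_normalizer_of_le_centralizer hQZ) hAZ) hrZ
    (fun h => hZ0 (eq_bot_iff.2 (hfaith ▸ le_inf hZQ h))) hV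
  obtain ⟨K, hK⟩ := exists_maxFix hM Z
  have hc := CopAct.coprime_mono hcop le_rfl hZQ
  have h : Cfg π' Z A Z K := ⟨hM.mono (sup_le_sup_right hZQ _), hAZ, hc.symm, hA0, le_rfl, hAZ,
    fun x hx y hy => comm_mem_of_norm (Subgroup.le_normalizer hx) hy, hZQ.trans hQZ, hK⟩
  have hrM := not_dvd_card_sup hr.out hAZ hc.symm hrZ hrA
  set B := A ⊓ cent2 Z K
  have hB0 : B ≠ ⊥ := h.stab_ne_bot hrM
  have hB1 : B ≠ A := fun e => hK.not_le h0 (by
    have := comm_le_of_le_cent2 (e.ge.trans inf_le_right)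
    rwa [comm_eq_of_inf_cent_eq_bot hAZ hc (CopAct.isSolvable_of_le hZQ hsQ)
      (eq_bot_iff.2 (hf ▸ inf_le_inf_right _ hZQ))] at this)
  have hB := hA.prime inf_le_left hB0 hB1
  have hBd : Nat.card B ∣ Nat.card A := Subgroup.card_dvd_of_le inf_le_left
  have hKM : K ≤ Q ⊔ A := (hK.le.trans hZQ).trans le_sup_left
  have hM' : Q ⊔ B ≤ Q ⊔ A := sup_le_sup_left inf_le_left _
  have hMK : Q ⊔ B ≤ 𝐍(K) := sup_le (CopAct.le_normalizer_of_le_centralizer
    (hQZ.trans (CopAct.centralizer_anti hK.le))) h.hBK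
  have hinv : ∀ g ∈ Q ⊔ B, ∀ u ∈ pfix π' K, π' g u ∈ pfix π' K := fun g hg u hu =>
    hM.apply_mem_pfix hKM (hM' hg) (hMK hg) hu
  have hBQ : B ≤ 𝐍(Q) := inf_le_left.trans hAQ
  have hcB : Nat.card (B.subgroupOf (Q ⊔ B)) = Nat.card B :=
    Nat.card_congr (Subgroup.subgroupOfEquivOfLe le_sup_right).toEquiv
  have h1 := shult_rep (hM.toRep hM' _ hinv) (q := q)
    (by rintro rfl; exact hAq (by rw [hA.card]; norm_num)) (Q := Q.subgroupOf _)
    (X := B.subgroupOf _) (hQ.comap_subtype) (hcB ▸ hB)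
    (by rw [hcB]; rintro rfl; exact hAq hBd)
    ((Subgroup.comap_mono hBQ).trans (Subgroup.le_normalizer_comap _)) hrq
    (by rw [hcB]; rintro rfl; exact hrA hBd) fun w hw => by
      have : ((w : pfix π' K) : U) ∈ pfix π' (K ⊔ B) := hM.mem_pfix_sup hKM
        (le_sup_right.trans hM') w.2 fun b hb =>
          congrArg Subtype.val (hw ⟨b, Subgroup.mem_sup_right hb⟩ hb)
      rw [pfix_stab h hrM] at this
      exact Subtype.ext this
  have hn : Q ⊔ B ≤ 𝐍(Q ⊓ hM.pker (pfix π' K)) := CopAct.le_normalizer_inf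
    (CopAct.sup_le_normalizer hBQ) (le_norm_of_conj_mem fun g hg a ha =>
      hM.conj_mem_pker (hM' hg) (hinv _ (inv_mem hg)) ha)
  have h2 := s3_comm_le hA hAQ hcop hsQ hf inf_le_left hB0 hB1 inf_le_left
    (le_sup_left.trans hn) (le_sup_right.trans hn) (Subgroup.commutator_le.2 fun x hx b hb =>
      ⟨comm_mem_symm (comm_mem_of_norm (hBQ hb) hx),
        Subgroup.mem_sup_left (comm_mem_symm (comm_mem_of_norm (hBQ hb) hx)), fun u hu =>
        (congrArg Subtype.val (h1 ⁅(⟨x, Subgroup.mem_sup_left hx⟩ : ↥(Q ⊔ B)),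
          (⟨b, Subgroup.mem_sup_right hb⟩ : ↥(Q ⊔ B))⁆ (Subgroup.commutator_mem_commutator hx hb)
          ⟨u, hu⟩) :)⟩)
  exact hK.ne (eq_bot_iff.2 fun u hu => h0 ▸ fun z hz => (h2 hz.1).2.2 u hu)

theorem isNilpotent_comm {Γ : Type u} [Group Γ] [Finite Γ] {G A : Subgroup Γ} [G.Normal]
    (hsol : Group.IsSolvable G) (hA : Nat.card A = 3 * 2) (na : ¬ IsMulCommutative A)
    (hco : (Nat.card A).Coprime (Nat.card G)) (hfix : G ⊓ 𝐂(A) = ⊥) :
    Group.IsNilpotent ↥⁅G, G⁆ := by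
  by_contra hT
  have hop : Op A 3 2 := ⟨hA.dvd, fun _ => na⟩
  obtain ⟨Δ, _, _, f, r, hr, V, _, _, _, π, h1, h2, h3, h4, h5, h6, h7⟩ :=
    exists_faithful_quot Γ G _ A (CopAct.commutator_le_of_le_normalizer Subgroup.le_normalizer)
      hsol hT hco hfix
  have := Subgroup.Normal.map ‹G.Normal› f h1
  rw [Subgroup.map_commutator] at h4 h5 h6
  have hco' : (Nat.card (A.map f)).Coprime (Nat.card (G.map f)) :=
    (hco.coprime_dvd_left (Subgroup.card_map_dvd _ _)).coprime_dvd_right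
      (Subgroup.card_map_dvd _ _)
  have hfix' : G.map f ⊓ 𝐂(A.map f) = ⊥ := by
    rw [← CopAct.map_inf_centralizer' f Subgroup.le_normalizer_of_normal hco (Or.inr hsol), hfix,
      Subgroup.map_bot]
  have hrA : ¬ r ∣ Nat.card (A.map f) := fun h => hr.out.one_lt.ne'
    (Nat.eq_one_of_dvd_coprimes hco (h.trans (Subgroup.card_map_dvd _ _)) h2)
  by_cases e : Nat.card (A.map f) = 3 * 2
  · obtain ⟨N, hN⟩ := exists_PQ Nat.prime_three Nat.prime_two (by norm_num) e ((hop.map f).2 e)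
    have hle : FG.H93.nilRes (G.map f) ≤ ⁅G.map f, G.map f⁆ := by
      simpa [Subgroup.lowerCentralSeries_succ] using FG.H93.nilRes_le_lcs (G.map f) 1
    have := FG.H93.nilRes_eq_bot_iff.1 (nilRes_eq_bot π (isSolvable_map G f) Nat.prime_three
      Nat.prime_two (by norm_num) (hop.map f) hco' hfix' h3
      (Group.nilpotent_of_mulEquiv (Subgroup.subgroupOfEquivOfLe hle))
      (fun h => h6 (h.trans (Subgroup.card_dvd_of_le hle))) hrA h7)
    obtain ⟨q, hq, hqd, h8⟩ := exists_pCoreOf_comm_ne_bot h4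
    obtain ⟨q', hq', -, h9⟩ := exists_pCoreOf_comm_ne_bot (T := G.map f)
      (R := pCoreOf q (G.map f)) (by rwa [Subgroup.commutator_comm])
    have := Fact.mk hq
    have := Fact.mk hq'
    obtain rfl : q' = q := by
      by_contra h
      exact h9 (eq_bot_iff.2 ((Subgroup.commutator_le_inf _ _).trans (CopAct.inf_eq_bot_of_coprime
        (coprime_of_isPGroup_ne h (isPGroup_pCoreOf _ _) (isPGroup_pCoreOf _ _))).le))
    have hle' := pCoreOf_le (p := q') (G.map f)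
    refine h9 (s3_core π (isPGroup_pCoreOf _ _) hN
      (fun h => hq.one_lt.ne' (Nat.eq_one_of_dvd_coprimes hco' h hqd))
      Subgroup.le_normalizer_of_normal ?_ hrA (eq_bot_iff.2 (h3 ▸ inf_le_inf_right _ hle'))
      (eq_bot_iff.2 (hfix' ▸ inf_le_inf_right _ hle')) h7)
    rintro rfl
    have h10 := ((isPGroup_pCoreOf r (G.map f)).to_le
      (Subgroup.commutator_le_left _ (pCoreOf r (G.map f)))).card_eq_or_dvd
    exact h6 ((h10.resolve_left fun h => h9 (Subgroup.card_eq_one.1 h)).trans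
      (Subgroup.card_dvd_of_le (Subgroup.commutator_mono hle' hle')))
  · obtain ⟨N, hN⟩ := exists_PQ Nat.prime_three Nat.prime_two (by norm_num) hA na
    obtain ⟨b, hbA, hb2, hbs⟩ := hN.exists_compl
    have hB : Subgroup.zpowers b ≤ A := Subgroup.zpowers_le.2 hbA
    have hb1 : ¬ Subgroup.zpowers b ≤ N := fun h => hN.na (comm_of_sup (hbs.ge.trans
      (sup_le_sup_right h N)) (le_cent_self (hN.cardN ▸ hN.hp)) (le_cent_self (hN.cardN ▸ hN.hp))
      (le_cent_self (hN.cardN ▸ hN.hp)))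
    have hAb : A.map f ≤ Subgroup.zpowers (f b) := by
      by_cases hfb : f b = 1
      · obtain ⟨c, hc, hcb⟩ : ∃ c ∈ A, c ∉ Subgroup.zpowers b := by
          by_contra h
          push Not at h
          exact hN.na (comm_of_sup (le_sup_of_le_left (b := Subgroup.zpowers b) h)
            (Subgroup.le_centralizer _) (Subgroup.le_centralizer _) (Subgroup.le_centralizer _))
        have hk : Subgroup.zpowers b ≤ f.ker := Subgroup.zpowers_le.2 hfb
        have := (hN.gen hB (fun h => hb1 (h ▸ bot_le)) (fun h => hcb (h ▸ hc))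
          (fun h => hb1 h.le) c hc hcb).trans (sup_le hk fun x hx => by
            simpa [mul_assoc] using f.normal_ker.conj_mem' _ (hk (mem_cj.1 hx)) c)
        exact ((Subgroup.map_eq_bot_iff _).2 this).le.trans bot_le
      · have h8 : orderOf (f b) = 2 := orderOf_eq_prime (by rw [← map_pow, hb2, map_one]) hfb
        have h9 : Subgroup.zpowers (f b) ≤ A.map f := Subgroup.zpowers_le.2 ⟨b, hbA, rfl⟩
        have h10 := Subgroup.card_dvd_of_le h9
        rw [Nat.card_zpowers, h8] at h10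
        refine (Subgroup.eq_of_le_of_card_ge h9 ?_).ge
        rw [Nat.card_zpowers, h8]
        have h11 := (hop.map f).1
        have h12 := Nat.le_of_dvd (by norm_num) h11
        generalize Nat.card (A.map f) = n at *
        interval_cases n <;> simp_all
    refine h4 (comm_eq_bot_of_inv (b := f b) (Subgroup.le_normalizer_of_normal
      (Subgroup.mem_top _)) (by rw [← map_pow, hb2, map_one]) (eq_bot_iff.2 (hfix' ▸
        inf_le_inf_left _ ?_)))
    rw [← GT.centralizer_zpowers]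
    exact CopAct.centralizer_anti hAb

end Cfsg.Agent.Loc.Shu
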