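import Mathlib
import Cfsg.Agent.Loc.MssSyl
import Cfsg.Agent.Loc.CardProd
import Cfsg.Agent.GT.PGroupElemAb
import Cfsg.Agent.GT.PGroupChain

/-! Elementary abelian TI-subgroups `V` that are maximal abelian normal subgroups of a
normalizer of characteristic 2 (Timmesfeld): the structure of `P = C_{O₂(N(V))}(V)`. -/

set_option autoImplicit false
set_option linter.unusedSectionVars false
set_option linter.style.haveILetI false
open Cfsg

namespace Cfsg.Agent.Loc.TIL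

open Cfsg.Agent.Loc.Mss Cfsg.Agent.GT Subgroup
open scoped commutatorElement

variable {G : Type*} [Group G] [Finite G]

/-- `C_{O₂(N(V))}(V)` -/
def PP (V : Subgroup G) : Subgroup G := pCoreOf 2 𝐍[V] ⊓ 𝐂[V]

structure Hyp (V : Subgroup G) : Prop where
  ea : IsElementaryAbelian 2 V
  ti : ∀ x : G, cj(x, V) = V ∨ cj(x, V) ⊓ V = ⊥
  max : ∀ A : Subgroup G, V ≤ A → A ≤ 𝐍[V] → A ≤ 𝐂[A] → 𝐍[V] ≤ 𝐍[A] → A ≤ V
  chp : ChP 2 𝐍[V]

/-- `U` is a conjugate of `V` different from `V` -/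
def Cj (V U : Subgroup G) : Prop := (∃ x : G, U = cj(x, V)) ∧ U ≠ V

/-- `U` is a conjugate of `V` different from `V` inside `PP V` -/
def Adj (V U : Subgroup G) : Prop := Cj V U ∧ U ≤ PP V

theorem cj_PP (V : Subgroup G) (g : G) : cj(g, PP V) = PP cj(g, V) := by
  rw [PP, PP, cj_inf, cj_core, cj_norm, cj_cent]

theorem PP_le_cent (V : Subgroup G) : PP V ≤ 𝐂[V] := inf_le_right

theorem PP_le_norm (V : Subgroup G) : PP V ≤ 𝐍[V] := norm_of_cent (PP_le_cent V)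

theorem pg_PP (V : Subgroup G) : IsPGroup 2 (PP V) := (pg_core _).to_le inf_le_left

theorem norm_PP (V : Subgroup G) : 𝐍[V] ≤ 𝐍[PP V] :=
  norm_inf (le_norm_core _) (norm_cent le_rfl)

theorem le_PP {V D : Subgroup G} (hD : IsPGroup 2 D) (h : D ≤ 𝐂[V]) (hn : 𝐍[V] ≤ 𝐍[D]) :
    D ≤ PP V := le_inf (le_pCoreOf (norm_of_cent h) hn hD) h

theorem Cj.cj {V U : Subgroup G} (h : Cj V U) (g : G) : Cj cj(g, V) cj(g, U) := by
  obtain ⟨⟨x, rfl⟩, h2⟩ := h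
  refine ⟨⟨g * x * g⁻¹, ?_⟩, fun e => h2 (cj_eq_cj.1 e)⟩
  rw [cj_cj, cj_cj, inv_mul_cancel_right]

theorem Adj.cj {V U : Subgroup G} (h : Adj V U) (g : G) : Adj cj(g, V) cj(g, U) :=
  ⟨h.1.cj g, cj_PP V g ▸ cj_mono g h.2⟩

theorem Adj.cj_norm {V U : Subgroup G} (h : Adj V U) {g : G} (hg : g ∈ 𝐍[V]) :
    Adj V cj(g, U) := by
  have := h.cj g
  rwa [cj_of_norm hg] at this

theorem Cj.symm {V U : Subgroup G} (h : Cj V U) : Cj U V := by
  obtain ⟨⟨x, rfl⟩, h2⟩ := h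
  exact ⟨⟨x⁻¹, (cj_inv_cj V x).symm⟩, h2.symm⟩

theorem Cj.card {V U : Subgroup G} (h : Cj V U) : Nat.card U = Nat.card V := by
  obtain ⟨⟨x, rfl⟩, -⟩ := h
  exact card_cj V x

theorem Cj.ne_bot {V U : Subgroup G} (h : Cj V U) : V ≠ ⊥ := by
  rintro rfl
  obtain ⟨⟨x, rfl⟩, h2⟩ := h
  exact h2 (cj_bot x)

theorem Cj.of_ne {V U U' : Subgroup G} (h : ∃ x : G, U = cj(x, V)) (h' : ∃ x : G, U' = cj(x, V))
    (hne : U' ≠ U) : Cj U U' := by
  obtain ⟨x, rfl⟩ := h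
  obtain ⟨y, rfl⟩ := h'
  exact ⟨⟨y * x⁻¹, by rw [cj_cj, inv_mul_cancel_right]⟩, hne⟩

theorem surj_of_inj {A B : Subgroup G} (hc : Nat.card B ≤ Nat.card A) (f : G → G)
    (h1 : ∀ a ∈ A, f a ∈ B) (h2 : ∀ a ∈ A, ∀ a' ∈ A, f a = f a' → a = a') {b : G} (hb : b ∈ B) :
    ∃ a ∈ A, f a = b := by
  have hi : Function.Injective (fun a : A => (⟨f a, h1 a a.2⟩ : B)) := fun a a' e =>
    Subtype.ext (h2 a a.2 a' a'.2 (congrArg Subtype.val e))
  obtain ⟨a, ha⟩ := (hi.bijective_of_nat_card_le hc).2 ⟨b, hb⟩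
  exact ⟨a, a.2, congrArg Subtype.val ha⟩

theorem comm_of_comm_eq {x x' v : G} (h : ⁅x, v⁆ = ⁅x', v⁆) : x'⁻¹ * x * v = v * (x'⁻¹ * x) := by
  simp only [commutatorElement_def] at h
  have h1 : x * v * x⁻¹ = x' * v * x'⁻¹ := mul_right_cancel h
  calc x'⁻¹ * x * v = x'⁻¹ * (x * v * x⁻¹) * x := by group
    _ = _ := by rw [h1]; group

theorem conj_comm_inv {x : G} (h : x * x = 1) (v : G) : x * ⁅x, v⁆ * x⁻¹ = ⁅x, v⁆⁻¹ := by
  have h1 : x⁻¹ = x := inv_eq_of_mul_eq_one_left h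
  simp only [commutatorElement_def, mul_inv_rev, inv_inv, h1, ← mul_assoc, h, one_mul]

namespace Hyp

variable {V U U' : Subgroup G}

theorem cj (h : Hyp V) (g : G) : Hyp cj(g, V) := by
  refine ⟨h.ea.map _, fun x => ?_, fun A h1 h2 h3 h4 => ?_, cj_norm V g ▸ h.chp.cj g⟩
  · have e : cj(x, cj(g, V)) = cj(g, cj(g⁻¹ * x * g, V)) := by
      rw [cj_cj, cj_cj]; congr 3; group
    rw [e, cj_eq_cj, ← cj_inf, cj_eq_bot]
    exact h.ti _
  · rw [le_cj_iff_inv_le]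
    refine h.max _ (by rwa [← cj_le_iff_le_inv]) ?_ ?_ ?_
    · rwa [← le_cj_iff_inv_le, cj_norm]
    · rw [← cj_cent]; exact cj_mono _ h3
    · rw [← cj_norm, ← cj_le_iff_le_inv, cj_norm]; exact h4

theorem of_cj (h : Hyp V) (hU : Cj V U) : Hyp U := by
  obtain ⟨⟨x, rfl⟩, -⟩ := hU
  exact h.cj x

theorem inf_eq (h : Hyp V) (hU : Cj V U) : U ⊓ V = ⊥ := by
  obtain ⟨⟨x, rfl⟩, h2⟩ := hU
  exact (h.ti x).resolve_left h2

theorem eq_one (h : Hyp V) (hU : Cj V U) {x : G} (h1 : x ∈ U) (h2 : x ∈ V) : x = 1 :=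
  mem_bot.1 (h.inf_eq hU ▸ (⟨h1, h2⟩ : x ∈ U ⊓ V))

theorem eq_of_mem (h : Hyp V) (h1 : ∃ x : G, U = cj(x, V)) (h2 : ∃ x : G, U' = cj(x, V)) {w : G}
    (hw : w ≠ 1) (hU : w ∈ U) (hU' : w ∈ U') : U' = U := by
  by_contra hne
  have hc := Cj.of_ne h1 h2 hne
  obtain ⟨x, rfl⟩ := h1
  exact hw ((h.cj x).eq_one hc hU' hU)

theorem mem_norm (h : Hyp V) {v y : G} (hv : v ∈ V) (h1 : v ≠ 1) (e : y * v = v * y) :
    y ∈ 𝐍[V] := by
  refine cj_eq_iff.1 (h.eq_of_mem ⟨1, (cj_one V).symm⟩ ⟨y, rfl⟩ h1 hv (mem_cj.2 ?_))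
  rwa [mul_assoc, ← e, inv_mul_cancel_left]

theorem sq (h : Hyp V) {v : G} (hv : v ∈ V) : v * v = 1 := by
  rw [← pow_two]; exact h.ea.2 v hv

theorem inv (h : Hyp V) {v : G} (hv : v ∈ V) : v⁻¹ = v := inv_eq_of_mul_eq_one_left (h.sq hv)

theorem le_cent (h : Hyp V) : V ≤ 𝐂[V] := h.ea.le_centralizer

theorem le_PP (h : Hyp V) : V ≤ PP V := TIL.le_PP h.ea.isPGroup h.le_cent le_rfl

theorem max' (h : Hyp V) {A : Subgroup G} (h1 : A ≤ 𝐂[A]) (h2 : A ≤ 𝐂[V]) (h3 : 𝐍[V] ≤ 𝐍[A]) :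
    A ≤ V :=
  le_sup_left.trans (h.max (A ⊔ V) le_sup_right (sup_le (norm_of_cent h2) le_normalizer)
    (sup_le (le_cent_sup h1 h2) (le_cent_sup (cent_comm h2) h.le_cent)) (norm_sup h3 le_rfl))

theorem center_le (h : Hyp V) : PP V ⊓ 𝐂[PP V] ≤ V :=
  h.max' (inf_le_right.trans (cent_anti inf_le_left)) (inf_le_left.trans (PP_le_cent V))
    (norm_inf (norm_PP V) (norm_cent (norm_PP V)))

theorem comm_le (h : Hyp V) : ⁅PP V, PP V⁆ ≤ V := by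
  set P := PP V with hP
  have hV : ⁅V, P⁆ = ⊥ := comm_eq_bot_iff'.2 (PP_le_cent V)
  have h1 : ⁅P, P⁆ ≤ 𝐂[P ⊓ cmod P V] := by
    rw [← comm_eq_bot_iff, eq_bot_iff]
    have e : ⁅P, P ⊓ cmod P V⁆ ≤ V :=
      (commutator_mono le_rfl inf_le_right).trans (comm_cmod_le P V)
    refine three_subgroups (norm_normal _ _) (norm_normal _ _) (norm_normal _ _) ?_ ?_
    · exact (commutator_mono e le_rfl).trans hV.le
    · rw [commutator_comm (P ⊓ cmod P V)]; exact (commutator_mono e le_rfl).trans hV.le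
  have h2 : ⁅P, P⁆ ⊓ cmod P V ≤ V := by
    have e : ⁅P, P⁆ ≤ P := comm_le_left le_normalizer
    refine h.max' ((inf_le_left.trans h1).trans (cent_anti (inf_le_inf_right _ e)))
      ((inf_le_left.trans e).trans (PP_le_cent V)) ?_
    exact norm_inf (norm_comm (norm_PP V) (norm_PP V)) (norm_cmod (norm_PP V) le_rfl)
  have h3 : ∀ k, P.lowerCentralSeries (k + 2) ≤ V → P.lowerCentralSeries (k + 1) ≤ V := by
    intro k hk
    have e : P.lowerCentralSeries (k + 1) ≤ ⁅P, P⁆ :=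
      P.lowerCentralSeries_antitone (show 1 ≤ k + 1 by omega)
    refine (le_inf e (le_cmod.2 ⟨?_, ?_⟩)).trans h2
    · exact (e.trans (comm_le_left le_normalizer)).trans (PP_le_norm V)
    · rw [commutator_comm]; exact hk
  haveI := (pg_PP V).isNilpotent
  obtain ⟨n, hn⟩ := (isNilpotent_iff_lowerCentralSeries P).1 inferInstance
  have h4 : ∀ k, P.lowerCentralSeries (k + 1) ≤ V → P.lowerCentralSeries 1 ≤ V := by
    intro k
    induction k with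
    | zero => exact id
    | succ k ih => exact fun hk => ih (h3 k hk)
  exact h4 n ((P.lowerCentralSeries_antitone (Nat.le_succ n)).trans (hn ▸ bot_le))

theorem comm_mem (h : Hyp V) {x y : G} (hx : x ∈ PP V) (hy : y ∈ PP V) : ⁅x, y⁆ ∈ V :=
  h.comm_le (commutator_mem_commutator hx hy)

theorem sq_mem (h : Hyp V) {y : G} (hy : y ∈ PP V) : y * y ∈ V := by
  refine h.center_le ⟨mul_mem hy hy, mem_cent.2 fun z hz => ?_⟩
  have h1 := h.comm_mem hy hz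
  have h2 : ⁅y, z⁆ * y = y * ⁅y, z⁆ := mem_cent.1 (PP_le_cent V hy) _ h1
  have h3 := h.sq h1
  have e : y * z = ⁅y, z⁆ * z * y := by simp only [commutatorElement_def]; group
  calc z * (y * y) = ⁅y, z⁆ * ⁅y, z⁆ * z * y * y := by rw [h3]; group
    _ = ⁅y, z⁆ * (y * z) * y := by rw [e]; group
    _ = y * (⁅y, z⁆ * z * y) := by rw [← mul_assoc, h2]; group
    _ = y * y * z := by rw [← e]; group

theorem norm_of_le (h : Hyp V) {X : Subgroup G} (h1 : V ≤ X) (h2 : X ≤ PP V) : PP V ≤ 𝐍[X] :=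
  norm_of_comm_le' h1 ((commutator_mono h2 le_rfl).trans h.comm_le)

/-- A conjugate normalizing `V` centralizes `V`. -/
theorem le_cent_of_norm (h : Hyp V) (hU : Cj V U) (hn : U ≤ 𝐍[V]) : U ≤ 𝐂[V] := by
  have hU' := h.of_cj hU
  have h1 : ∀ x ∈ U, x ≠ 1 → ∀ c ∈ V, c * x = x * c → c ∈ 𝐂[U] := fun x hx hx1 c hc e =>
    mem_cent.2 fun u hu => commutatorElement_eq_one_iff_mul_comm.1 (h.eq_one hU
      (comm_le_left (zpowers_le.2 (hU'.mem_norm hx hx1 e))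
        (commutator_mem_commutator hu (mem_zpowers c)))
      (comm_le_right hn (commutator_mem_commutator hu hc)))
  refine cent_comm fun v hv => ?_
  by_contra hv0
  have hlt : V ⊓ 𝐂[U] < V := lt_of_le_of_ne inf_le_left fun e => hv0 (e.ge hv).2
  have h2 : ∀ x ∈ U, ⁅x, v⁆ ∈ V ⊓ 𝐂[U] := fun x hx => by
    have h3 : ⁅x, v⁆ ∈ V := comm_le_right hn (commutator_mem_commutator hx hv)
    refine ⟨h3, ?_⟩
    by_cases hx1 : x = 1
    · subst hx1; simp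
    refine h1 x hx hx1 _ h3 ?_
    have h4 := conj_comm_inv (hU'.sq hx) v
    rw [h.inv h3] at h4
    exact (mul_inv_eq_iff_eq_mul.1 h4).symm
  obtain ⟨c, hc, hc'⟩ := SetLike.exists_of_lt hlt
  have hi : Function.Injective (fun x : U => (⟨⁅(x : G), v⁆, h2 x x.2⟩ : ↥(V ⊓ 𝐂[U]))) := by
    intro x x' e
    by_contra hne
    refine hv0 (h1 _ (mul_mem (inv_mem x'.2) x.2) (fun e' => hne ?_) v hv
      (comm_of_comm_eq (congrArg Subtype.val e)).symm)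
    exact (Subtype.ext (inv_mul_eq_one.1 e')).symm
  have := Nat.card_le_card_of_injective _ hi
  rw [hU.card] at this
  exact absurd (card_lt_of_lt hlt) this.not_gt

theorem cent_of_comm (h : Hyp V) (hU : Adj V U) {x y : G} (hx : x ∈ U) (hx1 : x ≠ 1)
    (hy : y ∈ PP V) (e : y * x = x * y) : y ∈ 𝐂[U] :=
  mem_cent.2 fun u hu => commutatorElement_eq_one_iff_mul_comm.1 (h.eq_one hU.1
    (comm_le_left (zpowers_le.2 ((h.of_cj hU.1).mem_norm hx hx1 e))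
      (commutator_mem_commutator hu (mem_zpowers y))) (h.comm_mem (hU.2 hu) hy))

theorem exists_comm (h : Hyp V) (hU : Adj V U) {y v : G} (hy : y ∈ PP V) (hy' : y ∉ 𝐂[U])
    (hv : v ∈ V) : ∃ x ∈ U, ⁅x, y⁆ = v := by
  refine surj_of_inj hU.1.card.ge (fun x => ⁅x, y⁆) (fun x hx => h.comm_mem (hU.2 hx) hy)
    (fun x hx x' hx' e => ?_) hv
  by_contra hne
  exact hy' (h.cent_of_comm hU (mul_mem (inv_mem hx') hx)
    (fun e' => hne (inv_mul_eq_one.1 e').symm) hy (comm_of_comm_eq e).symm)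

theorem not_le (h : Hyp V) (hU : Cj V U) : ¬ U ≤ V := fun h1 =>
  hU.symm.ne_bot (by rw [← h.inf_eq hU, inf_eq_left.2 h1])

theorem exists_partner (h : Hyp V) (hU : Adj V U) : ∃ U', Adj V U' ∧ ¬ U' ≤ 𝐂[U] := by
  by_contra hc
  push Not at hc
  set X := sSup {U' | Adj V U'} with hX
  have hn : 𝐍[V] ≤ 𝐍[X] := norm_of_forall_cj_le fun g hg => by
    rw [hX, sSup_eq_iSup', Subgroup.map_iSup]
    exact iSup_le fun U' => le_iSup_of_le ⟨cj(g, U'.1), Adj.cj_norm U'.2 hg⟩ le_rfl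
  have hXP : X ≤ PP V := sSup_le fun U' hU' => hU'.2
  refine h.not_le hU.1 (le_trans (le_inf (le_sSup hU) (cent_comm (sSup_le hc)))
    (h.max' (A := X ⊓ 𝐂[X]) (inf_le_right.trans (cent_anti inf_le_left))
      (inf_le_left.trans (hXP.trans (PP_le_cent V))) (norm_inf hn (norm_cent hn))))

theorem not_mem_cent (h : Hyp V) (hU : Adj V U) (hU' : Adj V U') (hn : ¬ U' ≤ 𝐂[U]) {x : G}
    (hx : x ∈ U) (hx1 : x ≠ 1) : x ∉ 𝐂[U'] := fun h1 =>
  hn fun y hy => h.cent_of_comm hU hx hx1 (hU'.2 hy) (mem_cent.1 h1 y hy)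

theorem exists_comm' (h : Hyp V) (hU : Adj V U) {x v : G} (hx : x ∈ U) (hx1 : x ≠ 1)
    (hv : v ∈ V) : ∃ y ∈ PP V, ⁅y, x⁆ = v := by
  obtain ⟨U', hU', hn⟩ := h.exists_partner hU
  obtain ⟨y, hy, e⟩ := h.exists_comm hU' (hU.2 hx) (h.not_mem_cent hU hU' hn hx hx1) hv
  exact ⟨y, hU'.2 hy, e⟩

theorem comm_eq (h : Hyp V) (hU : Adj V U) : ⁅PP V, PP V⁆ = V := by
  refine le_antisymm h.comm_le fun v hv => ?_
  obtain ⟨x, hx, hx1⟩ := (bot_or_exists_ne_one U).resolve_left hU.1.symm.ne_bot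
  obtain ⟨y, hy, rfl⟩ := h.exists_comm' hU hx hx1 hv
  exact commutator_mem_commutator hy (hU.2 hx)

theorem faith (h : Hyp V) (hU : Adj V U) {D : Subgroup G} (hD : D ≤ 𝐍[V])
    (hc : ⁅PP V, D⁆ ≤ V) : D ≤ PP V := by
  set X := 𝐍[V] ⊓ cmod (PP V) V with hX
  have hn : 𝐍[V] ≤ 𝐍[X] := norm_inf le_normalizer (norm_cmod (norm_PP V) le_rfl)
  have h1 : ⁅PP V, X⁆ ≤ V := (commutator_mono le_rfl inf_le_right).trans (comm_cmod_le _ _)
  have hV : ⁅V, PP V⁆ = ⊥ := comm_eq_bot_iff'.2 (PP_le_cent V)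
  have h2 : X ≤ 𝐂[V] := by
    rw [← comm_eq_bot_iff', eq_bot_iff, ← h.comm_eq hU]
    refine three_subgroups (norm_normal _ _) (norm_normal _ _) (norm_normal _ _) ?_ ?_
    · exact (commutator_mono h1 le_rfl).trans hV.le
    · rw [commutator_comm X]; exact (commutator_mono h1 le_rfl).trans hV.le
  have hR : pResidualOf 2 X ≤ 𝐍[V] := (res_le X).trans inf_le_left
  have h3 : pResidualOf 2 X ≤ 𝐂[PP V] := res_le_cent_of_two (pg_PP V) (hR.trans (norm_PP V))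
    ((commutator_mono le_rfl (res_le X)).trans h1) ((res_le X).trans h2)
  have h4 : pResidualOf 2 X ≤ 𝐂[pCoreOf 2 𝐍[V]] := by
    refine res_le_cent_of_two (pg_core _) (hR.trans (le_norm_core _)) (W := V) ?_
      ((res_le X).trans h2)
    have h5 : ⁅pCoreOf 2 𝐍[V], pResidualOf 2 X⁆ ≤ 𝐂[PP V] :=
      (commutator_mono le_rfl h3).trans
        (comm_le_right (norm_cent ((pCoreOf_le _).trans (norm_PP V))))
    exact (le_inf (le_inf (comm_le_left (hR.trans (le_norm_core _)))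
      (h5.trans (cent_anti h.le_PP))) h5).trans h.center_le
  exact (le_inf hD (le_cmod.2 ⟨hD, hc⟩)).trans
    (TIL.le_PP (h.chp.pg_of_res_le inf_le_left h4) h2 hn)

theorem mem_sup (h : Hyp V) (hU : U ≤ PP V) {w : G} (hw : w ∈ V ⊔ U) :
    ∃ v ∈ V, ∃ x ∈ U, v * x = w := (mem_sup_norm (hU.trans (PP_le_norm V))).1 hw

theorem exists_mem_cj (h : Hyp V) (hU : Adj V U) {w : G} (hw : w ∈ V ⊔ U) (hw' : w ∉ V) :
    ∃ y ∈ PP V, w ∈ cj(y, U) := by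
  obtain ⟨v, hv, x, hx, rfl⟩ := h.mem_sup hU.2 hw
  obtain ⟨y, hy, rfl⟩ := h.exists_comm' hU hx (by rintro rfl; exact hw' (by simpa using hv)) hv
  refine ⟨y, hy, ?_⟩
  rw [commutatorElement_def, inv_mul_cancel_right]
  exact conj_mem_cj hx

theorem sup_le_PP (h : Hyp V) (hU : Adj V U) : V ⊔ U ≤ PP V := sup_le h.le_PP hU.2

theorem norm_sup' (h : Hyp V) (hU : Adj V U) : PP V ≤ 𝐍[V ⊔ U] :=
  h.norm_of_le le_sup_left (h.sup_le_PP hU)

theorem sup_comm' (h : Hyp V) (hU : Adj V U) : V ⊔ U ≤ 𝐂[V ⊔ U] :=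
  have h1 : U ≤ 𝐂[V] := hU.2.trans (PP_le_cent V)
  sup_le (le_cent_sup h.le_cent (cent_comm h1)) (le_cent_sup h1 (h.of_cj hU.1).le_cent)

theorem exists_eq_cj (h : Hyp V) (hU : Adj V U) (hU' : Cj V U') {w : G} (hw : w ∈ U')
    (hw1 : w ≠ 1) (hw' : w ∈ V ⊔ U) : ∃ y ∈ PP V, U' = cj(y, U) := by
  obtain ⟨y, hy, h1⟩ := h.exists_mem_cj hU hw' fun h1 => hw1 (h.eq_one hU' hw h1)
  obtain ⟨x, hx⟩ := hU.1.1
  exact ⟨y, hy, h.eq_of_mem ⟨y * x, by rw [hx, cj_cj]⟩ hU'.1 hw1 h1 hw⟩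

theorem le_sup_of_mem (h : Hyp V) (hU : Adj V U) (hU' : Cj V U') {w : G} (hw : w ∈ U')
    (hw1 : w ≠ 1) (hw' : w ∈ V ⊔ U) : U' ≤ V ⊔ U := by
  obtain ⟨y, hy, rfl⟩ := h.exists_eq_cj hU hU' hw hw1 hw'
  exact cj_le_of_norm le_sup_right (h.norm_sup' hU hy)

theorem sup_eq (h : Hyp V) (hU : Adj V U) {U₁ U₂ : Subgroup G} (h1 : ∃ x : G, U₁ = cj(x, V))
    (h2 : Cj U₁ U₂) (l1 : U₁ ≤ V ⊔ U) (l2 : U₂ ≤ V ⊔ U) : U₁ ⊔ U₂ = V ⊔ U := by
  refine eq_of_le_of_card_le (sup_le l1 l2) (le_of_eq ?_)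
  obtain ⟨x, rfl⟩ := h1
  rw [CopAct.card_sup_of_inf_eq_bot (hU.2.trans (PP_le_norm V))
      (by rw [inf_comm]; exact h.inf_eq hU.1),
    CopAct.card_sup_of_inf_eq_bot (norm_of_cent (l2.trans ((h.sup_comm' hU).trans (cent_anti l1))))
      (by rw [inf_comm]; exact (h.cj x).inf_eq h2), hU.1.card, h2.card, card_cj]

/-- If some element normalizing `V U` moves `V` then the relation is symmetric. -/
theorem swap (h : Hyp V) (hU : Adj V U) {k : G} (hk : k ∈ 𝐍[V ⊔ U]) (hne : cj(k, V) ≠ V) :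
    V ≤ PP U := by
  have hc : Cj V cj(k, V) := ⟨⟨k, rfl⟩, hne⟩
  obtain ⟨w, hw, hw1⟩ := (bot_or_exists_ne_one _).resolve_left hc.symm.ne_bot
  obtain ⟨y, hy, e⟩ := h.exists_eq_cj hU hc hw hw1 (cj_le_of_norm le_sup_left hk hw)
  have e' : cj(y⁻¹ * k, V) = U := by rw [← cj_cj, e, cj_inv_cj]
  have h1 := hU.cj (y⁻¹ * k)
  rw [e'] at h1
  have h2 := h.sup_eq hU hU.1.1 h1.1 le_sup_right
    (cj_le_of_norm le_sup_right (mul_mem (inv_mem (h.norm_sup' hU hy)) hk))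
  exact le_sup_left.trans (h2.ge.trans ((h.of_cj hU.1).sup_le_PP h1))

theorem swap' (h : Hyp V) (hU : Adj V U) {u y : G} (hu : u ∈ V) (hy : y ∈ PP U)
    (h1 : ⁅y, u⁆ ∈ U) (h2 : ⁅y, u⁆ ≠ 1) : V ≤ PP U := by
  have e : y * u * y⁻¹ = ⁅y, u⁆ * u := by rw [commutatorElement_def, inv_mul_cancel_right]
  have hn : y * u * y⁻¹ ∉ V := fun h3 => h2 (h.eq_one hU.1 h1 (mul_mem h3 (inv_mem hu)))
  have hc : Cj V cj(y, V) := ⟨⟨y, rfl⟩, fun h3 => hn (h3 ▸ conj_mem_cj hu)⟩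
  have hle : cj(y, V) ≤ V ⊔ U := h.le_sup_of_mem hU hc (conj_mem_cj hu)
    (fun h3 => hn (h3 ▸ one_mem V)) (e ▸ mul_mem (mem_sup_right h1) (mem_sup_left hu))
  have hW := h.sup_eq hU ⟨1, (cj_one V).symm⟩ hc le_sup_left hle
  refine h.swap hU (k := y) (cj_eq_iff.1 ?_) hc.2
  rw [← hW, cj_sup, cj_cj,
    cj_of_cent (hU.2.trans (PP_le_cent V) ((h.of_cj hU.1).sq_mem hy)), sup_comm]

/-! ### The centralizer of `U` in `P` -/

theorem exists_mul (h : Hyp V) (hU : Adj V U) (hU' : Adj V U') (hn : ¬ U' ≤ 𝐂[U]) {y : G}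
    (hy : y ∈ PP V) : ∃ z ∈ U', z⁻¹ * y ∈ 𝐂[U] := by
  obtain ⟨x, hx, hx1⟩ := (bot_or_exists_ne_one U).resolve_left hU.1.symm.ne_bot
  obtain ⟨z, hz, e⟩ := h.exists_comm hU' (hU.2 hx) (h.not_mem_cent hU hU' hn hx hx1)
    (h.comm_mem hy (hU.2 hx))
  exact ⟨z, hz, h.cent_of_comm hU hx hx1 (mul_mem (inv_mem (hU'.2 hz)) hy)
    (comm_of_comm_eq e.symm)⟩

theorem center_cent_le (h : Hyp V) (hU : Adj V U) :
    PP V ⊓ 𝐂[U] ⊓ 𝐂[PP V ⊓ 𝐂[U]] ≤ V ⊔ U := by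
  obtain ⟨U', hU', hn⟩ := h.exists_partner hU
  rintro z ⟨⟨hz, hzU⟩, hz'⟩
  obtain ⟨x, hx, hx'⟩ := h.exists_mul hU' hU (fun h1 => hn (cent_comm h1)) hz
  have hxA : x ∈ 𝐂[PP V ⊓ 𝐂[U]] := cent_comm inf_le_right hx
  have h1 : x⁻¹ * z ∈ V := by
    refine h.center_le ⟨(PP V).mul_mem (inv_mem (hU.2 hx)) hz, mem_cent.2 fun y hy => ?_⟩
    obtain ⟨t, ht, ht'⟩ := h.exists_mul hU hU' hn hy
    have h2 := mem_cent.1 ((𝐂[PP V ⊓ 𝐂[U]]).mul_mem (inv_mem hxA) hz') _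
      ⟨(PP V).mul_mem (inv_mem (hU'.2 ht)) hy, ht'⟩
    have h3 := mem_cent.1 hx' t ht
    calc y * (x⁻¹ * z) = t * (t⁻¹ * y * (x⁻¹ * z)) := by group
      _ = _ := by rw [h2, ← mul_assoc, h3]; group
  rw [← mul_inv_cancel_left x z]
  exact mul_mem (mem_sup_right hx) (mem_sup_left h1)

/-- The case `|P| = |V|³`. -/
theorem small (h : Hyp V) (hU : Adj V U) (hA : PP V ⊓ 𝐂[U] ≤ V ⊔ U) :
    𝐍[V] ⊓ 𝐂[V ⊔ U] ≤ PP V := by
  obtain ⟨U', hU', hn⟩ := h.exists_partner hU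
  have hn' : ¬ U ≤ 𝐂[U'] := fun h1 => hn (cent_comm h1)
  have dec : ∀ y ∈ PP V, ∃ z ∈ U', ∃ v ∈ V, ∃ x ∈ U, y = z * (v * x) := fun y hy => by
    obtain ⟨z, hz, hz'⟩ := h.exists_mul hU hU' hn hy
    obtain ⟨v, hv, x, hx, e⟩ := h.mem_sup hU.2 (hA ⟨(PP V).mul_mem (inv_mem (hU'.2 hz)) hy, hz'⟩)
    exact ⟨z, hz, v, hv, x, hx, by rw [e, mul_inv_cancel_left]⟩
  have hA' : PP V ⊓ 𝐂[U'] ≤ V ⊔ U' := by
    rintro y ⟨hy, hy'⟩
    obtain ⟨z, hz, v, hv, x, hx, rfl⟩ := dec y hy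
    have hvc : v ∈ 𝐂[U'] := cent_comm (hU'.2.trans (PP_le_cent V)) hv
    have h1 : x ∈ 𝐂[U'] := by
      have := mul_mem (inv_mem hvc) (mul_mem (inv_mem ((h.of_cj hU'.1).le_cent hz)) hy')
      simpa using this
    have h2 : x = 1 := by_contra fun hx1 => h.not_mem_cent hU hU' hn hx hx1 h1
    rw [h2, mul_one]
    exact mul_mem (mem_sup_right hz) (mem_sup_left hv)
  have two : ∀ U₂, Adj V U₂ → V ⊔ U₂ = V ⊔ U ∨ V ⊔ U₂ = V ⊔ U' := fun U₂ h₂ => by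
    obtain ⟨y, hy, hy1⟩ := (bot_or_exists_ne_one U₂).resolve_left h₂.1.symm.ne_bot
    have key : y ∈ V ⊔ U ∨ y ∈ V ⊔ U' := by
      obtain ⟨z, hz, v, hv, x, hx, e⟩ := dec y (h₂.2 hy)
      by_cases hx1 : x = 1
      · exact Or.inr (by rw [e, hx1, mul_one]; exact mul_mem (mem_sup_right hz) (mem_sup_left hv))
      by_cases hz1 : z = 1
      · exact Or.inl (by rw [e, hz1, one_mul]; exact mul_mem (mem_sup_left hv) (mem_sup_right hx))
      refine absurd (h.cent_of_comm hU' hz hz1 (hU.2 hx) ?_) (h.not_mem_cent hU hU' hn hx hx1)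
      have h1 := (h.of_cj h₂.1).sq hy
      have c1 : v * z = z * v := mem_cent.1 (PP_le_cent V (hU'.2 hz)) v hv
      have c2 : v * x = x * v := mem_cent.1 (PP_le_cent V (hU.2 hx)) v hv
      have h2 : z * x * (z * x) = 1 := by
        rw [← h1, e]
        calc z * x * (z * x) = z * x * (v * v) * (z * x) := by rw [h.sq hv, mul_one]
          _ = z * (x * v) * ((v * z) * x) := by group
          _ = _ := by rw [← c2, c1]; group
      have h3 := eq_inv_of_mul_eq_one_left h2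
      rw [mul_inv_rev, (h.of_cj hU.1).inv hx, (h.of_cj hU'.1).inv hz] at h3
      exact h3.symm
    exact key.imp
      (fun k => h.sup_eq hU ⟨1, (cj_one V).symm⟩ h₂.1 le_sup_left (h.le_sup_of_mem hU h₂.1 hy hy1 k))
      fun k => h.sup_eq hU' ⟨1, (cj_one V).symm⟩ h₂.1 le_sup_left (h.le_sup_of_mem hU' h₂.1 hy hy1 k)
  have pg : ∀ U₂, Adj V U₂ → PP V ⊓ 𝐂[U₂] ≤ V ⊔ U₂ → IsPGroup 2 ↥(𝐍[V] ⊓ 𝐂[V ⊔ U₂]) := by
    intro U₂ h₂ hA₂
    set C := 𝐍[V] ⊓ 𝐂[V ⊔ U₂] with hC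
    have hCP : C ≤ 𝐍[PP V] := inf_le_left.trans (norm_PP V)
    have h1 : ⁅PP V, C⁆ ≤ V ⊔ U₂ := by
      refine (le_inf (comm_le_left hCP) ?_).trans hA₂
      rw [← comm_eq_bot_iff, eq_bot_iff]
      refine three_subgroups (norm_normal _ _) (norm_normal _ _) (norm_normal _ _) ?_ ?_
      · rw [comm_eq_bot_iff.2 (inf_le_right.trans (cent_anti le_sup_right)), commutator_bot_left]
      · exact (commutator_mono ((commutator_mono h₂.2 le_rfl).trans h.comm_le) le_rfl).trans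
          (comm_eq_bot_iff'.2 (inf_le_right.trans (cent_anti le_sup_left))).le
    have h2 : pResidualOf 2 C ≤ 𝐂[PP V] := res_le_cent_of_two (pg_PP V) ((res_le C).trans hCP)
      ((commutator_mono le_rfl (res_le C)).trans h1) ((res_le C).trans inf_le_right)
    exact pg_of_res_le (pg_PP V) (h.faith hU ((res_le C).trans inf_le_left)
      ((comm_eq_bot_iff'.2 h2).le.trans bot_le))
  have hcj : ∀ U₂, ∀ g ∈ 𝐍[V], cj(g, 𝐍[V] ⊓ 𝐂[V ⊔ U₂]) = 𝐍[V] ⊓ 𝐂[V ⊔ cj(g, U₂)] :=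
    fun U₂ g hg => by rw [cj_inf, cj_cent, cj_sup, cj_of_norm hg, cj_of_mem hg]
  refine le_sup_left.trans (TIL.le_PP (D := 𝐍[V] ⊓ 𝐂[V ⊔ U] ⊔ 𝐍[V] ⊓ 𝐂[V ⊔ U']) ?_ ?_ ?_)
  · refine pg_sup' (pg U hU hA) (pg U' hU' hA') (norm_of_forall_cj_le fun g hg => ?_)
    rw [hcj U g hg.1]
    rcases two _ (hU.cj_norm hg.1) with e | e
    · rw [e]
    · refine absurd ?_ hn'
      have e2 : cj(g, V ⊔ U) = cj(g, V ⊔ U') := by
        rw [cj_sup, cj_of_norm hg.1, e, cj_of_cent hg.2]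
      exact le_sup_right.trans ((cj_eq_cj.1 e2).le.trans
        ((h.sup_comm' hU').trans (cent_anti le_sup_right)))
  · exact sup_le (inf_le_right.trans (cent_anti le_sup_left))
      (inf_le_right.trans (cent_anti le_sup_left))
  · refine norm_of_forall_cj_le fun g hg => ?_
    rw [cj_sup, hcj U g hg, hcj U' g hg]
    refine sup_le ?_ ?_
    · rcases two _ (hU.cj_norm hg) with e | e <;> rw [e]
      exacts [le_sup_left, le_sup_right]
    · rcases two _ (hU'.cj_norm hg) with e | e <;> rw [e]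
      exacts [le_sup_left, le_sup_right]

/-- The relation `Adj` is symmetric. -/
theorem symm (h : Hyp V) (hU : Adj V U) : Adj U V := by
  refine ⟨hU.1.symm, by_contra fun hc => ?_⟩
  have h' := h.of_cj hU.1
  obtain ⟨U₂, h₂⟩ : ∃ U₂, Adj U U₂ := by
    obtain ⟨x, hx⟩ := hU.1.1
    have := hU.cj x
    rw [← hx] at this
    exact ⟨_, this⟩
  have hUV : U ≤ 𝐂[V] := hU.2.trans (PP_le_cent V)
  have hV1 : V ≤ 𝐍[PP U] := (norm_of_cent (cent_comm hUV)).trans (norm_PP U)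
  have star : ∀ u ∈ V, ∀ y ∈ PP U, ⁅y, u⁆ ∈ U → y * u = u * y := fun u hu y hy h1 =>
    commutatorElement_eq_one_iff_mul_comm.1 (by_contra fun h2 => hc (h.swap' hU hu hy h1 h2))
  have i1 : V ⊓ PP U = ⊥ := eq_bot_iff.2 fun u hu => mem_bot.2 (h.eq_one hU.1
    (h'.center_le ⟨hu.2, mem_cent.2 fun y hy => star u hu.1 y hy (h'.comm_mem hy hu.2)⟩) hu.1)
  set D := PP U ⊓ 𝐂[V] with hD
  have d1 : ∀ u ∈ V, u ≠ 1 → ∀ y ∈ PP U, ⁅y, u⁆ ∈ U → y ∈ D := fun u hu hu1 y hy h1 =>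
    ⟨hy, mem_cent.2 fun v hv => commutatorElement_eq_one_iff_mul_comm.1 (mem_bot.1 (i1 ▸
      ⟨comm_le_left (zpowers_le.2 (h.mem_norm hu hu1 (star u hu y hy h1)))
        (commutator_mem_commutator hv (mem_zpowers y)),
      comm_le_right hV1 (commutator_mem_commutator hv hy)⟩))⟩
  have d2 : ⁅V, PP U⁆ ≤ D := commutator_le.2 fun u hu y hy => by
    by_cases hu1 : u = 1
    · subst hu1; simp
    have ht : ⁅u, y⁆ ∈ PP U := comm_le_right hV1 (commutator_mem_commutator hu hy)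
    refine d1 u hu hu1 _ ht ?_
    have e := conj_comm_inv (h.sq hu) y
    have : ⁅⁅u, y⁆, u⁆ = ⁅u, y⁆ * ⁅u, y⁆ := by
      rw [commutatorElement_def ⁅u, y⁆ u, mul_assoc, mul_assoc, ← mul_assoc u]
      congr 1
      calc u * ⁅u, y⁆⁻¹ * u⁻¹ = (u * ⁅u, y⁆ * u⁻¹)⁻¹ := by group
        _ = _ := by rw [e, inv_inv]
    rw [this]
    exact h'.sq_mem ht
  set A := PP V ⊓ 𝐂[U] with hA
  have hA1 : A ≤ 𝐍[PP U] := (norm_of_cent inf_le_right).trans (norm_PP U)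
  have e1 : PP V ⊓ PP U ≤ U := by
    have h1 : PP V ⊓ PP U ≤ 𝐂[A] := by
      rw [← comm_eq_bot_iff', eq_bot_iff, ← i1]
      exact le_inf ((commutator_mono inf_le_left inf_le_left).trans h.comm_le)
        ((commutator_mono le_rfl inf_le_right).trans (comm_le_right hA1))
    have h2 := (le_inf (inf_le_inf_left _ (PP_le_cent U)) h1).trans (h.center_cent_le hU)
    refine (le_inf h2 inf_le_right).trans ?_
    rw [dedekind' (norm_of_cent hUV) h'.le_PP, i1, bot_sup_eq]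
  have hD1 : D ≤ 𝐍[PP V] := (norm_of_cent inf_le_right).trans (norm_PP V)
  have d3 : ⁅D, A⁆ ≤ U := (le_inf ((commutator_mono le_rfl inf_le_left).trans (comm_le_right hD1))
    ((commutator_mono inf_le_left le_rfl).trans (comm_le_left hA1))).trans e1
  have hUP : ⁅U, PP U⁆ = ⊥ := comm_eq_bot_iff'.2 (PP_le_cent U)
  have d4 : ⁅A, PP U⁆ ≤ 𝐂[D] := by
    rw [← comm_eq_bot_iff, eq_bot_iff]
    refine three_subgroups (norm_normal _ _) (norm_normal _ _) (norm_normal _ _) ?_ ?_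
    · exact (commutator_mono ((commutator_mono le_rfl inf_le_left).trans h'.comm_le) le_rfl).trans
        (comm_eq_bot_iff'.2 inf_le_right).le
    · exact (commutator_mono d3 le_rfl).trans hUP.le
  obtain ⟨u, hu, hu1⟩ := (bot_or_exists_ne_one V).resolve_left hU.1.ne_bot
  have d5 : PP U ⊓ 𝐂[D] ≤ D := by
    have h1 : ⁅PP U ⊓ 𝐂[D], V⁆ ≤ 𝐂[PP U] := by
      rw [← comm_eq_bot_iff, eq_bot_iff]
      refine three_subgroups (norm_normal _ _) (norm_normal _ _) (norm_normal _ _) ?_ ?_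
      · exact (commutator_mono d2 le_rfl).trans (comm_eq_bot_iff'.2 inf_le_right).le
      · exact (commutator_mono ((commutator_mono le_rfl inf_le_left).trans h'.comm_le) le_rfl).trans
          (comm_eq_bot_iff.2 hUV).le
    have h2 : ⁅PP U ⊓ 𝐂[D], V⁆ ≤ U :=
      (le_inf ((commutator_mono inf_le_left le_rfl).trans (comm_le_left hV1)) h1).trans h'.center_le
    exact fun y hy => d1 u hu hu1 y hy.1 (h2 (commutator_mem_commutator hy hu))
  have d6 : ⁅A, PP U⁆ ≤ D := (le_inf (comm_le_right hA1) d4).trans d5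
  have hAU : A ≤ 𝐍[U] := norm_of_cent inf_le_right
  have d7 : ⁅A, A⁆ ≤ PP U := by
    refine h'.faith h₂ ((comm_le_left le_normalizer).trans hAU) ?_
    rw [commutator_comm]
    refine three_subgroups hAU hAU (PP_le_norm U) ((commutator_mono d6 le_rfl).trans d3) ?_
    rw [commutator_comm (PP U)]
    exact (commutator_mono d6 le_rfl).trans d3
  have d8 : A ≤ V ⊔ U := by
    refine (le_inf le_rfl ?_).trans (h.center_cent_le hU)
    rw [← comm_eq_bot_iff, eq_bot_iff, ← i1]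
    exact le_inf ((commutator_mono inf_le_left inf_le_left).trans h.comm_le) d7
  have d9 : D ≤ U := (le_inf ((le_inf (norm_of_cent inf_le_right) (le_cent_sup inf_le_right
    (inf_le_left.trans (PP_le_cent U)))).trans (h.small hU d8)) inf_le_left).trans e1
  exact hc (h'.faith h₂ (norm_of_cent (cent_comm hUV)) (by
    rw [commutator_comm]; exact d2.trans d9))

theorem core_le (h : Hyp V) (hU : Adj V U) : pCoreOf 2 𝐍[V] ≤ 𝐂[V] := by
  have h' := h.of_cj hU.1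
  have hs := h.symm hU
  obtain ⟨c, ⟨hc, hcQ⟩, hc1⟩ := (bot_or_exists_ne_one (V ⊓ 𝐂[pCoreOf 2 𝐍[V]])).resolve_left
    (PG.inf_centralizer_ne_bot_of_isPGroup h.ea.isPGroup (pg_core _) (pCoreOf_le _) hU.1.ne_bot)
  obtain ⟨x, hx, hx1⟩ := (bot_or_exists_ne_one U).resolve_left hU.1.symm.ne_bot
  refine cent_comm fun v hv => ?_
  by_cases hv1 : v = 1
  · subst hv1; exact one_mem _
  obtain ⟨a, ha, e1⟩ := h'.exists_comm' hs hc hc1 hx
  obtain ⟨b, hb, e2⟩ := h'.exists_comm' hs hv hv1 hx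
  obtain ⟨d, hd, e3⟩ := h.exists_comm' hU hx hx1 (mul_mem hv (inv_mem hc))
  have c1 : c * d = d * c := mem_cent.1 (PP_le_cent V hd) c hc
  have c2 : c * x = x * c := mem_cent.1 (PP_le_cent V (hU.2 hx)) c hc
  have c3 : v * x = x * v := mem_cent.1 (PP_le_cent V (hU.2 hx)) v hv
  have f1 : a * c * a⁻¹ = x * c := by rw [← e1, commutatorElement_def, inv_mul_cancel_right]
  have f2 : b * v * b⁻¹ = x * v := by rw [← e2, commutatorElement_def, inv_mul_cancel_right]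
  have f3 : d * x * d⁻¹ = v * c⁻¹ * x := by rw [← e3, commutatorElement_def, inv_mul_cancel_right]
  have e : b⁻¹ * d * a * c * (b⁻¹ * d * a)⁻¹ = v := by
    calc _ = b⁻¹ * (d * (a * c * a⁻¹) * d⁻¹) * b := by group
      _ = b⁻¹ * (d * x * d⁻¹ * (d * c * d⁻¹)) * b := by rw [f1]; group
      _ = b⁻¹ * (v * (c⁻¹ * (x * c))) * b := by rw [f3, ← c1]; group
      _ = b⁻¹ * (b * v * b⁻¹) * b := by rw [← c2, f2, ← c3]; group
      _ = v := by group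
  have hn : b⁻¹ * d * a ∈ 𝐍[V] := cj_eq_iff.1
    (h.eq_of_mem ⟨1, (cj_one V).symm⟩ ⟨_, rfl⟩ hv1 hv (e ▸ conj_mem_cj hc))
  rw [← e]
  exact conj_mem_of_norm (norm_cent (le_norm_core _) hn) hcQ

end Hyp

end Cfsg.Agent.Loc.TIL
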